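import Mathlib
import Cfsg.Prelude.Def_RootSubgroups

/-!
# Generic lemmas on sets of abstract root subgroups (helper87)

Transfer of the root subgroup notions along injective homomorphisms, in particular from a group `G`
to the subgroup generated by a family of subgroups, and some generic consequences of the rank one
condition.
-/

set_option autoImplicit false

namespace Cfsg.Agent.Lib.Helper87

open scoped commutatorElement

section RootTransfer

variable {G H : Type*} [Group G] [Group H]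

theorem conjBy_map (f : H →* G) (A : Subgroup H) (h : H) :
    Cfsg.conjBy (A.map f) (f h) = (Cfsg.conjBy A h).map f := by
  show (A.map f).map (MulAut.conj (f h)).toMonoidHom = (A.map (MulAut.conj h).toMonoidHom).map f
  rw [Subgroup.map_map, Subgroup.map_map]
  congr 1
  ext x
  simp

theorem conjBy_conjBy (A : Subgroup G) (x y : G) :
    Cfsg.conjBy (Cfsg.conjBy A x) y = Cfsg.conjBy A (y * x) := by
  show (A.map (MulAut.conj x).toMonoidHom).map (MulAut.conj y).toMonoidHom =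
    A.map (MulAut.conj (y * x)).toMonoidHom
  rw [Subgroup.map_map]
  congr 1
  ext z
  simp [mul_assoc]

theorem conjBy_one (A : Subgroup G) : Cfsg.conjBy A 1 = A := by
  show A.map (MulAut.conj (1 : G)).toMonoidHom = A
  have h : (MulAut.conj (1 : G)).toMonoidHom = MonoidHom.id G := by
    ext z
    simp
  rw [h, Subgroup.map_id]

theorem conjBy_eq_self_of_comm (A : Subgroup G) (g : G) (h : ∀ x ∈ A, g * x = x * g) :
    Cfsg.conjBy A g = A := by
  ext y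
  constructor
  · rintro ⟨x, hx, rfl⟩
    show g * x * g⁻¹ ∈ A
    rw [h x hx, mul_inv_cancel_right]
    exact hx
  · intro hy
    refine ⟨y, hy, ?_⟩
    show g * y * g⁻¹ = y
    rw [h y hy, mul_inv_cancel_right]

theorem rankOneCondition_map_iff (f : H →* G) (hf : Function.Injective f) (A B : Subgroup H) :
    Cfsg.RankOneCondition (A.map f) (B.map f) ↔ Cfsg.RankOneCondition A B := by
  constructor
  · intro h a ha ha1
    obtain ⟨b', hb', hb1, hc⟩ := h (f a) (Subgroup.mem_map_of_mem f ha)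
      (fun h1 => ha1 (hf (h1.trans (map_one f).symm)))
    obtain ⟨b, hb, rfl⟩ := Subgroup.mem_map.mp hb'
    refine ⟨b, hb, fun h1 => hb1 (by rw [h1, map_one]), ?_⟩
    rw [← map_inv, ← map_inv, conjBy_map, conjBy_map] at hc
    exact Subgroup.map_injective hf hc
  · intro h a' ha' ha1
    obtain ⟨a, ha, rfl⟩ := Subgroup.mem_map.mp ha'
    obtain ⟨b, hb, hb1, hc⟩ := h a ha (fun h1 => ha1 (by rw [h1, map_one]))
    refine ⟨f b, Subgroup.mem_map_of_mem f hb, fun h1 => hb1 (hf (h1.trans (map_one f).symm)), ?_⟩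
    rw [← map_inv, ← map_inv, conjBy_map, conjBy_map, hc]

theorem isNilpotent_map_iff (f : H →* G) (hf : Function.Injective f) (A : Subgroup H) :
    Group.IsNilpotent ↥(A.map f) ↔ Group.IsNilpotent ↥A := by
  constructor
  · intro h
    exact Group.nilpotent_of_mulEquiv (A.equivMapOfInjective f hf).symm
  · intro h
    exact Group.nilpotent_of_mulEquiv (A.equivMapOfInjective f hf)

theorem isRankOnePair_map_iff (f : H →* G) (hf : Function.Injective f) (A B : Subgroup H) :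
    Cfsg.IsRankOnePair (A.map f) (B.map f) ↔ Cfsg.IsRankOnePair A B := by
  constructor
  · intro h
    exact ⟨fun hAB => h.ne (by rw [hAB]), (isNilpotent_map_iff f hf A).1 h.nilpotent_left,
      (isNilpotent_map_iff f hf B).1 h.nilpotent_right,
      (rankOneCondition_map_iff f hf A B).1 h.cond_left,
      (rankOneCondition_map_iff f hf B A).1 h.cond_right⟩
  · intro h
    exact ⟨fun hAB => h.ne (Subgroup.map_injective hf hAB), (isNilpotent_map_iff f hf A).2 h.nilpotent_left,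
      (isNilpotent_map_iff f hf B).2 h.nilpotent_right,
      (rankOneCondition_map_iff f hf A B).2 h.cond_left,
      (rankOneCondition_map_iff f hf B A).2 h.cond_right⟩

theorem commutator_map_eq_bot_iff (f : H →* G) (hf : Function.Injective f) (A B : Subgroup H) :
    ⁅A.map f, B.map f⁆ = ⊥ ↔ ⁅A, B⁆ = ⊥ := by
  rw [← Subgroup.map_commutator, Subgroup.map_eq_bot_iff_of_injective _ hf]

theorem rankOnePair_ne_bot {A B : Subgroup G} (h : Cfsg.IsRankOnePair A B) : A ≠ ⊥ := by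
  intro hA
  apply h.ne
  rw [hA]
  symm
  rw [Subgroup.eq_bot_iff_forall]
  intro b hb
  by_contra hb1
  obtain ⟨a, ha, ha1, -⟩ := h.cond_right b hb hb1
  rw [hA, Subgroup.mem_bot] at ha
  exact ha1 ha

theorem exists_ne_one_of_rankOnePair {A B : Subgroup G} (h : Cfsg.IsRankOnePair A B) :
    ∃ a ∈ A, a ≠ 1 := by
  by_contra hcon
  push Not at hcon
  exact rankOnePair_ne_bot h ((Subgroup.eq_bot_iff_forall A).2 hcon)

theorem exists_conj_of_rankOnePair {A B : Subgroup G} (h : Cfsg.IsRankOnePair A B) :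
    ∃ g : G, B = Cfsg.conjBy A g := by
  obtain ⟨a, ha, ha1⟩ := exists_ne_one_of_rankOnePair h
  obtain ⟨b, hb, hb1, hc⟩ := h.cond_left a ha ha1
  refine ⟨a * b⁻¹, ?_⟩
  rw [← conjBy_conjBy, hc, conjBy_conjBy, mul_inv_cancel, conjBy_one]

theorem rankOnePair_commutator_ne_bot {A B : Subgroup G} (h : Cfsg.IsRankOnePair A B) :
    ⁅A, B⁆ ≠ ⊥ := by
  intro hc
  obtain ⟨a, ha, ha1⟩ := exists_ne_one_of_rankOnePair h
  obtain ⟨b, hb, hb1, hconj⟩ := h.cond_left a ha ha1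
  have hcomm : ∀ x ∈ A, ∀ y ∈ B, x * y = y * x := by
    intro x hx y hy
    have h1 := Subgroup.commutator_mem_commutator hx hy
    rw [hc, Subgroup.mem_bot, commutatorElement_eq_one_iff_mul_comm] at h1
    exact h1
  have h1 : Cfsg.conjBy A b⁻¹ = A :=
    conjBy_eq_self_of_comm A b⁻¹ (fun x hx => (hcomm x hx b⁻¹ (B.inv_mem hb)).symm)
  have h2 : Cfsg.conjBy B a⁻¹ = B :=
    conjBy_eq_self_of_comm B a⁻¹ (fun y hy => hcomm a⁻¹ (A.inv_mem ha) y hy)
  rw [h1, h2] at hconj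
  exact h.ne hconj

/-- A rank one pair with commutative second member is never in the commutator case. -/
theorem not_rootCommutatorCase_of_rankOnePair {S : Set (Subgroup G)} {A B : Subgroup G}
    (h : Cfsg.IsRankOnePair A B) (hB : IsMulCommutative ↥B) : ¬ Cfsg.RootCommutatorCase S A B := by
  rintro ⟨-, hcent, -, -⟩
  apply rankOnePair_commutator_ne_bot h
  obtain ⟨a, ha, ha1⟩ := exists_ne_one_of_rankOnePair h
  obtain ⟨b, hb, hb1, hconj⟩ := h.cond_left a ha ha1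
  have hBc : ∀ y₁ ∈ B, ∀ y₂ ∈ B, y₁ * y₂ = y₂ * y₁ := by
    intro y₁ h₁ y₂ h₂
    have h3 := (isMulCommutative_iff.1 hB) ⟨y₁, h₁⟩ ⟨y₂, h₂⟩
    exact congrArg Subtype.val h3
  rw [Subgroup.commutator_eq_bot_iff_le_centralizer]
  intro x hx
  rw [Subgroup.mem_centralizer_iff]
  intro y hy
  have hx1 : b⁻¹ * x * b ∈ Cfsg.conjBy A b⁻¹ := ⟨x, hx, by simp⟩
  rw [hconj] at hx1
  obtain ⟨y', hy', hyx⟩ := hx1
  have hyx' : a⁻¹ * y' * a = b⁻¹ * x * b := by
    rw [← hyx]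
    simp
  have hc1 : ⁅x⁻¹, b⁻¹⁆ ∈ ⁅A, B⁆ :=
    Subgroup.commutator_mem_commutator (A.inv_mem hx) (B.inv_mem hb)
  have hc2 : ⁅y'⁻¹, a⁻¹⁆ ∈ ⁅A, B⁆ := by
    rw [Subgroup.commutator_comm]
    exact Subgroup.commutator_mem_commutator (B.inv_mem hy') (A.inv_mem ha)
  have hxe : x = y' * ⁅y'⁻¹, a⁻¹⁆ * ⁅x⁻¹, b⁻¹⁆⁻¹ := by
    have e1 : x * ⁅x⁻¹, b⁻¹⁆ = b⁻¹ * x * b := by
      rw [commutatorElement_def]
      group
    have e2 : y' * ⁅y'⁻¹, a⁻¹⁆ = a⁻¹ * y' * a := by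
      rw [commutatorElement_def]
      group
    rw [e2, hyx', ← e1, mul_inv_cancel_right]
  have k1 : ⁅x⁻¹, b⁻¹⁆ * y = y * ⁅x⁻¹, b⁻¹⁆ := hcent _ hc1 y (Subgroup.mem_sup_right hy)
  have k2 : ⁅y'⁻¹, a⁻¹⁆ * y = y * ⁅y'⁻¹, a⁻¹⁆ := hcent _ hc2 y (Subgroup.mem_sup_right hy)
  have k1' : ⁅x⁻¹, b⁻¹⁆⁻¹ * y = y * ⁅x⁻¹, b⁻¹⁆⁻¹ := (Commute.inv_left (show Commute _ _ from k1)).eq
  have k3 : y' * y = y * y' := hBc y' hy' y hy
  calc y * x = y * (y' * ⁅y'⁻¹, a⁻¹⁆ * ⁅x⁻¹, b⁻¹⁆⁻¹) := by rw [← hxe]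
    _ = (y * y') * ⁅y'⁻¹, a⁻¹⁆ * ⁅x⁻¹, b⁻¹⁆⁻¹ := by simp only [mul_assoc]
    _ = (y' * y) * ⁅y'⁻¹, a⁻¹⁆ * ⁅x⁻¹, b⁻¹⁆⁻¹ := by rw [k3]
    _ = y' * (y * ⁅y'⁻¹, a⁻¹⁆) * ⁅x⁻¹, b⁻¹⁆⁻¹ := by simp only [mul_assoc]
    _ = y' * (⁅y'⁻¹, a⁻¹⁆ * y) * ⁅x⁻¹, b⁻¹⁆⁻¹ := by rw [k2]
    _ = y' * ⁅y'⁻¹, a⁻¹⁆ * (y * ⁅x⁻¹, b⁻¹⁆⁻¹) := by simp only [mul_assoc]
    _ = y' * ⁅y'⁻¹, a⁻¹⁆ * (⁅x⁻¹, b⁻¹⁆⁻¹ * y) := by rw [k1']
    _ = (y' * ⁅y'⁻¹, a⁻¹⁆ * ⁅x⁻¹, b⁻¹⁆⁻¹) * y := by simp only [mul_assoc]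
    _ = x * y := by rw [← hxe]

/-- A set of commutative non-trivial subgroups any two of which commute or form a rank one pair
is degenerate. -/
theorem isDegenerate_of_pairs {S : Set (Subgroup G)} (hcomm : ∀ A ∈ S, IsMulCommutative ↥A)
    (hne : ∀ A ∈ S, A ≠ ⊥)
    (hpair : ∀ A ∈ S, ∀ B ∈ S, ⁅A, B⁆ = ⊥ ∨ Cfsg.IsRankOnePair A B) :
    Cfsg.IsDegenerateRootSet S := by
  intro A hA B hB hcase
  rcases hpair A hA B hB with h | h
  · exact hne _ hcase.1 h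
  · exact not_rootCommutatorCase_of_rankOnePair h (hcomm B hB) hcase

theorem isPSL2PairOver_subgroupOf (k : Type*) [Field k] (K : Subgroup G) {A B : Subgroup G}
    (hA : A ≤ K) (hB : B ≤ K) (h : Cfsg.IsPSL2PairOver k A B) :
    Cfsg.IsPSL2PairOver k (A.subgroupOf K) (B.subgroupOf K) := by
  obtain ⟨φ, hr, hk, hu, hl⟩ := h
  have hmem : ∀ x, φ x ∈ K := fun x =>
    (sup_le hA hB) (hr ▸ (MonoidHom.mem_range.2 ⟨x, rfl⟩ : φ x ∈ φ.range))
  have hcomp : K.subtype.comp (φ.codRestrict K hmem) = φ := rfl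
  refine ⟨φ.codRestrict K hmem, ?_, ?_, ?_, ?_⟩
  · apply Subgroup.map_injective K.subtype_injective
    rw [MonoidHom.range_eq_map, Subgroup.map_map, hcomp, Subgroup.map_sup,
      Subgroup.map_subgroupOf_eq_of_le hA, Subgroup.map_subgroupOf_eq_of_le hB, ← hr,
      MonoidHom.range_eq_map]
  · intro x hx
    apply hk
    rw [MonoidHom.mem_ker] at hx ⊢
    exact congrArg Subtype.val hx
  · apply Subgroup.map_injective K.subtype_injective
    rw [Subgroup.map_map, hcomp, Subgroup.map_subgroupOf_eq_of_le hA, hu]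
  · apply Subgroup.map_injective K.subtype_injective
    rw [Subgroup.map_map, hcomp, Subgroup.map_subgroupOf_eq_of_le hB, hl]

theorem subgroupOf_isMulCommutative (K : Subgroup G) {A : Subgroup G} (hA : IsMulCommutative ↥A) :
    IsMulCommutative ↥(A.subgroupOf K) := by
  rw [isMulCommutative_iff] at hA ⊢
  intro a b
  have h1 := hA ⟨((a : K) : G), Subgroup.mem_subgroupOf.1 a.2⟩
    ⟨((b : K) : G), Subgroup.mem_subgroupOf.1 b.2⟩
  have h2 : ((a : K) : G) * ((b : K) : G) = ((b : K) : G) * ((a : K) : G) :=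
    congrArg Subtype.val h1
  exact Subtype.ext (Subtype.ext h2)

theorem exists_conj_of_path {S : Set (Subgroup G)} {A B : Subgroup G}
    (h : Relation.ReflTransGen (Cfsg.FAdj S) A B) : ∃ g : G, B = Cfsg.conjBy A g := by
  induction h with
  | refl => exact ⟨1, (conjBy_one A).symm⟩
  | tail _ hbc ih =>
    obtain ⟨g, rfl⟩ := ih
    obtain ⟨g', hg'⟩ := exists_conj_of_rankOnePair hbc.2.2
    exact ⟨g' * g, by rw [hg', conjBy_conjBy]⟩

/-- Transfer of a degenerate connected system of root subgroups of `G` to the subgroup it generates. -/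
theorem root_class_transfer (L : Type*) [Field L] (S : Set (Subgroup G))
    (hcomm : ∀ A ∈ S, IsMulCommutative ↥A) (hne : ∀ A ∈ S, A ≠ ⊥)
    (hconj : ∀ A ∈ S, ∀ g : G, Cfsg.conjBy A g ∈ S)
    (hpair : ∀ A ∈ S, ∀ B ∈ S, ⁅A, B⁆ = ⊥ ∨ Cfsg.IsRankOnePair A B)
    (hk : ∀ A ∈ S, ∀ B ∈ S, Cfsg.IsRankOnePair A B → Cfsg.IsPSL2PairOver L A B)
    (hconn : Cfsg.IsConnectedFamily (Cfsg.FAdj S) S) (hS : S.Nonempty) :
    Cfsg.IsRootSubgroupClass ((fun A : Subgroup G => A.subgroupOf (⨆ B ∈ S, B)) '' S) ∧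
    Cfsg.IsDegenerateRootSet ((fun A : Subgroup G => A.subgroupOf (⨆ B ∈ S, B)) '' S) ∧
    Cfsg.IsKRootSubgroupSet L ((fun A : Subgroup G => A.subgroupOf (⨆ B ∈ S, B)) '' S) ∧
    Cfsg.IsConnectedFamily (Cfsg.FAdj ((fun A : Subgroup G => A.subgroupOf (⨆ B ∈ S, B)) '' S))
      ((fun A : Subgroup G => A.subgroupOf (⨆ B ∈ S, B)) '' S) := by
  have hle : ∀ A ∈ S, A ≤ ⨆ B ∈ S, B := fun A hA =>
    le_iSup₂ (f := fun (B : Subgroup G) (_ : B ∈ S) => B) A hA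
  generalize hK : (⨆ B ∈ S, B) = K at hle ⊢
  have hinj : Function.Injective K.subtype := K.subtype_injective
  have hmap : ∀ A ∈ S, (A.subgroupOf K).map K.subtype = A := fun A hA =>
    Subgroup.map_subgroupOf_eq_of_le (hle A hA)
  have hrk : ∀ A ∈ S, ∀ B ∈ S,
      (Cfsg.IsRankOnePair (A.subgroupOf K) (B.subgroupOf K) ↔ Cfsg.IsRankOnePair A B) := by
    intro A hA B hB
    rw [← isRankOnePair_map_iff K.subtype hinj, hmap A hA, hmap B hB]
  have hcm : ∀ A ∈ S, ∀ B ∈ S, (⁅A.subgroupOf K, B.subgroupOf K⁆ = ⊥ ↔ ⁅A, B⁆ = ⊥) := by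
    intro A hA B hB
    rw [← commutator_map_eq_bot_iff K.subtype hinj, hmap A hA, hmap B hB]
  have hcomm' : ∀ A' ∈ (fun A : Subgroup G => A.subgroupOf K) '' S, IsMulCommutative ↥A' := by
    rintro _ ⟨A, hA, rfl⟩
    exact subgroupOf_isMulCommutative K (hcomm A hA)
  have hne' : ∀ A' ∈ (fun A : Subgroup G => A.subgroupOf K) '' S, A' ≠ ⊥ := by
    rintro _ ⟨A, hA, rfl⟩ h0
    have h0' : A.subgroupOf K = ⊥ := h0
    apply hne A hA
    rw [← hmap A hA, h0', Subgroup.map_bot]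
  have hpair' : ∀ A' ∈ (fun A : Subgroup G => A.subgroupOf K) '' S,
      ∀ B' ∈ (fun A : Subgroup G => A.subgroupOf K) '' S, ⁅A', B'⁆ = ⊥ ∨ Cfsg.IsRankOnePair A' B' := by
    rintro _ ⟨A, hA, rfl⟩ _ ⟨B, hB, rfl⟩
    rcases hpair A hA B hB with h | h
    · exact Or.inl ((hcm A hA B hB).2 h)
    · exact Or.inr ((hrk A hA B hB).2 h)
  have hgen : (⨆ A' ∈ (fun A : Subgroup G => A.subgroupOf K) '' S, A') = ⊤ := by
    apply Subgroup.map_injective hinj
    rw [iSup_image, Subgroup.map_iSup]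
    have h1 : ∀ A : Subgroup G, (⨆ (_ : A ∈ S), A.subgroupOf K).map K.subtype = ⨆ (_ : A ∈ S), A := by
      intro A
      rw [Subgroup.map_iSup]
      exact iSup_congr (fun hA => hmap A hA)
    rw [iSup_congr h1, hK, ← MonoidHom.range_eq_map, Subgroup.range_subtype]
  have hconj' : ∀ A' ∈ (fun A : Subgroup G => A.subgroupOf K) '' S, ∀ g : ↥K,
      Cfsg.conjBy A' g ∈ (fun A : Subgroup G => A.subgroupOf K) '' S := by
    rintro _ ⟨A, hA, rfl⟩ g
    refine ⟨Cfsg.conjBy A (g : G), hconj A hA g, ?_⟩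
    apply Subgroup.map_injective hinj
    show ((Cfsg.conjBy A (g : G)).subgroupOf K).map K.subtype =
      (Cfsg.conjBy (A.subgroupOf K) g).map K.subtype
    rw [hmap _ (hconj A hA g), ← conjBy_map, hmap A hA]
    rfl
  have hroot : Cfsg.IsRootSubgroupSet ((fun A : Subgroup G => A.subgroupOf K) '' S) := by
    refine ⟨hcomm', hne', hgen, hconj', ?_⟩
    intro A' hA' B' hB'
    rcases hpair' A' hA' B' hB' with h | h
    · exact Or.inl h
    · exact Or.inr (Or.inl h)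
  have hconn' : Cfsg.IsConnectedFamily (Cfsg.FAdj ((fun A : Subgroup G => A.subgroupOf K) '' S))
      ((fun A : Subgroup G => A.subgroupOf K) '' S) := by
    rintro _ ⟨A, hA, rfl⟩ _ ⟨B, hB, rfl⟩
    refine Relation.ReflTransGen.lift (fun A : Subgroup G => A.subgroupOf K) ?_ _ _ (hconn A hA B hB)
    rintro C D ⟨hC, hD, hCD⟩
    exact ⟨⟨C, hC, rfl⟩, ⟨D, hD, rfl⟩, (hrk C hC D hD).2 hCD⟩
  refine ⟨⟨hroot, ?_, ?_⟩, isDegenerate_of_pairs hcomm' hne' hpair', ⟨hroot, ?_⟩, hconn'⟩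
  · obtain ⟨A, hA⟩ := hS
    exact ⟨_, ⟨A, hA, rfl⟩⟩
  · intro A' hA' B' hB'
    exact exists_conj_of_path (hconn' A' hA' B' hB')
  · rintro _ ⟨A, hA, rfl⟩ _ ⟨B, hB, rfl⟩ hAB
    exact isPSL2PairOver_subgroupOf L K (hle A hA) (hle B hB) (hk A hA B hB ((hrk A hA B hB).1 hAB))

end RootTransfer

end Cfsg.Agent.Lib.Helper87
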