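import Mathlib
import Cfsg.Prelude.Def_RootSubgroups
import Cfsg.Prelude.Def_LieClassical
import Cfsg.Agent.Lib.Helper7.GUOrder
import Cfsg.Agent.Lib.Helper7.SUCenter
import Cfsg.Agent.Lib.Helper18.Unitary
import Cfsg.Agent.Lib.Helper18.UnitaryTv
import Cfsg.Agent.Lib.Helper52.GUEmbed
import Cfsg.Agent.Lib.Helper47.SLGen
import Cfsg.Agent.Lib.Helper87.SpRoot
import Cfsg.Agent.Lib.Helper87.RootTransfer

/-!
# Unitary transvection groups as a class of abstract root subgroups (helper87, S5071)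
-/

set_option autoImplicit false
set_option linter.unusedSectionVars false
set_option linter.unusedVariables false

namespace Cfsg.Agent.Lib.Helper87

open Matrix Cfsg.Agent.Lib.Helper7 Cfsg.Agent.Lib.Helper18

section SUForm

variable {F : Type*} [Field F] [Fintype F] {q n : ℕ}

/-- The matrix of an element of `SU`. -/
abbrev suM (g : ↥(Cfsg.SU n F q)) : Matrix (Fin n) (Fin n) F :=
  ((g : Matrix.SpecialLinearGroup (Fin n) F) : Matrix (Fin n) (Fin n) F)

theorem suM_mul (g h : ↥(Cfsg.SU n F q)) : suM (g * h) = suM g * suM h := rfl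

theorem suM_one : suM (1 : ↥(Cfsg.SU n F q)) = 1 := rfl

theorem su_mul_mulVec (g h : ↥(Cfsg.SU n F q)) (v : Fin n → F) :
    suM (g * h) *ᵥ v = suM g *ᵥ (suM h *ᵥ v) := by
  rw [suM_mul, Matrix.mulVec_mulVec]

theorem su_inv_mulVec (g : ↥(Cfsg.SU n F q)) (v : Fin n → F) :
    suM g⁻¹ *ᵥ (suM g *ᵥ v) = v := by
  rw [← su_mul_mulVec, inv_mul_cancel, suM_one, Matrix.one_mulVec]

theorem su_mulVec_inv (g : ↥(Cfsg.SU n F q)) (v : Fin n → F) :
    suM g *ᵥ (suM g⁻¹ *ᵥ v) = v := by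
  rw [← su_mul_mulVec, mul_inv_cancel, suM_one, Matrix.one_mulVec]

theorem su_ext {g h : ↥(Cfsg.SU n F q)} (H : ∀ v : Fin n → F, suM g *ᵥ v = suM h *ᵥ v) : g = h := by
  apply Subtype.ext
  apply Subtype.ext
  apply Matrix.toLin'.injective
  apply LinearMap.ext
  intro v
  rw [Matrix.toLin'_apply, Matrix.toLin'_apply]
  exact H v

theorem su_pres (g : ↥(Cfsg.SU n F q)) (u v : Fin n → F) :
    Cfsg.hermForm n F q (suM g *ᵥ u) (suM g *ᵥ v) = Cfsg.hermForm n F q u v :=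
  (mem_SU_iff g.1).mp g.2 u v

/-! ### Trace zero elements -/

theorem tz_zero (hF : Fintype.card F = q ^ 2) : (0 : F) + 0 ^ q = 0 := by
  rw [zero_pow (herm_q_ne_zero hF), add_zero]

theorem tz_add (hF : Fintype.card F = q ^ 2) {c d : F} (hc : c + c ^ q = 0) (hd : d + d ^ q = 0) :
    (c + d) + (c + d) ^ q = 0 := by
  rw [herm_add_pow hF]
  linear_combination hc + hd

theorem tz_neg (hF : Fintype.card F = q ^ 2) {c : F} (hc : c + c ^ q = 0) :
    (-c) + (-c) ^ q = 0 := by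
  rw [herm_neg_pow hF]
  linear_combination -hc

theorem tz_fix_mul {c x : F} (hc : c + c ^ q = 0) (hx : x ^ q = x) :
    (x * c) + (x * c) ^ q = 0 := by
  rw [mul_pow, hx]
  linear_combination x * hc

theorem tz_norm_mul (hF : Fintype.card F = q ^ 2) {c : F} (hc : c + c ^ q = 0) (a : F) :
    (a ^ (q + 1) * c) + (a ^ (q + 1) * c) ^ q = 0 :=
  tz_fix_mul hc (herm_norm_fixed hF a)

theorem tz_inv {c : F} (hc : c + c ^ q = 0) : c⁻¹ + (c⁻¹) ^ q = 0 := by
  by_cases h0 : c = 0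
  · subst h0
    rw [_root_.inv_zero]
    exact hc
  · have h1 : c ^ q = -c := by linear_combination hc
    rw [inv_pow, h1, inv_neg, add_neg_cancel]

theorem tz_div_fixed {c e : F} (hc : c + c ^ q = 0) (he : e + e ^ q = 0) :
    (c / e) ^ q = c / e := by
  have h1 : c ^ q = -c := by linear_combination hc
  have h2 : e ^ q = -e := by linear_combination he
  rw [div_pow, h1, h2, neg_div_neg_eq]

theorem exists_not_fixed' (hF : Fintype.card F = q ^ 2) : ∃ θ : F, θ ^ q ≠ θ := by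
  classical
  have hq := herm_two_le hF
  by_contra hcon
  push Not at hcon
  have hne : (Polynomial.X ^ q - Polynomial.X : Polynomial F) ≠ 0 :=
    FiniteField.X_pow_card_sub_X_ne_zero F (by omega)
  have hdeg : (Polynomial.X ^ q - Polynomial.X : Polynomial F).natDegree = q :=
    FiniteField.X_pow_card_sub_X_natDegree_eq F (by omega)
  have hsub : (Finset.univ : Finset F) ⊆
      (Polynomial.X ^ q - Polynomial.X : Polynomial F).roots.toFinset := by
    intro x _
    rw [Multiset.mem_toFinset, Polynomial.mem_roots hne]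
    simp [hcon x]
  have h2 := Finset.card_le_card hsub
  have h3 := Multiset.toFinset_card_le (Polynomial.X ^ q - Polynomial.X : Polynomial F).roots
  have h4 := Polynomial.card_roots' (Polynomial.X ^ q - Polynomial.X : Polynomial F)
  rw [Finset.card_univ, hF] at h2
  rw [hdeg] at h4
  nlinarith

theorem exists_tz_ne_zero (hF : Fintype.card F = q ^ 2) : ∃ e : F, e ≠ 0 ∧ e + e ^ q = 0 := by
  obtain ⟨θ, hθ⟩ := exists_not_fixed' hF
  refine ⟨θ - θ ^ q, sub_ne_zero.mpr (Ne.symm hθ), ?_⟩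
  rw [herm_sub_pow hF, herm_pow_pow hF]
  ring

/-- The fixed field of `x ↦ x ^ q` is the image of any field with `q` elements. -/
theorem exists_of_fixed (hF : Fintype.card F = q ^ 2) {L : Type*} [Field L] [Fintype L]
    (hL : Fintype.card L = q) (ι : L →+* F) {y : F} (hy : y ^ q = y) : ∃ x : L, ι x = y := by
  classical
  have hq := herm_two_le hF
  have hne : (Polynomial.X ^ q - Polynomial.X : Polynomial F) ≠ 0 :=
    FiniteField.X_pow_card_sub_X_ne_zero F (by omega)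
  have hdeg : (Polynomial.X ^ q - Polynomial.X : Polynomial F).natDegree = q :=
    FiniteField.X_pow_card_sub_X_natDegree_eq F (by omega)
  have hsub : (Finset.univ : Finset L).image ι ⊆
      (Polynomial.X ^ q - Polynomial.X : Polynomial F).roots.toFinset := by
    intro z hz
    obtain ⟨x, -, rfl⟩ := Finset.mem_image.1 hz
    rw [Multiset.mem_toFinset, Polynomial.mem_roots hne]
    have hx : x ^ q = x := by
      rw [← hL]
      exact FiniteField.pow_card x
    have h1 : ι x ^ q = ι x := by rw [← map_pow, hx]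
    simp [h1]
  have hcard : ((Finset.univ : Finset L).image ι).card = q := by
    rw [Finset.card_image_of_injective _ ι.injective, Finset.card_univ, hL]
  have h3 := Multiset.toFinset_card_le (Polynomial.X ^ q - Polynomial.X : Polynomial F).roots
  have h4 := Polynomial.card_roots' (Polynomial.X ^ q - Polynomial.X : Polynomial F)
  rw [hdeg] at h4
  have heq := Finset.eq_of_subset_of_card_le hsub (by rw [hcard]; exact h3.trans h4)
  have hy' : y ∈ (Polynomial.X ^ q - Polynomial.X : Polynomial F).roots.toFinset := by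
    rw [Multiset.mem_toFinset, Polynomial.mem_roots hne]
    simp [hy]
  rw [← heq] at hy'
  obtain ⟨x, -, hx⟩ := Finset.mem_image.1 hy'
  exact ⟨x, hx⟩

/-! ### Vectors -/

theorem exists_herm_one {p : Fin n → F} (hp0 : p ≠ 0) :
    ∃ w : Fin n → F, Cfsg.hermForm n F q w p = 1 := by
  classical
  obtain ⟨i, hi⟩ := Function.ne_iff.mp hp0
  have hi' : p i ^ q ≠ 0 := pow_ne_zero q hi
  refine ⟨(p i ^ q)⁻¹ • Pi.single i 1, ?_⟩
  rw [hf_smul_left, hf_single_left, inv_mul_cancel₀ hi']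

theorem herm_ne_zero_left (hF : Fintype.card F = q ^ 2) {p r : Fin n → F}
    (h : Cfsg.hermForm n F q p r ≠ 0) : p ≠ 0 := by
  rintro rfl
  exact h (hf_zero_left n r)

theorem herm_ne_zero_right (hF : Fintype.card F = q ^ 2) {p r : Fin n → F}
    (h : Cfsg.hermForm n F q p r ≠ 0) : r ≠ 0 := by
  rintro rfl
  exact h (hf_zero_right hF n p)

theorem herm_ne_zero_symm (hF : Fintype.card F = q ^ 2) {p r : Fin n → F}
    (h : Cfsg.hermForm n F q p r ≠ 0) : Cfsg.hermForm n F q r p ≠ 0 :=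
  fun h0 => h (hf_eq_zero_symm hF n r p h0)

/-! ### Unitary transvections -/

/-- The unitary transvection `v ↦ v + c h(v, p) p` as an element of `SU`; it is the identity
unless `p` is isotropic and `c` has trace zero. -/
noncomputable def tU (hF : Fintype.card F = q ^ 2) (p : Fin n → F) (c : F) : ↥(Cfsg.SU n F q) :=
  @dite _ (Cfsg.hermForm n F q p p = 0 ∧ c + c ^ q = 0) (Classical.propDecidable _)
    (fun h => suMk hF (Cfsg.unitaryTransvection n q p c) (transvection_det n p c h.1)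
      (isFr_of_preserves hF _ (transvection_preserves hF n p c h.1 h.2)))
    (fun _ => 1)

theorem tU_mulVec (hF : Fintype.card F = q ^ 2) {p : Fin n → F} {c : F}
    (hp : Cfsg.hermForm n F q p p = 0) (hc : c + c ^ q = 0) (v : Fin n → F) :
    suM (tU hF p c) *ᵥ v = v + (c * Cfsg.hermForm n F q v p) • p := by
  rw [tU, dif_pos ⟨hp, hc⟩]
  exact unitaryTransvection_mulVec n p c v

theorem tU_zero (hF : Fintype.card F = q ^ 2) {p : Fin n → F}
    (hp : Cfsg.hermForm n F q p p = 0) : tU hF p 0 = 1 := by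
  apply su_ext
  intro v
  rw [tU_mulVec hF hp (tz_zero hF), zero_mul, zero_smul, add_zero, suM_one, Matrix.one_mulVec]

theorem tU_mul (hF : Fintype.card F = q ^ 2) {p : Fin n → F} {c d : F}
    (hp : Cfsg.hermForm n F q p p = 0) (hc : c + c ^ q = 0) (hd : d + d ^ q = 0) :
    tU hF p c * tU hF p d = tU hF p (c + d) := by
  apply su_ext
  intro v
  rw [su_mul_mulVec, tU_mulVec hF hp hd, tU_mulVec hF hp hc, tU_mulVec hF hp (tz_add hF hc hd),
    hf_add_left, hf_smul_left, hp, mul_zero, add_zero, add_assoc, ← add_smul]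
  congr 2
  ring

theorem tU_inv (hF : Fintype.card F = q ^ 2) {p : Fin n → F} {c : F}
    (hp : Cfsg.hermForm n F q p p = 0) (hc : c + c ^ q = 0) :
    (tU hF p c)⁻¹ = tU hF p (-c) := by
  apply inv_eq_of_mul_eq_one_right
  rw [tU_mul hF hp hc (tz_neg hF hc), add_neg_cancel, tU_zero hF hp]

theorem herm_su_self (g : ↥(Cfsg.SU n F q)) {p : Fin n → F}
    (hp : Cfsg.hermForm n F q p p = 0) : Cfsg.hermForm n F q (suM g *ᵥ p) (suM g *ᵥ p) = 0 := by
  rw [su_pres, hp]

theorem tU_conj (hF : Fintype.card F = q ^ 2) {p : Fin n → F} {c : F}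
    (hp : Cfsg.hermForm n F q p p = 0) (hc : c + c ^ q = 0) (g : ↥(Cfsg.SU n F q)) :
    g * tU hF p c * g⁻¹ = tU hF (suM g *ᵥ p) c := by
  apply su_ext
  intro v
  rw [su_mul_mulVec, su_mul_mulVec, tU_mulVec hF hp hc, tU_mulVec hF (herm_su_self g hp) hc,
    Matrix.mulVec_add, su_mulVec_inv, Matrix.mulVec_smul]
  have h1 : Cfsg.hermForm n F q (suM g⁻¹ *ᵥ v) p = Cfsg.hermForm n F q v (suM g *ᵥ p) := by
    rw [← su_pres g, su_mulVec_inv]
  rw [h1]

theorem herm_smul_self {p : Fin n → F} (hp : Cfsg.hermForm n F q p p = 0) (a : F) :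
    Cfsg.hermForm n F q (a • p) (a • p) = 0 := by
  rw [hf_smul_left, hf_smul_right, hp, mul_zero, mul_zero]

theorem tU_smul (hF : Fintype.card F = q ^ 2) {p : Fin n → F} {c : F}
    (hp : Cfsg.hermForm n F q p p = 0) (hc : c + c ^ q = 0) (a : F) :
    tU hF (a • p) c = tU hF p (a ^ (q + 1) * c) := by
  apply su_ext
  intro v
  rw [tU_mulVec hF (herm_smul_self hp a) hc, tU_mulVec hF hp (tz_norm_mul hF hc a), hf_smul_right,
    smul_smul]
  congr 2
  ring

theorem tU_comm (hF : Fintype.card F = q ^ 2) {p r : Fin n → F} {c d : F}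
    (hp : Cfsg.hermForm n F q p p = 0) (hr : Cfsg.hermForm n F q r r = 0)
    (hpr : Cfsg.hermForm n F q p r = 0) (hc : c + c ^ q = 0) (hd : d + d ^ q = 0) :
    tU hF p c * tU hF r d = tU hF r d * tU hF p c := by
  have hrp : Cfsg.hermForm n F q r p = 0 := hf_eq_zero_symm hF n p r hpr
  apply su_ext
  intro v
  rw [su_mul_mulVec, su_mul_mulVec, tU_mulVec hF hr hd, tU_mulVec hF hp hc, tU_mulVec hF hp hc,
    tU_mulVec hF hr hd, hf_add_left, hf_add_left, hf_smul_left, hf_smul_left, hpr, hrp, mul_zero,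
    mul_zero, add_zero, add_zero]
  abel

theorem tU_ne_one (hF : Fintype.card F = q ^ 2) {p : Fin n → F} {c : F}
    (hp : Cfsg.hermForm n F q p p = 0) (hp0 : p ≠ 0) (hc : c + c ^ q = 0) (hc0 : c ≠ 0) :
    tU hF p c ≠ 1 := by
  intro h
  obtain ⟨w, hw⟩ := exists_herm_one (q := q) hp0
  have h1 := tU_mulVec hF hp hc w
  rw [h, suM_one, Matrix.one_mulVec, hw, mul_one] at h1
  have h2 : c • p = 0 := by
    have h3 : w + 0 = w + c • p := by rw [add_zero]; exact h1
    exact (add_left_cancel h3).symm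
  rcases smul_eq_zero.1 h2 with h3 | h3
  · exact hc0 h3
  · exact hp0 h3

end SUForm

section SUSubgroups

variable {F : Type*} [Field F] [Fintype F] {q n : ℕ}

/-- The group of unitary transvections with centre `p`. -/
def TU (hF : Fintype.card F = q ^ 2) (p : Fin n → F) : Subgroup ↥(Cfsg.SU n F q) :=
  Subgroup.closure {g | ∃ c : F, c + c ^ q = 0 ∧ tU hF p c = g}

theorem tU_mem_TU (hF : Fintype.card F = q ^ 2) (p : Fin n → F) {c : F} (hc : c + c ^ q = 0) :
    tU hF p c ∈ TU hF p :=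
  Subgroup.subset_closure ⟨c, hc, rfl⟩

theorem mem_TU (hF : Fintype.card F = q ^ 2) {p : Fin n → F}
    (hp : Cfsg.hermForm n F q p p = 0) {g : ↥(Cfsg.SU n F q)} :
    g ∈ TU hF p ↔ ∃ c : F, c + c ^ q = 0 ∧ tU hF p c = g := by
  constructor
  · intro hg
    induction hg using Subgroup.closure_induction with
    | mem x hx => exact hx
    | one => exact ⟨0, tz_zero hF, tU_zero hF hp⟩
    | mul x y _ _ hx hy =>
      obtain ⟨c, hc, rfl⟩ := hx
      obtain ⟨d, hd, rfl⟩ := hy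
      exact ⟨c + d, tz_add hF hc hd, (tU_mul hF hp hc hd).symm⟩
    | inv x _ hx =>
      obtain ⟨c, hc, rfl⟩ := hx
      exact ⟨-c, tz_neg hF hc, (tU_inv hF hp hc).symm⟩
  · rintro ⟨c, hc, rfl⟩
    exact tU_mem_TU hF p hc

/-- The generating set of the statement consists exactly of the transvections `tU p c`. -/
theorem closure_eq_TU (hF : Fintype.card F = q ^ 2) {p : Fin n → F} (hp0 : p ≠ 0)
    (hp : Cfsg.hermForm n F q p p = 0) :
    Subgroup.closure {g : ↥(Cfsg.SU n F q) |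
      (∀ v : Fin n → F, ∃ c : F, ((g : Matrix.SpecialLinearGroup (Fin n) F) : Matrix (Fin n) (Fin n) F) *ᵥ v = v + c • p) ∧
      ∀ v : Fin n → F, Cfsg.hermForm n F q v p = 0 →
        ((g : Matrix.SpecialLinearGroup (Fin n) F) : Matrix (Fin n) (Fin n) F) *ᵥ v = v} = TU hF p := by
  have hset : {g : ↥(Cfsg.SU n F q) |
      (∀ v : Fin n → F, ∃ c : F, ((g : Matrix.SpecialLinearGroup (Fin n) F) : Matrix (Fin n) (Fin n) F) *ᵥ v = v + c • p) ∧
      ∀ v : Fin n → F, Cfsg.hermForm n F q v p = 0 →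
        ((g : Matrix.SpecialLinearGroup (Fin n) F) : Matrix (Fin n) (Fin n) F) *ᵥ v = v} =
      {g | ∃ c : F, c + c ^ q = 0 ∧ tU hF p c = g} := by
    ext g
    constructor
    · rintro ⟨h1, h2⟩
      obtain ⟨w, hw⟩ := exists_herm_one (q := q) hp0
      have hpw : Cfsg.hermForm n F q p w = 1 := by rw [hf_conj hF n w p, hw, one_pow]
      obtain ⟨c, hc⟩ := h1 w
      have hc' : suM g *ᵥ w = w + c • p := hc
      have hall : ∀ v : Fin n → F, suM g *ᵥ v = v + (c * Cfsg.hermForm n F q v p) • p := by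
        intro v
        have hv' : Cfsg.hermForm n F q (v - Cfsg.hermForm n F q v p • w) p = 0 := by
          rw [hf_sub_left, hf_smul_left, hw, mul_one, sub_self]
        have h3 : suM g *ᵥ (v - Cfsg.hermForm n F q v p • w) = v - Cfsg.hermForm n F q v p • w :=
          h2 _ hv'
        have h4 : v = (v - Cfsg.hermForm n F q v p • w) + Cfsg.hermForm n F q v p • w := by
          rw [sub_add_cancel]
        calc suM g *ᵥ v
            = suM g *ᵥ ((v - Cfsg.hermForm n F q v p • w) + Cfsg.hermForm n F q v p • w) := by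
              rw [← h4]
          _ = (v - Cfsg.hermForm n F q v p • w) + Cfsg.hermForm n F q v p • (w + c • p) := by
              rw [Matrix.mulVec_add, Matrix.mulVec_smul, h3, hc']
          _ = v + (c * Cfsg.hermForm n F q v p) • p := by
              rw [smul_add, smul_smul, mul_comm c]
              abel
      have htz : c + c ^ q = 0 := by
        have h5 := su_pres g w w
        rw [hc', hf_add_left, hf_add_right hF, hf_add_right hF, hf_smul_left, hf_smul_left,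
          hf_smul_right, hf_smul_right, hw, hpw, hp] at h5
        linear_combination h5
      refine ⟨c, htz, su_ext (fun v => ?_)⟩
      rw [tU_mulVec hF hp htz, hall]
    · rintro ⟨c, hc, rfl⟩
      refine ⟨fun v => ⟨c * Cfsg.hermForm n F q v p, tU_mulVec hF hp hc v⟩, fun v hv => ?_⟩
      have h1 := tU_mulVec hF hp hc v
      rw [hv, mul_zero, zero_smul, add_zero] at h1
      exact h1
  rw [hset]
  rfl

/-- The set of all unitary transvection groups. -/
def SigU (hF : Fintype.card F = q ^ 2) (n : ℕ) : Set (Subgroup ↥(Cfsg.SU n F q)) :=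
  {A | ∃ p : Fin n → F, p ≠ 0 ∧ Cfsg.hermForm n F q p p = 0 ∧ A = TU hF p}

theorem sigU_eq (hF : Fintype.card F = q ^ 2) (n : ℕ) :
    {A : Subgroup ↥(Cfsg.SU n F q) | ∃ p : Fin n → F, p ≠ 0 ∧ Cfsg.hermForm n F q p p = 0 ∧
          A = Subgroup.closure {g : ↥(Cfsg.SU n F q) |
            (∀ v : Fin n → F, ∃ c : F, ((g : Matrix.SpecialLinearGroup (Fin n) F) : Matrix (Fin n) (Fin n) F) *ᵥ v = v + c • p) ∧
            ∀ v : Fin n → F, Cfsg.hermForm n F q v p = 0 →
              ((g : Matrix.SpecialLinearGroup (Fin n) F) : Matrix (Fin n) (Fin n) F) *ᵥ v = v}} = SigU hF n := by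
  ext A
  constructor
  · rintro ⟨p, hp0, hp, hA⟩
    exact ⟨p, hp0, hp, hA.trans (closure_eq_TU hF hp0 hp)⟩
  · rintro ⟨p, hp0, hp, hA⟩
    exact ⟨p, hp0, hp, hA.trans (closure_eq_TU hF hp0 hp).symm⟩

theorem TU_smul (hF : Fintype.card F = q ^ 2) {p : Fin n → F}
    (hp : Cfsg.hermForm n F q p p = 0) {a : F} (ha : a ≠ 0) : TU hF (a • p) = TU hF p := by
  ext g
  rw [mem_TU hF (herm_smul_self hp a), mem_TU hF hp]
  constructor
  · rintro ⟨c, hc, rfl⟩
    exact ⟨a ^ (q + 1) * c, tz_norm_mul hF hc a, (tU_smul hF hp hc a).symm⟩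
  · rintro ⟨c, hc, rfl⟩
    have hfix : ((a ^ (q + 1))⁻¹) ^ q = (a ^ (q + 1))⁻¹ := by
      rw [inv_pow, herm_norm_fixed hF]
    have hc' : ((a ^ (q + 1))⁻¹ * c) + ((a ^ (q + 1))⁻¹ * c) ^ q = 0 := tz_fix_mul hc hfix
    refine ⟨(a ^ (q + 1))⁻¹ * c, hc', ?_⟩
    rw [tU_smul hF hp hc' a]
    congr 1
    have ha' : a ^ (q + 1) ≠ 0 := pow_ne_zero _ ha
    field_simp

theorem conjBy_TU (hF : Fintype.card F = q ^ 2) {p : Fin n → F}
    (hp : Cfsg.hermForm n F q p p = 0) (g : ↥(Cfsg.SU n F q)) :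
    Cfsg.conjBy (TU hF p) g = TU hF (suM g *ᵥ p) := by
  ext x
  constructor
  · rintro ⟨y, hy, rfl⟩
    obtain ⟨c, hc, rfl⟩ := (mem_TU hF hp).1 hy
    rw [mem_TU hF (herm_su_self g hp)]
    exact ⟨c, hc, (tU_conj hF hp hc g).symm⟩
  · intro hx
    obtain ⟨c, hc, rfl⟩ := (mem_TU hF (herm_su_self g hp)).1 hx
    exact ⟨tU hF p c, tU_mem_TU hF p hc, tU_conj hF hp hc g⟩

theorem TU_comm (hF : Fintype.card F = q ^ 2) {p r : Fin n → F}
    (hp : Cfsg.hermForm n F q p p = 0) (hr : Cfsg.hermForm n F q r r = 0)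
    (hpr : Cfsg.hermForm n F q p r = 0) {a b : ↥(Cfsg.SU n F q)}
    (ha : a ∈ TU hF p) (hb : b ∈ TU hF r) : a * b = b * a := by
  obtain ⟨c, hc, rfl⟩ := (mem_TU hF hp).1 ha
  obtain ⟨d, hd, rfl⟩ := (mem_TU hF hr).1 hb
  exact tU_comm hF hp hr hpr hc hd

theorem TU_commutator_eq_bot (hF : Fintype.card F = q ^ 2) {p r : Fin n → F}
    (hp : Cfsg.hermForm n F q p p = 0) (hr : Cfsg.hermForm n F q r r = 0)
    (hpr : Cfsg.hermForm n F q p r = 0) : ⁅TU hF p, TU hF r⁆ = ⊥ := by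
  rw [Subgroup.commutator_eq_bot_iff_le_centralizer]
  intro a ha
  rw [Subgroup.mem_centralizer_iff]
  intro b hb
  exact (TU_comm hF hp hr hpr ha hb).symm

theorem TU_isMulCommutative (hF : Fintype.card F = q ^ 2) {p : Fin n → F}
    (hp : Cfsg.hermForm n F q p p = 0) : IsMulCommutative ↥(TU hF p) := by
  rw [isMulCommutative_iff]
  intro a b
  apply Subtype.ext
  exact TU_comm hF hp hp hp a.2 b.2

theorem TU_isNilpotent (hF : Fintype.card F = q ^ 2) {p : Fin n → F}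
    (hp : Cfsg.hermForm n F q p p = 0) : Group.IsNilpotent ↥(TU hF p) := by
  have h := TU_isMulCommutative hF hp
  rw [isMulCommutative_iff] at h
  let _ : CommGroup ↥(TU hF p) := { (inferInstance : Group ↥(TU hF p)) with mul_comm := h }
  exact CommGroup.isNilpotent

theorem TU_ne_bot (hF : Fintype.card F = q ^ 2) {p : Fin n → F}
    (hp : Cfsg.hermForm n F q p p = 0) (hp0 : p ≠ 0) : TU hF p ≠ ⊥ := by
  intro h
  obtain ⟨e, he0, he⟩ := exists_tz_ne_zero hF
  have h1 : tU hF p e ∈ (⊥ : Subgroup ↥(Cfsg.SU n F q)) := h ▸ tU_mem_TU hF p he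
  exact tU_ne_one hF hp hp0 he he0 (Subgroup.mem_bot.1 h1)

theorem TU_ne (hF : Fintype.card F = q ^ 2) {p r : Fin n → F}
    (hp : Cfsg.hermForm n F q p p = 0) (hr : Cfsg.hermForm n F q r r = 0)
    (h : Cfsg.hermForm n F q p r ≠ 0) : TU hF p ≠ TU hF r := by
  intro hpr
  obtain ⟨e, he0, he⟩ := exists_tz_ne_zero hF
  have h1 : tU hF r e ∈ TU hF p := hpr ▸ tU_mem_TU hF r he
  obtain ⟨c, hc, hce⟩ := (mem_TU hF hp).1 h1
  have h2 := congrArg (fun g : ↥(Cfsg.SU n F q) => suM g *ᵥ p) hce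
  simp only [tU_mulVec hF hp hc, tU_mulVec hF hr he, hp, mul_zero, zero_smul, add_zero] at h2
  have h3 : (e * Cfsg.hermForm n F q p r) • r = 0 := by
    have h4 : p + 0 = p + (e * Cfsg.hermForm n F q p r) • r := by rw [add_zero]; exact h2
    exact (add_left_cancel h4).symm
  rcases smul_eq_zero.1 h3 with h4 | h4
  · exact mul_ne_zero he0 h h4
  · exact herm_ne_zero_right hF h h4

/-- The rank one condition for two transvection groups with non-perpendicular centres. -/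
theorem rankOneCondition_TU (hF : Fintype.card F = q ^ 2) {p r : Fin n → F}
    (hp : Cfsg.hermForm n F q p p = 0) (hr : Cfsg.hermForm n F q r r = 0)
    (h : Cfsg.hermForm n F q p r ≠ 0) : Cfsg.RankOneCondition (TU hF p) (TU hF r) := by
  intro a ha ha1
  obtain ⟨c, hc, rfl⟩ := (mem_TU hF hp).1 ha
  have hc0 : c ≠ 0 := by
    rintro rfl
    exact ha1 (tU_zero hF hp)
  have hrp : Cfsg.hermForm n F q r p = Cfsg.hermForm n F q p r ^ q := hf_conj hF n p r
  have hd : (c * Cfsg.hermForm n F q p r ^ (q + 1))⁻¹ +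
      ((c * Cfsg.hermForm n F q p r ^ (q + 1))⁻¹) ^ q = 0 := by
    apply tz_inv
    rw [mul_comm]
    exact tz_norm_mul hF hc _
  have hd0 : (c * Cfsg.hermForm n F q p r ^ (q + 1))⁻¹ ≠ 0 :=
    inv_ne_zero (mul_ne_zero hc0 (pow_ne_zero _ h))
  refine ⟨tU hF r (c * Cfsg.hermForm n F q p r ^ (q + 1))⁻¹, tU_mem_TU hF r hd,
    tU_ne_one hF hr (herm_ne_zero_right hF h) hd hd0, ?_⟩
  have eb : suM (tU hF r (c * Cfsg.hermForm n F q p r ^ (q + 1))⁻¹)⁻¹ *ᵥ p =
      p + (-(c * Cfsg.hermForm n F q p r ^ (q + 1))⁻¹ * Cfsg.hermForm n F q p r) • r := by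
    rw [tU_inv hF hr hd, tU_mulVec hF hr (tz_neg hF hd)]
  have ea : suM (tU hF p c)⁻¹ *ᵥ r = r + (-c * Cfsg.hermForm n F q r p) • p := by
    rw [tU_inv hF hp hc, tU_mulVec hF hp (tz_neg hF hc)]
  have hiso : Cfsg.hermForm n F q
      (p + (-(c * Cfsg.hermForm n F q p r ^ (q + 1))⁻¹ * Cfsg.hermForm n F q p r) • r)
      (p + (-(c * Cfsg.hermForm n F q p r ^ (q + 1))⁻¹ * Cfsg.hermForm n F q p r) • r) = 0 := by
    rw [← eb]
    exact herm_su_self _ hp
  have hne : -c * Cfsg.hermForm n F q p r ^ q ≠ 0 :=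
    mul_ne_zero (neg_ne_zero.2 hc0) (pow_ne_zero _ h)
  have hv : r + (-c * Cfsg.hermForm n F q r p) • p =
      (-c * Cfsg.hermForm n F q p r ^ q) •
        (p + (-(c * Cfsg.hermForm n F q p r ^ (q + 1))⁻¹ * Cfsg.hermForm n F q p r) • r) := by
    have e1 : -c * Cfsg.hermForm n F q p r ^ q *
        (-(c * Cfsg.hermForm n F q p r ^ (q + 1))⁻¹ * Cfsg.hermForm n F q p r) = 1 := by
      rw [pow_succ]
      field_simp
    rw [hrp, smul_add, smul_smul, e1, one_smul, add_comm]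
  rw [conjBy_TU hF hp, conjBy_TU hF hr, eb, ea, hv, TU_smul hF hiso hne]

theorem isRankOnePair_TU (hF : Fintype.card F = q ^ 2) {p r : Fin n → F}
    (hp : Cfsg.hermForm n F q p p = 0) (hr : Cfsg.hermForm n F q r r = 0)
    (h : Cfsg.hermForm n F q p r ≠ 0) : Cfsg.IsRankOnePair (TU hF p) (TU hF r) :=
  ⟨TU_ne hF hp hr h, TU_isNilpotent hF hp, TU_isNilpotent hF hr, rankOneCondition_TU hF hp hr h,
    rankOneCondition_TU hF hr hp (herm_ne_zero_symm hF h)⟩

end SUSubgroups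

section SUClass

variable {F : Type*} [Field F] [Fintype F] {q n : ℕ}

theorem exists_hyp_partner (hF : Fintype.card F = q ^ 2) {p : Fin n → F} (hp0 : p ≠ 0)
    (hp : Cfsg.hermForm n F q p p = 0) :
    ∃ p' : Fin n → F, Cfsg.hermForm n F q p' p' = 0 ∧ Cfsg.hermForm n F q p p' = 1 := by
  obtain ⟨w, hw⟩ := exists_herm_one (q := q) hp0
  have hpw : Cfsg.hermForm n F q p w = 1 := by rw [hf_conj hF n w p, hw, one_pow]
  obtain ⟨l, hl⟩ := exists_trace_one hF
  have ha : Cfsg.hermForm n F q w w ^ q = Cfsg.hermForm n F q w w := hf_self_pow hF n w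
  refine ⟨w + (-(Cfsg.hermForm n F q w w * l)) • p, ?_, ?_⟩
  · rw [hf_add_left, hf_add_right hF, hf_add_right hF, hf_smul_left, hf_smul_left, hf_smul_right,
      hf_smul_right, hw, hpw, hp, herm_neg_pow hF, mul_pow, ha]
    linear_combination (-(Cfsg.hermForm n F q w w)) * hl
  · rw [hf_add_right hF, hf_smul_right, hp, hpw, mul_zero, add_zero]

theorem exists_mu (hF : Fintype.card F = q ^ 2) (b : F) :
    ∃ μ : F, μ ≠ 0 ∧ μ ^ q * b + μ * b ^ q = 0 := by
  by_cases hb : b = 0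
  · refine ⟨1, one_ne_zero, ?_⟩
    rw [hb, zero_pow (herm_q_ne_zero hF)]
    ring
  · obtain ⟨e, he0, he⟩ := exists_tz_ne_zero hF
    have hbq : b ^ q ≠ 0 := pow_ne_zero _ hb
    refine ⟨e / b ^ q, div_ne_zero he0 hbq, ?_⟩
    rw [div_pow, herm_pow_pow hF]
    field_simp
    linear_combination he

theorem exists_mid (hF : Fintype.card F = q ^ 2) {p r : Fin n → F} (hp0 : p ≠ 0)
    (hp : Cfsg.hermForm n F q p p = 0) (hr0 : r ≠ 0) (hr : Cfsg.hermForm n F q r r = 0) :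
    ∃ s : Fin n → F, Cfsg.hermForm n F q s s = 0 ∧ Cfsg.hermForm n F q p s ≠ 0 ∧
      Cfsg.hermForm n F q s r ≠ 0 := by
  obtain ⟨p', hp'p', hpp'⟩ := exists_hyp_partner hF hp0 hp
  obtain ⟨r', hr'r', hrr'⟩ := exists_hyp_partner hF hr0 hr
  have hr'r : Cfsg.hermForm n F q r' r = 1 := by rw [hf_conj hF n r r', hrr', one_pow]
  by_cases h1 : Cfsg.hermForm n F q r p' = 0
  · by_cases h2 : Cfsg.hermForm n F q p r' = 0
    · obtain ⟨μ, hμ0, hμ⟩ := exists_mu hF (Cfsg.hermForm n F q p' r')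
      have h1' : Cfsg.hermForm n F q p' r = 0 := hf_eq_zero_symm hF n r p' h1
      have hr'p' : Cfsg.hermForm n F q r' p' = Cfsg.hermForm n F q p' r' ^ q := hf_conj hF n p' r'
      refine ⟨p' + μ • r', ?_, ?_, ?_⟩
      · rw [hf_add_left, hf_add_right hF, hf_add_right hF, hf_smul_left, hf_smul_left,
          hf_smul_right, hf_smul_right, hp'p', hr'r', hr'p']
        linear_combination hμ
      · rw [hf_add_right hF, hf_smul_right, hpp', h2, mul_zero, add_zero]
        exact one_ne_zero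
      · rw [hf_add_left, hf_smul_left, h1', hr'r, zero_add, mul_one]
        exact hμ0
    · exact ⟨r', hr'r', h2, by rw [hr'r]; exact one_ne_zero⟩
  · refine ⟨p', hp'p', by rw [hpp']; exact one_ne_zero, ?_⟩
    exact fun h0 => h1 (hf_eq_zero_symm hF n p' r h0)

theorem exists_isotropic (hF : Fintype.card F = q ^ 2) (n : ℕ) :
    ∃ p : Fin (n + 2) → F, p ≠ 0 ∧ Cfsg.hermForm (n + 2) F q p p = 0 := by
  classical
  obtain ⟨ω, hω0, hω⟩ := herm_norm_surj hF (-1) (neg_ne_zero.2 one_ne_zero)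
    (by rw [herm_neg_pow hF, one_pow])
  have h01 : (0 : Fin (n + 2)) ≠ 1 := by
    intro h
    have h' := congrArg Fin.val h
    simp at h'
  have hp0' : (Pi.single 0 1 + ω • Pi.single 1 1 : Fin (n + 2) → F) 0 = 1 := by
    simp [h01]
  have hp1' : (Pi.single 0 1 + ω • Pi.single 1 1 : Fin (n + 2) → F) 1 = ω := by
    simp [h01.symm]
  refine ⟨Pi.single 0 1 + ω • Pi.single 1 1, ?_, ?_⟩
  · intro h
    rw [h] at hp0'
    exact zero_ne_one hp0'
  · rw [hf_add_left, hf_smul_left, hf_single_left, hf_single_left, hp0', hp1', one_pow]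
    linear_combination hω

theorem sigU_comm (hF : Fintype.card F = q ^ 2) (n : ℕ) :
    ∀ A ∈ SigU hF n, IsMulCommutative ↥A := by
  rintro A ⟨p, hp0, hp, rfl⟩
  exact TU_isMulCommutative hF hp

theorem sigU_ne_bot (hF : Fintype.card F = q ^ 2) (n : ℕ) : ∀ A ∈ SigU hF n, A ≠ ⊥ := by
  rintro A ⟨p, hp0, hp, rfl⟩
  exact TU_ne_bot hF hp hp0

theorem sigU_conj (hF : Fintype.card F = q ^ 2) (n : ℕ) :
    ∀ A ∈ SigU hF n, ∀ g : ↥(Cfsg.SU n F q), Cfsg.conjBy A g ∈ SigU hF n := by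
  rintro A ⟨p, hp0, hp, rfl⟩ g
  refine ⟨suM g *ᵥ p, ?_, herm_su_self g hp, conjBy_TU hF hp g⟩
  intro h0
  apply hp0
  have h1 := su_inv_mulVec g p
  rw [h0, Matrix.mulVec_zero] at h1
  exact h1.symm

theorem sigU_pair (hF : Fintype.card F = q ^ 2) (n : ℕ) :
    ∀ A ∈ SigU hF n, ∀ B ∈ SigU hF n, ⁅A, B⁆ = ⊥ ∨ Cfsg.IsRankOnePair A B := by
  rintro A ⟨p, hp0, hp, rfl⟩ B ⟨r, hr0, hr, rfl⟩
  by_cases h : Cfsg.hermForm n F q p r = 0
  · exact Or.inl (TU_commutator_eq_bot hF hp hr h)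
  · exact Or.inr (isRankOnePair_TU hF hp hr h)

theorem sigU_connected (hF : Fintype.card F = q ^ 2) (n : ℕ) :
    Cfsg.IsConnectedFamily (Cfsg.FAdj (SigU hF n)) (SigU hF n) := by
  rintro A ⟨p, hp0, hp, rfl⟩ B ⟨r, hr0, hr, rfl⟩
  obtain ⟨s, hs, h1, h2⟩ := exists_mid hF hp0 hp hr0 hr
  have hs0 : s ≠ 0 := herm_ne_zero_right hF h1
  exact Relation.ReflTransGen.tail
    (Relation.ReflTransGen.single ⟨⟨p, hp0, hp, rfl⟩, ⟨s, hs0, hs, rfl⟩, isRankOnePair_TU hF hp hs h1⟩)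
    ⟨⟨s, hs0, hs, rfl⟩, ⟨r, hr0, hr, rfl⟩, isRankOnePair_TU hF hs hr h2⟩

theorem sigU_nonempty (hF : Fintype.card F = q ^ 2) (n : ℕ) : (SigU hF (n + 2)).Nonempty := by
  obtain ⟨p, hp0, hp⟩ := exists_isotropic hF n
  exact ⟨TU hF p, p, hp0, hp, rfl⟩

end SUClass

section SUPSL2

variable {F : Type*} [Field F] [Fintype F] {q n : ℕ}

theorem suM_tU (hF : Fintype.card F = q ^ 2) {p : Fin n → F} {c : F}
    (hp : Cfsg.hermForm n F q p p = 0) (hc : c + c ^ q = 0) :
    suM (tU hF p c) = Cfsg.unitaryTransvection n q p c := by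
  rw [tU, dif_pos ⟨hp, hc⟩]
  rfl

/-- The matrix with columns `e • p`, `r`. -/
def embPU (e : F) (p r : Fin n → F) : Matrix (Fin n) (Fin 2) F := (Matrix.of ![e • p, r])ᵀ

/-- The matrix with rows `e⁻¹ h(·, r)`, `h(·, p)`. -/
def embQU (q : ℕ) (e : F) (p r : Fin n → F) : Matrix (Fin 2) (Fin n) F :=
  Matrix.of ![e⁻¹ • (fun j => r j ^ q), fun j => p j ^ q]

theorem powq_dotProduct (u v : Fin n → F) :
    (fun j => v j ^ q) ⬝ᵥ u = Cfsg.hermForm n F q u v := by
  rw [dotProduct_comm]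
  rfl

theorem embQU_mul_embPU (hF : Fintype.card F = q ^ 2) {e : F} (he0 : e ≠ 0) {p r : Fin n → F}
    (hp : Cfsg.hermForm n F q p p = 0) (hr : Cfsg.hermForm n F q r r = 0)
    (hpr : Cfsg.hermForm n F q p r = 1) : embQU q e p r * embPU e p r = 1 := by
  have hrp : Cfsg.hermForm n F q r p = 1 := by rw [hf_conj hF n p r, hpr, one_pow]
  ext i j
  have e' : (embQU q e p r * embPU e p r) i j = (embQU q e p r i) ⬝ᵥ (fun a => embPU e p r a j) := rfl
  rw [e']
  fin_cases i <;> fin_cases j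
  · show (e⁻¹ • (fun j => r j ^ q)) ⬝ᵥ (e • p) = 1
    rw [smul_dotProduct, dotProduct_smul, powq_dotProduct, hpr, smul_eq_mul, smul_eq_mul, mul_one,
      inv_mul_cancel₀ he0]
  · show (e⁻¹ • (fun j => r j ^ q)) ⬝ᵥ r = 0
    rw [smul_dotProduct, powq_dotProduct, hr, smul_zero]
  · show (fun j => p j ^ q) ⬝ᵥ (e • p) = 0
    rw [dotProduct_smul, powq_dotProduct, hp, smul_zero]
  · show (fun j => p j ^ q) ⬝ᵥ r = 1
    rw [powq_dotProduct, hrp]

theorem embMU_transv01 (hF : Fintype.card F = q ^ 2) {L : Type*} [Field L] (ι : L →+* F) {e : F}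
    {p : Fin n → F} (r : Fin n → F) (hp : Cfsg.hermForm n F q p p = 0) (he : e + e ^ q = 0) (x : L)
    (hx : ι x ^ q = ι x) :
    embM (embPU e p r) (embQU q e p r)
      (ι.mapMatrix (Matrix.SpecialLinearGroup.transvection fin2_01 x : Matrix (Fin 2) (Fin 2) L)) =
      suM (tU hF p (ι x * e)) := by
  rw [suM_tU hF hp (tz_fix_mul he hx), embM, Matrix.SpecialLinearGroup.transvection_coe]
  have h1 : ι.mapMatrix (1 + Matrix.single (0 : Fin 2) (1 : Fin 2) x) =
      1 + Matrix.single (0 : Fin 2) (1 : Fin 2) (ι x) := by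
    rw [map_add, map_one, RingHom.mapMatrix_apply, Matrix.map_single]
  rw [h1, add_sub_cancel_left]
  ext a b
  rw [Matrix.add_apply, mul_single_mul_apply]
  show (1 : Matrix (Fin n) (Fin n) F) a b + (e * p a) * ι x * (p b ^ q) =
    (1 : Matrix (Fin n) (Fin n) F) a b + (ι x * e) * (p a * p b ^ q)
  ring

theorem embMU_transv10 (hF : Fintype.card F = q ^ 2) {L : Type*} [Field L] (ι : L →+* F) {e : F}
    (p : Fin n → F) {r : Fin n → F} (hr : Cfsg.hermForm n F q r r = 0) (he : e + e ^ q = 0) (y : L)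
    (hy : ι y ^ q = ι y) :
    embM (embPU e p r) (embQU q e p r)
      (ι.mapMatrix (Matrix.SpecialLinearGroup.transvection fin2_10 y : Matrix (Fin 2) (Fin 2) L)) =
      suM (tU hF r (ι y * e⁻¹)) := by
  rw [suM_tU hF hr (tz_fix_mul (tz_inv he) hy), embM, Matrix.SpecialLinearGroup.transvection_coe]
  have h1 : ι.mapMatrix (1 + Matrix.single (1 : Fin 2) (0 : Fin 2) y) =
      1 + Matrix.single (1 : Fin 2) (0 : Fin 2) (ι y) := by
    rw [map_add, map_one, RingHom.mapMatrix_apply, Matrix.map_single]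
  rw [h1, add_sub_cancel_left]
  ext a b
  rw [Matrix.add_apply, mul_single_mul_apply]
  show (1 : Matrix (Fin n) (Fin n) F) a b + r a * ι y * (e⁻¹ * r b ^ q) =
    (1 : Matrix (Fin n) (Fin n) F) a b + (ι y * e⁻¹) * (r a * r b ^ q)
  ring

/-- The image of `SL₂(L)` lies in `SU`. -/
theorem embMU_mem (hF : Fintype.card F = q ^ 2) {L : Type*} [Field L] [Fintype L]
    (hL : Fintype.card L = q) (ι : L →+* F) {e : F} (he0 : e ≠ 0) (he : e + e ^ q = 0)
    {p r : Fin n → F} (hp : Cfsg.hermForm n F q p p = 0) (hr : Cfsg.hermForm n F q r r = 0)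
    (hpr : Cfsg.hermForm n F q p r = 1) (M : Matrix.SpecialLinearGroup (Fin 2) L) :
    ∃ g : ↥(Cfsg.SU n F q), suM g = embM (embPU e p r) (embQU q e p r)
      (ι.mapMatrix (M : Matrix (Fin 2) (Fin 2) L)) := by
  have hQP := embQU_mul_embPU hF he0 hp hr hpr
  have hfix : ∀ x : L, ι x ^ q = ι x := by
    intro x
    have hx : x ^ q = x := by
      rw [← hL]
      exact FiniteField.pow_card x
    rw [← map_pow, hx]
  let H : Subgroup (Matrix.SpecialLinearGroup (Fin 2) L) :=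
    { carrier := {M | ∃ g : ↥(Cfsg.SU n F q), suM g = embM (embPU e p r) (embQU q e p r)
        (ι.mapMatrix (M : Matrix (Fin 2) (Fin 2) L))}
      one_mem' := by
        refine ⟨1, ?_⟩
        rw [suM_one, Matrix.SpecialLinearGroup.coe_one, map_one, embM_one]
      mul_mem' := by
        rintro A B ⟨g₁, h₁⟩ ⟨g₂, h₂⟩
        refine ⟨g₁ * g₂, ?_⟩
        rw [suM_mul, h₁, h₂, Matrix.SpecialLinearGroup.coe_mul, map_mul, embM_mul _ _ hQP]
      inv_mem' := by
        rintro A ⟨g, hg⟩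
        refine ⟨g⁻¹, ?_⟩
        have h1 : embM (embPU e p r) (embQU q e p r)
            (ι.mapMatrix ((A⁻¹ : Matrix.SpecialLinearGroup (Fin 2) L) : Matrix (Fin 2) (Fin 2) L)) *
            suM g = 1 := by
          rw [hg, ← embM_mul _ _ hQP, ← map_mul, ← Matrix.SpecialLinearGroup.coe_mul, inv_mul_cancel,
            Matrix.SpecialLinearGroup.coe_one, map_one, embM_one]
        have h2 : suM g * suM g⁻¹ = 1 := by rw [← suM_mul, mul_inv_cancel, suM_one]
        calc suM g⁻¹ = 1 * suM g⁻¹ := by rw [Matrix.one_mul]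
          _ = embM (embPU e p r) (embQU q e p r)
              (ι.mapMatrix ((A⁻¹ : Matrix.SpecialLinearGroup (Fin 2) L) : Matrix (Fin 2) (Fin 2) L)) *
              suM g * suM g⁻¹ := by rw [h1]
          _ = embM (embPU e p r) (embQU q e p r)
              (ι.mapMatrix ((A⁻¹ : Matrix.SpecialLinearGroup (Fin 2) L) : Matrix (Fin 2) (Fin 2) L)) := by
            rw [Matrix.mul_assoc, h2, Matrix.mul_one] }
  have hH : H = ⊤ := by
    apply Cfsg.Agent.Lib.Helper47.eq_top_of_transvection_mem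
    intro i j hij c
    fin_cases i <;> fin_cases j
    · exact absurd rfl hij
    · exact ⟨tU hF p (ι c * e), (embMU_transv01 hF ι r hp he c (hfix c)).symm⟩
    · exact ⟨tU hF r (ι c * e⁻¹), (embMU_transv10 hF ι p hr he c (hfix c)).symm⟩
    · exact absurd rfl hij
  have hM : M ∈ H := by
    rw [hH]
    trivial
  exact hM

/-- A hyperbolic pair of isotropic vectors gives an image of `SL₂(L)`, `L` the field with `q`
elements. -/
theorem isPSL2Pair_TU (hF : Fintype.card F = q ^ 2) {L : Type*} [Field L] [Fintype L]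
    (hL : Fintype.card L = q) (ι : L →+* F) {p r : Fin n → F}
    (hp : Cfsg.hermForm n F q p p = 0) (hr : Cfsg.hermForm n F q r r = 0)
    (hpr : Cfsg.hermForm n F q p r = 1) : Cfsg.IsPSL2PairOver L (TU hF p) (TU hF r) := by
  obtain ⟨e, he0, he⟩ := exists_tz_ne_zero hF
  have hQP := embQU_mul_embPU hF he0 hp hr hpr
  have hfix : ∀ x : L, ι x ^ q = ι x := by
    intro x
    have hx : x ^ q = x := by
      rw [← hL]
      exact FiniteField.pow_card x
    rw [← map_pow, hx]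
  choose φ₀ hφ₀ using embMU_mem hF hL ι he0 he hp hr hpr
  let φ : Matrix.SpecialLinearGroup (Fin 2) L →* ↥(Cfsg.SU n F q) :=
    MonoidHom.mk' φ₀ (fun M₁ M₂ => Subtype.ext (Subtype.ext (by
      show suM (φ₀ (M₁ * M₂)) = suM (φ₀ M₁) * suM (φ₀ M₂)
      rw [hφ₀, hφ₀, hφ₀, Matrix.SpecialLinearGroup.coe_mul, map_mul, embM_mul _ _ hQP])))
  have hφ : ∀ M : Matrix.SpecialLinearGroup (Fin 2) L, suM (φ M) =
      embM (embPU e p r) (embQU q e p r) (ι.mapMatrix (M : Matrix (Fin 2) (Fin 2) L)) := hφ₀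
  have h01 : ∀ x : L, φ (Matrix.SpecialLinearGroup.transvection fin2_01 x) = tU hF p (ι x * e) :=
    fun x => Subtype.ext (Subtype.ext ((hφ _).trans (embMU_transv01 hF ι r hp he x (hfix x))))
  have h10 : ∀ y : L, φ (Matrix.SpecialLinearGroup.transvection fin2_10 y) = tU hF r (ι y * e⁻¹) :=
    fun y => Subtype.ext (Subtype.ext ((hφ _).trans (embMU_transv10 hF ι p hr he y (hfix y))))
  have hup : (Cfsg.upperUnipotentSL2 L).map φ = TU hF p := by
    show (Subgroup.closure _).map φ = TU hF p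
    rw [upper_eq_range, MonoidHom.map_closure]
    apply le_antisymm
    · rw [Subgroup.closure_le]
      rintro _ ⟨_, ⟨x, rfl⟩, rfl⟩
      show φ (Matrix.SpecialLinearGroup.transvection fin2_01 x) ∈ TU hF p
      rw [h01]
      exact tU_mem_TU hF p (tz_fix_mul he (hfix x))
    · intro g hg
      obtain ⟨c, hc, rfl⟩ := (mem_TU hF hp).1 hg
      obtain ⟨x, hx⟩ := exists_of_fixed hF hL ι (tz_div_fixed hc he)
      apply Subgroup.subset_closure
      refine ⟨_, ⟨x, rfl⟩, ?_⟩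
      show φ (Matrix.SpecialLinearGroup.transvection fin2_01 x) = tU hF p c
      rw [h01, hx, div_mul_cancel₀ c he0]
  have hlow : (Cfsg.lowerUnipotentSL2 L).map φ = TU hF r := by
    show (Subgroup.closure _).map φ = TU hF r
    rw [lower_eq_range, MonoidHom.map_closure]
    apply le_antisymm
    · rw [Subgroup.closure_le]
      rintro _ ⟨_, ⟨y, rfl⟩, rfl⟩
      show φ (Matrix.SpecialLinearGroup.transvection fin2_10 y) ∈ TU hF r
      rw [h10]
      exact tU_mem_TU hF r (tz_fix_mul (tz_inv he) (hfix y))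
    · intro g hg
      obtain ⟨c, hc, rfl⟩ := (mem_TU hF hr).1 hg
      obtain ⟨y, hy⟩ := exists_of_fixed hF hL ι (tz_div_fixed hc (tz_inv he))
      apply Subgroup.subset_closure
      refine ⟨_, ⟨y, rfl⟩, ?_⟩
      show φ (Matrix.SpecialLinearGroup.transvection fin2_10 y) = tU hF r c
      rw [h10, hy, div_mul_cancel₀ c (inv_ne_zero he0)]
  refine ⟨φ, ?_, ?_, hup, hlow⟩
  · rw [MonoidHom.range_eq_map, ← upper_sup_lower L, Subgroup.map_sup, hup, hlow]
  · intro M hM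
    have h1 : suM (φ M) = 1 := by
      rw [MonoidHom.mem_ker.1 hM]
      rfl
    rw [hφ] at h1
    have h2 := embM_eq_one _ _ hQP h1
    have h3 : M = 1 := by
      apply Subtype.ext
      ext i j
      have h4 := congrFun (congrFun h2 i) j
      rw [RingHom.mapMatrix_apply, Matrix.map_apply] at h4
      apply ι.injective
      rw [h4, Matrix.SpecialLinearGroup.coe_one, Matrix.one_apply, Matrix.one_apply]
      split_ifs
      · rw [map_one]
      · rw [map_zero]
    rw [h3]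
    exact Subgroup.one_mem _

theorem sigU_psl2 (hF : Fintype.card F = q ^ 2) {L : Type*} [Field L] [Fintype L]
    (hL : Fintype.card L = q) (ι : L →+* F) (n : ℕ) :
    ∀ A ∈ SigU hF n, ∀ B ∈ SigU hF n, Cfsg.IsRankOnePair A B → Cfsg.IsPSL2PairOver L A B := by
  rintro A ⟨p, hp0, hp, rfl⟩ B ⟨r, hr0, hr, rfl⟩ hpair
  have hne : Cfsg.hermForm n F q p r ≠ 0 := fun h0 =>
    rankOnePair_commutator_ne_bot hpair (TU_commutator_eq_bot hF hp hr h0)
  have hlq : Cfsg.hermForm n F q p r ^ q ≠ 0 := pow_ne_zero _ hne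
  have h1 : Cfsg.hermForm n F q p ((Cfsg.hermForm n F q p r ^ q)⁻¹ • r) = 1 := by
    rw [hf_smul_right, inv_pow, herm_pow_pow hF, inv_mul_cancel₀ hne]
  have h2 := isPSL2Pair_TU hF hL ι hp (herm_smul_self hr _) h1
  rw [TU_smul hF hr (inv_ne_zero hlq)] at h2
  exact h2

/-- S5071 for the sets `SigU`. -/
theorem su_root_class (hF : Fintype.card F = q ^ 2) (n : ℕ) :
    Cfsg.IsRootSubgroupClass ((fun A : Subgroup ↥(Cfsg.SU (n + 2) F q) =>
      A.subgroupOf (⨆ B ∈ SigU hF (n + 2), B)) '' SigU hF (n + 2)) ∧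
    Cfsg.IsDegenerateRootSet ((fun A : Subgroup ↥(Cfsg.SU (n + 2) F q) =>
      A.subgroupOf (⨆ B ∈ SigU hF (n + 2), B)) '' SigU hF (n + 2)) ∧
    (∃ (L : Type) (_ : Field L) (_ : Fintype L), Fintype.card L = q ∧
      Cfsg.IsKRootSubgroupSet L ((fun A : Subgroup ↥(Cfsg.SU (n + 2) F q) =>
        A.subgroupOf (⨆ B ∈ SigU hF (n + 2), B)) '' SigU hF (n + 2))) ∧
    Cfsg.IsConnectedFamily (Cfsg.FAdj ((fun A : Subgroup ↥(Cfsg.SU (n + 2) F q) =>
      A.subgroupOf (⨆ B ∈ SigU hF (n + 2), B)) '' SigU hF (n + 2)))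
      ((fun A : Subgroup ↥(Cfsg.SU (n + 2) F q) =>
        A.subgroupOf (⨆ B ∈ SigU hF (n + 2), B)) '' SigU hF (n + 2)) := by
  have hprime : Fact (ringChar F).Prime := ⟨CharP.char_is_prime F (ringChar F)⟩
  obtain ⟨j, hj⟩ := herm_exists_pow hF
  have hj0 : j ≠ 0 := by
    rintro rfl
    have h2 := herm_two_le hF
    rw [pow_zero] at hj
    omega
  let _ : Fintype (GaloisField (ringChar F) j) := Fintype.ofFinite _
  have hL : Fintype.card (GaloisField (ringChar F) j) = q := by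
    rw [← Nat.card_eq_fintype_card, GaloisField.card _ _ hj0, ← hj]
  obtain ⟨ι⟩ := Cfsg.Agent.Lib.Helper52.exists_ringHom_of_card_sq hF hL
  obtain ⟨h1, h2, h3, h4⟩ := root_class_transfer (GaloisField (ringChar F) j) (SigU hF (n + 2))
    (sigU_comm hF (n + 2)) (sigU_ne_bot hF (n + 2)) (sigU_conj hF (n + 2)) (sigU_pair hF (n + 2))
    (sigU_psl2 hF hL ι (n + 2)) (sigU_connected hF (n + 2)) (sigU_nonempty hF n)
  exact ⟨h1, h2, ⟨GaloisField (ringChar F) j, inferInstance, inferInstance, hL, h3⟩, h4⟩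

/-- S5071 in the form of the statement. -/
theorem su_root_statement (F : Type*) [Field F] [Fintype F] (q n : ℕ) (hF : Fintype.card F = q ^ 2) :
    Cfsg.IsRootSubgroupClass ((fun A : Subgroup ↥(Cfsg.SU (n + 2) F q) => A.subgroupOf (⨆ B ∈ {A : Subgroup ↥(Cfsg.SU (n + 2) F q) | ∃ p : Fin (n + 2) → F, p ≠ 0 ∧ Cfsg.hermForm (n + 2) F q p p = 0 ∧
          A = Subgroup.closure {g : ↥(Cfsg.SU (n + 2) F q) |
            (∀ v : Fin (n + 2) → F, ∃ c : F, ((g : Matrix.SpecialLinearGroup (Fin (n + 2)) F) : Matrix (Fin (n + 2)) (Fin (n + 2)) F) *ᵥ v = v + c • p) ∧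
            ∀ v : Fin (n + 2) → F, Cfsg.hermForm (n + 2) F q v p = 0 →
              ((g : Matrix.SpecialLinearGroup (Fin (n + 2)) F) : Matrix (Fin (n + 2)) (Fin (n + 2)) F) *ᵥ v = v}}, B)) ''
      {A : Subgroup ↥(Cfsg.SU (n + 2) F q) | ∃ p : Fin (n + 2) → F, p ≠ 0 ∧ Cfsg.hermForm (n + 2) F q p p = 0 ∧
          A = Subgroup.closure {g : ↥(Cfsg.SU (n + 2) F q) |
            (∀ v : Fin (n + 2) → F, ∃ c : F, ((g : Matrix.SpecialLinearGroup (Fin (n + 2)) F) : Matrix (Fin (n + 2)) (Fin (n + 2)) F) *ᵥ v = v + c • p) ∧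
            ∀ v : Fin (n + 2) → F, Cfsg.hermForm (n + 2) F q v p = 0 →
              ((g : Matrix.SpecialLinearGroup (Fin (n + 2)) F) : Matrix (Fin (n + 2)) (Fin (n + 2)) F) *ᵥ v = v}}) ∧
    Cfsg.IsDegenerateRootSet ((fun A : Subgroup ↥(Cfsg.SU (n + 2) F q) => A.subgroupOf (⨆ B ∈ {A : Subgroup ↥(Cfsg.SU (n + 2) F q) | ∃ p : Fin (n + 2) → F, p ≠ 0 ∧ Cfsg.hermForm (n + 2) F q p p = 0 ∧
          A = Subgroup.closure {g : ↥(Cfsg.SU (n + 2) F q) |
            (∀ v : Fin (n + 2) → F, ∃ c : F, ((g : Matrix.SpecialLinearGroup (Fin (n + 2)) F) : Matrix (Fin (n + 2)) (Fin (n + 2)) F) *ᵥ v = v + c • p) ∧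
            ∀ v : Fin (n + 2) → F, Cfsg.hermForm (n + 2) F q v p = 0 →
              ((g : Matrix.SpecialLinearGroup (Fin (n + 2)) F) : Matrix (Fin (n + 2)) (Fin (n + 2)) F) *ᵥ v = v}}, B)) ''
      {A : Subgroup ↥(Cfsg.SU (n + 2) F q) | ∃ p : Fin (n + 2) → F, p ≠ 0 ∧ Cfsg.hermForm (n + 2) F q p p = 0 ∧
          A = Subgroup.closure {g : ↥(Cfsg.SU (n + 2) F q) |
            (∀ v : Fin (n + 2) → F, ∃ c : F, ((g : Matrix.SpecialLinearGroup (Fin (n + 2)) F) : Matrix (Fin (n + 2)) (Fin (n + 2)) F) *ᵥ v = v + c • p) ∧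
            ∀ v : Fin (n + 2) → F, Cfsg.hermForm (n + 2) F q v p = 0 →
              ((g : Matrix.SpecialLinearGroup (Fin (n + 2)) F) : Matrix (Fin (n + 2)) (Fin (n + 2)) F) *ᵥ v = v}}) ∧
    (∃ (L : Type) (_ : Field L) (_ : Fintype L), Fintype.card L = q ∧ Cfsg.IsKRootSubgroupSet L ((fun A : Subgroup ↥(Cfsg.SU (n + 2) F q) => A.subgroupOf (⨆ B ∈ {A : Subgroup ↥(Cfsg.SU (n + 2) F q) | ∃ p : Fin (n + 2) → F, p ≠ 0 ∧ Cfsg.hermForm (n + 2) F q p p = 0 ∧
          A = Subgroup.closure {g : ↥(Cfsg.SU (n + 2) F q) |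
            (∀ v : Fin (n + 2) → F, ∃ c : F, ((g : Matrix.SpecialLinearGroup (Fin (n + 2)) F) : Matrix (Fin (n + 2)) (Fin (n + 2)) F) *ᵥ v = v + c • p) ∧
            ∀ v : Fin (n + 2) → F, Cfsg.hermForm (n + 2) F q v p = 0 →
              ((g : Matrix.SpecialLinearGroup (Fin (n + 2)) F) : Matrix (Fin (n + 2)) (Fin (n + 2)) F) *ᵥ v = v}}, B)) ''
      {A : Subgroup ↥(Cfsg.SU (n + 2) F q) | ∃ p : Fin (n + 2) → F, p ≠ 0 ∧ Cfsg.hermForm (n + 2) F q p p = 0 ∧
          A = Subgroup.closure {g : ↥(Cfsg.SU (n + 2) F q) |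
            (∀ v : Fin (n + 2) → F, ∃ c : F, ((g : Matrix.SpecialLinearGroup (Fin (n + 2)) F) : Matrix (Fin (n + 2)) (Fin (n + 2)) F) *ᵥ v = v + c • p) ∧
            ∀ v : Fin (n + 2) → F, Cfsg.hermForm (n + 2) F q v p = 0 →
              ((g : Matrix.SpecialLinearGroup (Fin (n + 2)) F) : Matrix (Fin (n + 2)) (Fin (n + 2)) F) *ᵥ v = v}})) ∧
    Cfsg.IsConnectedFamily (Cfsg.FAdj ((fun A : Subgroup ↥(Cfsg.SU (n + 2) F q) => A.subgroupOf (⨆ B ∈ {A : Subgroup ↥(Cfsg.SU (n + 2) F q) | ∃ p : Fin (n + 2) → F, p ≠ 0 ∧ Cfsg.hermForm (n + 2) F q p p = 0 ∧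
          A = Subgroup.closure {g : ↥(Cfsg.SU (n + 2) F q) |
            (∀ v : Fin (n + 2) → F, ∃ c : F, ((g : Matrix.SpecialLinearGroup (Fin (n + 2)) F) : Matrix (Fin (n + 2)) (Fin (n + 2)) F) *ᵥ v = v + c • p) ∧
            ∀ v : Fin (n + 2) → F, Cfsg.hermForm (n + 2) F q v p = 0 →
              ((g : Matrix.SpecialLinearGroup (Fin (n + 2)) F) : Matrix (Fin (n + 2)) (Fin (n + 2)) F) *ᵥ v = v}}, B)) ''
      {A : Subgroup ↥(Cfsg.SU (n + 2) F q) | ∃ p : Fin (n + 2) → F, p ≠ 0 ∧ Cfsg.hermForm (n + 2) F q p p = 0 ∧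
          A = Subgroup.closure {g : ↥(Cfsg.SU (n + 2) F q) |
            (∀ v : Fin (n + 2) → F, ∃ c : F, ((g : Matrix.SpecialLinearGroup (Fin (n + 2)) F) : Matrix (Fin (n + 2)) (Fin (n + 2)) F) *ᵥ v = v + c • p) ∧
            ∀ v : Fin (n + 2) → F, Cfsg.hermForm (n + 2) F q v p = 0 →
              ((g : Matrix.SpecialLinearGroup (Fin (n + 2)) F) : Matrix (Fin (n + 2)) (Fin (n + 2)) F) *ᵥ v = v}})) ((fun A : Subgroup ↥(Cfsg.SU (n + 2) F q) => A.subgroupOf (⨆ B ∈ {A : Subgroup ↥(Cfsg.SU (n + 2) F q) | ∃ p : Fin (n + 2) → F, p ≠ 0 ∧ Cfsg.hermForm (n + 2) F q p p = 0 ∧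
          A = Subgroup.closure {g : ↥(Cfsg.SU (n + 2) F q) |
            (∀ v : Fin (n + 2) → F, ∃ c : F, ((g : Matrix.SpecialLinearGroup (Fin (n + 2)) F) : Matrix (Fin (n + 2)) (Fin (n + 2)) F) *ᵥ v = v + c • p) ∧
            ∀ v : Fin (n + 2) → F, Cfsg.hermForm (n + 2) F q v p = 0 →
              ((g : Matrix.SpecialLinearGroup (Fin (n + 2)) F) : Matrix (Fin (n + 2)) (Fin (n + 2)) F) *ᵥ v = v}}, B)) ''
      {A : Subgroup ↥(Cfsg.SU (n + 2) F q) | ∃ p : Fin (n + 2) → F, p ≠ 0 ∧ Cfsg.hermForm (n + 2) F q p p = 0 ∧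
          A = Subgroup.closure {g : ↥(Cfsg.SU (n + 2) F q) |
            (∀ v : Fin (n + 2) → F, ∃ c : F, ((g : Matrix.SpecialLinearGroup (Fin (n + 2)) F) : Matrix (Fin (n + 2)) (Fin (n + 2)) F) *ᵥ v = v + c • p) ∧
            ∀ v : Fin (n + 2) → F, Cfsg.hermForm (n + 2) F q v p = 0 →
              ((g : Matrix.SpecialLinearGroup (Fin (n + 2)) F) : Matrix (Fin (n + 2)) (Fin (n + 2)) F) *ᵥ v = v}}) := by
  rw [sigU_eq hF (n + 2)]
  exact su_root_class hF n

end SUPSL2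

end Cfsg.Agent.Lib.Helper87
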