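import Mathlib
import Cfsg.Agent.Lib.Helper22.BFDefs

/-!
# S4503 project (helper22): piece NSUM (helper87)
-/

set_option autoImplicit false

namespace Cfsg.Agent.Lib.Helper87.BFT

open Cfsg Cfsg.Agent.Lib.Helper22.BFD
open scoped ComplexConjugate

universe u

section

variable {G : Type u} [Group G] [Fintype G]

/-- `t ↦ z ^ t.val` is injective on `ZMod p` when `z` has order `p`. -/
theorem h87_pow_val_inj (p : ℕ) [Fact p.Prime] (z : G) (hz : orderOf z = p) (a b : ZMod p)
    (h : z ^ a.val = z ^ b.val) : a = b := by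
  have h1 : a.val ≡ b.val [MOD orderOf z] := pow_eq_pow_iff_modEq.mp h
  rw [hz] at h1
  have h2 : ((a.val : ℕ) : ZMod p) = ((b.val : ℕ) : ZMod p) :=
    (ZMod.natCast_eq_natCast_iff _ _ _).mpr h1
  rwa [ZMod.natCast_zmod_val, ZMod.natCast_zmod_val] at h2

/-- the centralizer of `z` normalizes `zpowers z`. -/
theorem h87_cent_le_norm (z : G) :
    Subgroup.centralizer ({z} : Set G) ≤
      Subgroup.normalizer ((Subgroup.zpowers z : Subgroup G) : Set G) := by
  intro a ha
  have hc : z * a = a * z := (Subgroup.mem_centralizer_iff.mp ha) z rfl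
  apply Subgroup.mem_normalizer_fintype
  intro n hn
  obtain ⟨j, rfl⟩ := Subgroup.mem_zpowers_iff.mp hn
  have : a * z ^ j * a⁻¹ = z ^ j := by
    have hcomm : Commute a z := hc.symm
    rw [(hcomm.zpow_right j).eq, mul_inv_cancel_right]
  rw [this]
  exact Subgroup.zpow_mem_zpowers z j

/-- an element conjugating `z` to a power of `z` normalizes `zpowers z`. -/
theorem h87_mem_norm_of_conj (z c : G) (m : ℕ) (h : c⁻¹ * z * c = z ^ m) :
    c ∈ Subgroup.normalizer ((Subgroup.zpowers z : Subgroup G) : Set G) := by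
  have h1 : c⁻¹ ∈ Subgroup.normalizer ((Subgroup.zpowers z : Subgroup G) : Set G) := by
    apply Subgroup.mem_normalizer_fintype
    intro n hn
    obtain ⟨j, rfl⟩ := Subgroup.mem_zpowers_iff.mp hn
    have : c⁻¹ * z ^ j * c⁻¹⁻¹ = (z ^ m) ^ j := by
      rw [inv_inv, ← h]
      have := map_zpow (MulAut.conj c⁻¹) z j
      simp only [MulAut.conj_apply, inv_inv] at this
      exact this
    rw [this]
    exact Subgroup.zpow_mem _ (Subgroup.pow_mem _ (Subgroup.mem_zpowers z) m) j
  exact (Subgroup.inv_mem_iff _).mp h1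

open scoped Classical in
/-- PIECE NSUM -/
theorem nsum (p : ℕ) [Fact p.Prime] (z : G) (hz : orderOf z = p) (κ : G → ZMod p)
    (hκ : ∀ n ∈ Subgroup.normalizer ((Subgroup.zpowers z : Subgroup G) : Set G),
      n⁻¹ * z * n = z ^ (κ n).val) (F : ZMod p → ℂ) :
    ∑ n : G, (if n ∈ Subgroup.normalizer ((Subgroup.zpowers z : Subgroup G) : Set G)
      then F (κ n) else 0) =
      (Nat.card (Subgroup.centralizer ({z} : Set G)) : ℂ) * ∑ k ∈ Ef p z, F k := by
  rw [← Finset.sum_filter]
  have hmaps : ∀ n ∈ Finset.univ.filter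
      (fun n : G => n ∈ Subgroup.normalizer ((Subgroup.zpowers z : Subgroup G) : Set G)),
      κ n ∈ Ef p z := by
    intro n hn
    have hn' := (Finset.mem_filter.mp hn).2
    unfold Ef
    rw [Finset.mem_filter]
    refine ⟨Finset.mem_univ _, ?_⟩
    rw [← hκ n hn', isConj_iff]
    exact ⟨n, by group⟩
  rw [← Finset.sum_fiberwise_of_maps_to hmaps, Finset.mul_sum]
  apply Finset.sum_congr rfl
  intro k hk
  have h1 : ∀ n ∈ (Finset.univ.filter
      (fun n : G => n ∈ Subgroup.normalizer ((Subgroup.zpowers z : Subgroup G) : Set G))).filter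
      (fun n => κ n = k), F (κ n) = F k := by
    intro n hn
    rw [(Finset.mem_filter.mp hn).2]
  rw [Finset.sum_congr rfl h1, Finset.sum_const, nsmul_eq_mul]
  congr 1
  -- the fibre over `k` is a coset of the centralizer
  have hk' : IsConj (z ^ k.val) z := by
    unfold Ef at hk
    exact (Finset.mem_filter.mp hk).2
  obtain ⟨n₀, hn₀⟩ := isConj_iff.mp hk'
  have hn₀' : n₀⁻¹ * z * n₀ = z ^ k.val := by
    have h0 : n₀⁻¹ * (n₀ * z ^ k.val * n₀⁻¹) * n₀ = z ^ k.val := by group
    rwa [hn₀] at h0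
  have hn₀N : n₀ ∈ Subgroup.normalizer ((Subgroup.zpowers z : Subgroup G) : Set G) :=
    h87_mem_norm_of_conj z n₀ k.val hn₀'
  have hcard : Nat.card (Subgroup.centralizer ({z} : Set G)) =
      (Finset.univ.filter (fun a : G => a ∈ Subgroup.centralizer ({z} : Set G))).card := by
    rw [Nat.card_eq_fintype_card, Fintype.card_subtype]
  rw [hcard]
  congr 1
  refine Finset.card_nbij' (fun n => n * n₀⁻¹) (fun a => a * n₀) ?_ ?_ ?_ ?_
  · intro n hn
    have hn1 := Finset.mem_filter.mp (Finset.mem_coe.mp hn)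
    have hnN := (Finset.mem_filter.mp hn1.1).2
    have hnk : κ n = k := hn1.2
    have h2 : n⁻¹ * z * n = z ^ k.val := by rw [hκ n hnN, hnk]
    refine Finset.mem_coe.mpr (Finset.mem_filter.mpr ⟨Finset.mem_univ _, ?_⟩)
    rw [Subgroup.mem_centralizer_iff]
    intro h hh
    rw [Set.mem_singleton_iff] at hh
    rw [hh]
    have e1 : z * n = n * z ^ k.val := by rw [← h2]; group
    have e2 : n₀⁻¹ * z = z ^ k.val * n₀⁻¹ := by rw [← hn₀']; group
    calc z * (n * n₀⁻¹) = (z * n) * n₀⁻¹ := by rw [mul_assoc]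
      _ = n * (z ^ k.val * n₀⁻¹) := by rw [e1, mul_assoc]
      _ = n * n₀⁻¹ * z := by rw [← e2, mul_assoc]
  · intro a ha
    have haC : a ∈ Subgroup.centralizer ({z} : Set G) :=
      (Finset.mem_filter.mp (Finset.mem_coe.mp ha)).2
    have hc : z * a = a * z := (Subgroup.mem_centralizer_iff.mp haC) z rfl
    have haN : a * n₀ ∈ Subgroup.normalizer ((Subgroup.zpowers z : Subgroup G) : Set G) :=
      Subgroup.mul_mem _ (h87_cent_le_norm z haC) hn₀N
    have h3 : (a * n₀)⁻¹ * z * (a * n₀) = z ^ k.val := by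
      rw [← hn₀']
      have : a⁻¹ * z * a = z := by rw [mul_assoc, hc, inv_mul_cancel_left]
      calc (a * n₀)⁻¹ * z * (a * n₀) = n₀⁻¹ * (a⁻¹ * z * a) * n₀ := by group
        _ = n₀⁻¹ * z * n₀ := by rw [this]
    refine Finset.mem_coe.mpr (Finset.mem_filter.mpr
      ⟨Finset.mem_filter.mpr ⟨Finset.mem_univ _, haN⟩, ?_⟩)
    apply h87_pow_val_inj p z hz
    rw [← hκ _ haN, h3]
  · intro n _
    show n * n₀⁻¹ * n₀ = n
    group
  · intro a _
    show a * n₀ * n₀⁻¹ = a
    group

end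

end Cfsg.Agent.Lib.Helper87.BFT
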