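import Mathlib
import Cfsg.Agent.Lib.Helper22.BFDefs
import Cfsg.Agent.Lib.Helper87.BFNSUM

/-!
# S4503 project (helper22): piece FIDX (helper87)
-/

set_option autoImplicit false

namespace Cfsg.Agent.Lib.Helper87.BFT

open Cfsg Cfsg.Agent.Lib.Helper22.BFD
open scoped ComplexConjugate

universe u

section

variable {G : Type u} [Group G] [Fintype G]

/-- PIECE FIDX -/
theorem fidx (p : ℕ) [Fact p.Prime] (z : G) (hz : orderOf z = p) :
    (Subgroup.centralizer ({z} : Set G)).relIndex
      (Subgroup.normalizer ((Subgroup.zpowers z : Subgroup G) : Set G)) = (Ef p z).card := by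
  classical
  have hex : ∀ n : G, ∃ k : ZMod p,
      n ∈ Subgroup.normalizer ((Subgroup.zpowers z : Subgroup G) : Set G) →
        n⁻¹ * z * n = z ^ k.val := by
    intro n
    by_cases hn : n ∈ Subgroup.normalizer ((Subgroup.zpowers z : Subgroup G) : Set G)
    · have h1 : n⁻¹ * z * n ∈ Subgroup.zpowers z :=
        ((Subgroup.mem_normalizer_iff''.mp hn) z).mp (Subgroup.mem_zpowers z)
      obtain ⟨j, hj⟩ := Subgroup.mem_zpowers_iff.mp h1
      refine ⟨(j : ZMod p), fun _ => ?_⟩
      rw [← hj, ← zpow_natCast, ZMod.val_intCast, ← hz, zpow_mod_orderOf]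
    · exact ⟨0, fun h => absurd h hn⟩
  choose κ hκ using hex
  have hsum := nsum p z hz κ hκ (fun _ => 1)
  have hL : (∑ n : G, (if n ∈ Subgroup.normalizer ((Subgroup.zpowers z : Subgroup G) : Set G)
      then (1 : ℂ) else 0)) =
      (Nat.card (Subgroup.normalizer ((Subgroup.zpowers z : Subgroup G) : Set G)) : ℂ) := by
    rw [Finset.sum_boole, Nat.card_eq_fintype_card, Fintype.card_subtype]
  have hR : (∑ k ∈ Ef p z, (1 : ℂ)) = ((Ef p z).card : ℂ) := by
    rw [Finset.sum_const, nsmul_eq_mul, mul_one]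
  have hNC : Nat.card (Subgroup.normalizer ((Subgroup.zpowers z : Subgroup G) : Set G)) =
      Nat.card (Subgroup.centralizer ({z} : Set G)) * (Ef p z).card := by
    have h2 : (Nat.card (Subgroup.normalizer ((Subgroup.zpowers z : Subgroup G) : Set G)) : ℂ) =
        ((Nat.card (Subgroup.centralizer ({z} : Set G)) * (Ef p z).card : ℕ) : ℂ) := by
      rw [Nat.cast_mul, ← hR, ← hL]
      convert hsum using 2
    exact_mod_cast h2
  have hle := h87_cent_le_norm z
  have h3 := Subgroup.card_mul_index
    ((Subgroup.centralizer ({z} : Set G)).subgroupOf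
      (Subgroup.normalizer ((Subgroup.zpowers z : Subgroup G) : Set G)))
  have h4 : Nat.card ((Subgroup.centralizer ({z} : Set G)).subgroupOf
      (Subgroup.normalizer ((Subgroup.zpowers z : Subgroup G) : Set G))) =
      Nat.card (Subgroup.centralizer ({z} : Set G)) :=
    Nat.card_congr (Subgroup.subgroupOfEquivOfLe hle).toEquiv
  rw [h4, hNC] at h3
  have hpos : 0 < Nat.card (Subgroup.centralizer ({z} : Set G)) := Nat.card_pos
  exact Nat.eq_of_mul_eq_mul_left hpos h3

end

end Cfsg.Agent.Lib.Helper87.BFT
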