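import Mathlib
import Cfsg.Agent.Lib.Helper65.MonoDefs

set_option autoImplicit false

/-! S5634 piece MONO-P3 (job of helper65): (P1), (P1') imply (P3) for columns: a column of a
non-monomial element of `X` has at most one zero.  helper87. -/

namespace Cfsg.Agent.Lib.Helper65.Mono

open Matrix

section
variable {F : Type*} [Field F] {κ : Type} [Fintype κ] [DecidableEq κ]

/-- entries of `d_ab(s) * g` -/
theorem p3col_dg_mul (g : GL κ F) (a b : κ) (s : Fˣ) (r i : κ) :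
    ((dg a b s * g : GL κ F) : Matrix κ κ F) r i =
      ((dgv a b s r : Fˣ) : F) * (g : Matrix κ κ F) r i := by
  rw [Units.val_mul, dg, diagU_val, Matrix.diagonal_mul]

/-- `d_ab(s)` maps every column of `g` to a multiple of a column of `g` -/
theorem p3col_key {X : Subgroup (GL κ F)} (hX : MonIn X) (h1 : P1 X) (g : GL κ F) (hg : g ∈ X)
    (k a b : κ) (hab : a ≠ b) (hak : (g : Matrix κ κ F) a k = 0)
    (hbk : (g : Matrix κ κ F) b k = 0) (s : Fˣ) (i : κ) :
    ∃ (m : κ) (c : F), (s : F) * (g : Matrix κ κ F) a i = (g : Matrix κ κ F) a m * c ∧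
      ((s⁻¹ : Fˣ) : F) * (g : Matrix κ κ F) b i = (g : Matrix κ κ F) b m * c ∧
      ∀ r, r ≠ a → r ≠ b → (g : Matrix κ κ F) r i = (g : Matrix κ κ F) r m * c := by
  have hy : g⁻¹ * dg a b s * g ∈ X :=
    X.mul_mem (X.mul_mem (X.inv_mem hg) (dg_mem hX hab s)) hg
  have hcol : ∀ i', i' ≠ k → ((g⁻¹ * dg a b s * g : GL κ F) : Matrix κ κ F) i' k = 0 := by
    intro i' hi'
    have e : (g⁻¹ * dg a b s * g : GL κ F) = g⁻¹ * (dg a b s * g) := mul_assoc _ _ _
    rw [e, Units.val_mul, Matrix.mul_apply]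
    have h2 : ∀ l, ((g⁻¹ : GL κ F) : Matrix κ κ F) i' l *
        ((dg a b s * g : GL κ F) : Matrix κ κ F) l k =
        ((g⁻¹ : GL κ F) : Matrix κ κ F) i' l * (g : Matrix κ κ F) l k := by
      intro l
      rw [p3col_dg_mul]
      by_cases hla : l = a
      · rw [hla, hak, mul_zero]
      · by_cases hlb : l = b
        · rw [hlb, hbk, mul_zero]
        · simp [dgv, hla, hlb]
    rw [Finset.sum_congr rfl (fun l _ => h2 l), gl_inv_mul_apply, if_neg hi']
  have hmono := h1 _ hy k k hcol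
  obtain ⟨m, hm⟩ := hmono i
  have e2 : ((dg a b s * g : GL κ F) : Matrix κ κ F) =
      (g : Matrix κ κ F) * ((g⁻¹ * dg a b s * g : GL κ F) : Matrix κ κ F) := by
    rw [← Units.val_mul]
    congr 1
    group
  have hall : ∀ r, ((dgv a b s r : Fˣ) : F) * (g : Matrix κ κ F) r i =
      (g : Matrix κ κ F) r m * ((g⁻¹ * dg a b s * g : GL κ F) : Matrix κ κ F) m i := by
    intro r
    rw [← p3col_dg_mul, e2, Matrix.mul_apply]
    apply Finset.sum_eq_single m
    · intro l _ hl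
      have : ((g⁻¹ * dg a b s * g : GL κ F) : Matrix κ κ F) l i = 0 := by
        by_contra hne
        exact hl (hm l hne)
      rw [this, mul_zero]
    · intro hh
      exact absurd (Finset.mem_univ _) hh
  refine ⟨m, ((g⁻¹ * dg a b s * g : GL κ F) : Matrix κ κ F) m i, ?_, ?_, ?_⟩
  · have h3 := hall a
    simpa [dgv] using h3
  · have h3 := hall b
    simpa [dgv, hab.symm] using h3
  · intro r hra hrb
    have h3 := hall r
    simpa [dgv, hra, hrb] using h3

/-- different torus elements give different columns -/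
theorem p3col_ne (g : GL κ F) (a b i r : κ)
    (hmix : (g : Matrix κ κ F) a i ≠ 0 ∨ (g : Matrix κ κ F) b i ≠ 0)
    (hr : (g : Matrix κ κ F) r i ≠ 0) (hra : r ≠ a) (hrb : r ≠ b) (s s' : Fˣ) (hss : s ≠ s')
    (m : κ) (c c' : F)
    (hA : (s : F) * (g : Matrix κ κ F) a i = (g : Matrix κ κ F) a m * c)
    (hB : ((s⁻¹ : Fˣ) : F) * (g : Matrix κ κ F) b i = (g : Matrix κ κ F) b m * c)
    (hR : ∀ r, r ≠ a → r ≠ b → (g : Matrix κ κ F) r i = (g : Matrix κ κ F) r m * c)
    (hA' : (s' : F) * (g : Matrix κ κ F) a i = (g : Matrix κ κ F) a m * c')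
    (hB' : ((s'⁻¹ : Fˣ) : F) * (g : Matrix κ κ F) b i = (g : Matrix κ κ F) b m * c')
    (hR' : ∀ r, r ≠ a → r ≠ b → (g : Matrix κ κ F) r i = (g : Matrix κ κ F) r m * c') :
    False := by
  have h1 := hR r hra hrb
  have h2 := hR' r hra hrb
  have hm0 : (g : Matrix κ κ F) r m ≠ 0 := by
    intro h0
    rw [h0, zero_mul] at h1
    exact hr h1
  have hcc : c = c' := by
    have h3 : (g : Matrix κ κ F) r m * c = (g : Matrix κ κ F) r m * c' := by rw [← h1, ← h2]
    exact mul_left_cancel₀ hm0 h3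
  subst hcc
  rcases hmix with h4 | h4
  · have h5 : (s : F) * (g : Matrix κ κ F) a i = (s' : F) * (g : Matrix κ κ F) a i := by
      rw [hA, hA']
    exact hss (Units.ext (mul_right_cancel₀ h4 h5))
  · have h5 : ((s⁻¹ : Fˣ) : F) * (g : Matrix κ κ F) b i =
        ((s'⁻¹ : Fˣ) : F) * (g : Matrix κ κ F) b i := by
      rw [hB, hB']
    have h6 : s⁻¹ = s'⁻¹ := Units.ext (mul_right_cancel₀ h4 h5)
    exact hss (inv_injective h6)

/-- no column of `g` is "mixed" -/
theorem p3col_mixed (g : GL κ F) (a b i r : κ) (t : Fˣ) (ht1 : t ≠ 1) (ht2 : t ^ 2 ≠ 1)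
    (ht3 : t ^ 3 ≠ 1)
    (hmix : (g : Matrix κ κ F) a i ≠ 0 ∨ (g : Matrix κ κ F) b i ≠ 0)
    (hr : (g : Matrix κ κ F) r i ≠ 0) (hra : r ≠ a) (hrb : r ≠ b)
    (hK : ∀ s : Fˣ, ∃ (m : κ) (c : F),
      (s : F) * (g : Matrix κ κ F) a i = (g : Matrix κ κ F) a m * c ∧
      ((s⁻¹ : Fˣ) : F) * (g : Matrix κ κ F) b i = (g : Matrix κ κ F) b m * c ∧
      ∀ r, r ≠ a → r ≠ b → (g : Matrix κ κ F) r i = (g : Matrix κ κ F) r m * c) : False := by
  obtain ⟨m0, c0, hA0, hB0, hR0⟩ := hK 1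
  obtain ⟨m1, c1, hA1, hB1, hR1⟩ := hK t
  obtain ⟨m2, c2, hA2, hB2, hR2⟩ := hK (t ^ 2)
  obtain ⟨m3, c3, hA3, hB3, hR3⟩ := hK (t ^ 3)
  have h30 : m3 ≠ m0 := by
    intro h
    subst h
    exact p3col_ne g a b i r hmix hr hra hrb (t ^ 3) 1 ht3 m3 c3 c0 hA3 hB3 hR3 hA0 hB0 hR0
  have h31 : m3 ≠ m1 := by
    intro h
    subst h
    have hne : t ^ 3 ≠ t := by
      intro h'
      apply ht2
      have h'' : t ^ 2 * t = 1 * t := by rw [one_mul, ← pow_succ]; exact h'
      exact mul_right_cancel h''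
    exact p3col_ne g a b i r hmix hr hra hrb (t ^ 3) t hne m3 c3 c1 hA3 hB3 hR3 hA1 hB1 hR1
  have h32 : m3 ≠ m2 := by
    intro h
    subst h
    have hne : t ^ 3 ≠ t ^ 2 := by
      intro h'
      apply ht1
      have h'' : t ^ 2 * t = t ^ 2 * 1 := by rw [mul_one, ← pow_succ]; exact h'
      exact mul_left_cancel h''
    exact p3col_ne g a b i r hmix hr hra hrb (t ^ 3) (t ^ 2) hne m3 c3 c2 hA3 hB3 hR3 hA2 hB2 hR2
  have hsu : (t : F) * ((t⁻¹ : Fˣ) : F) = 1 := by
    rw [← Units.val_mul, mul_inv_cancel, Units.val_one]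
  -- normalise the coefficients
  simp only [Units.val_one, inv_one, one_mul] at hA0 hB0
  rw [Units.val_pow_eq_pow_val] at hA2 hA3
  rw [← inv_pow, Units.val_pow_eq_pow_val] at hB2 hB3
  -- the linear relation between the four columns
  have hrel : ∀ r', -c0 * (g : Matrix κ κ F) r' m0 +
      ((t : F) + ((t⁻¹ : Fˣ) : F) + 1) * (c1 * (g : Matrix κ κ F) r' m1) -
      ((t : F) + ((t⁻¹ : Fˣ) : F) + 1) * (c2 * (g : Matrix κ κ F) r' m2) +
      c3 * (g : Matrix κ κ F) r' m3 = 0 := by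
    intro r'
    by_cases hra' : r' = a
    · subst hra'
      linear_combination hA0 - ((t : F) + ((t⁻¹ : Fˣ) : F) + 1) * hA1 +
        ((t : F) + ((t⁻¹ : Fˣ) : F) + 1) * hA2 - hA3 +
        (g : Matrix κ κ F) r' i * (1 - (t : F)) * hsu
    · by_cases hrb' : r' = b
      · subst hrb'
        linear_combination hB0 - ((t : F) + ((t⁻¹ : Fˣ) : F) + 1) * hB1 +
          ((t : F) + ((t⁻¹ : Fˣ) : F) + 1) * hB2 - hB3 +
          (g : Matrix κ κ F) r' i * (1 - ((t⁻¹ : Fˣ) : F)) * hsu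
      · linear_combination hR0 r' hra' hrb' -
          ((t : F) + ((t⁻¹ : Fˣ) : F) + 1) * hR1 r' hra' hrb' +
          ((t : F) + ((t⁻¹ : Fˣ) : F) + 1) * hR2 r' hra' hrb' - hR3 r' hra' hrb'
  have hsum : ∑ r', ((g⁻¹ : GL κ F) : Matrix κ κ F) m3 r' *
      (-c0 * (g : Matrix κ κ F) r' m0 +
      ((t : F) + ((t⁻¹ : Fˣ) : F) + 1) * (c1 * (g : Matrix κ κ F) r' m1) -
      ((t : F) + ((t⁻¹ : Fˣ) : F) + 1) * (c2 * (g : Matrix κ κ F) r' m2) +
      c3 * (g : Matrix κ κ F) r' m3) = 0 :=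
    Finset.sum_eq_zero (fun r' _ => by rw [hrel r', mul_zero])
  have hexp : -c0 * (∑ r', ((g⁻¹ : GL κ F) : Matrix κ κ F) m3 r' * (g : Matrix κ κ F) r' m0) +
      ((t : F) + ((t⁻¹ : Fˣ) : F) + 1) * c1 *
        (∑ r', ((g⁻¹ : GL κ F) : Matrix κ κ F) m3 r' * (g : Matrix κ κ F) r' m1) -
      ((t : F) + ((t⁻¹ : Fˣ) : F) + 1) * c2 *
        (∑ r', ((g⁻¹ : GL κ F) : Matrix κ κ F) m3 r' * (g : Matrix κ κ F) r' m2) +
      c3 * (∑ r', ((g⁻¹ : GL κ F) : Matrix κ κ F) m3 r' * (g : Matrix κ κ F) r' m3) =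
      ∑ r', ((g⁻¹ : GL κ F) : Matrix κ κ F) m3 r' *
      (-c0 * (g : Matrix κ κ F) r' m0 +
      ((t : F) + ((t⁻¹ : Fˣ) : F) + 1) * (c1 * (g : Matrix κ κ F) r' m1) -
      ((t : F) + ((t⁻¹ : Fˣ) : F) + 1) * (c2 * (g : Matrix κ κ F) r' m2) +
      c3 * (g : Matrix κ κ F) r' m3) := by
    simp only [Finset.mul_sum]
    rw [← Finset.sum_add_distrib, ← Finset.sum_sub_distrib, ← Finset.sum_add_distrib]
    exact Finset.sum_congr rfl (fun _ _ => by ring)
  rw [hsum, gl_inv_mul_apply, gl_inv_mul_apply, gl_inv_mul_apply, gl_inv_mul_apply,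
    if_neg h30, if_neg h31, if_neg h32, if_pos rfl] at hexp
  have hc3 : c3 = 0 := by
    simpa using hexp
  have h7 := hR3 r hra hrb
  rw [hc3, mul_zero] at h7
  exact hr h7

/-- P3 -/
theorem p3col [Fintype F] (hq : 5 ≤ Fintype.card F) (hn : 5 ≤ Fintype.card κ)
    {X : Subgroup (GL κ F)} (hX : MonIn X) (h1 : P1 X) (h1' : P1' X) : P3col X := by
  classical
  have _hn := hn
  intro g hg hnm k a b hab hak hbk
  -- a generator of the multiplicative group
  obtain ⟨t, ht⟩ := IsCyclic.exists_generator (α := Fˣ)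
  have hord : orderOf t = Fintype.card F - 1 := by
    rw [orderOf_eq_card_of_forall_mem_zpowers ht, Nat.card_eq_fintype_card, Fintype.card_units]
  have ht1 : t ≠ 1 := by
    have h := pow_ne_one_of_lt_orderOf (x := t) (n := 1) (by norm_num) (by omega)
    rwa [pow_one] at h
  have ht2 : t ^ 2 ≠ 1 := pow_ne_one_of_lt_orderOf (by norm_num) (by omega)
  have ht3 : t ^ 3 ≠ 1 := pow_ne_one_of_lt_orderOf (by norm_num) (by omega)
  -- every column is of the first or of the second kind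
  have hkind : ∀ i, ((g : Matrix κ κ F) a i = 0 ∧ (g : Matrix κ κ F) b i = 0) ∨
      (∀ r, r ≠ a → r ≠ b → (g : Matrix κ κ F) r i = 0) := by
    intro i
    by_contra hcon
    rw [not_or] at hcon
    obtain ⟨hc1, hc2⟩ := hcon
    push Not at hc2
    obtain ⟨r, hra, hrb, hr⟩ := hc2
    have hmix : (g : Matrix κ κ F) a i ≠ 0 ∨ (g : Matrix κ κ F) b i ≠ 0 := by
      by_contra hh
      rw [not_or, not_not, not_not] at hh
      exact hc1 hh
    exact p3col_mixed g a b i r t ht1 ht2 ht3 hmix hr hra hrb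
      (fun s => p3col_key hX h1 g hg k a b hab hak hbk s i)
  -- two columns of the second kind
  have htwo : ∃ i1 i2, i1 ≠ i2 ∧ (∀ r, r ≠ a → r ≠ b → (g : Matrix κ κ F) r i1 = 0) ∧
      (∀ r, r ≠ a → r ≠ b → (g : Matrix κ κ F) r i2 = 0) := by
    by_contra hcon
    push Not at hcon
    -- row `a` of `g` is nonzero
    have hrow : ∃ i0, (g : Matrix κ κ F) a i0 ≠ 0 := by
      by_contra hh
      push Not at hh
      have h2 := gl_mul_inv_apply g a a
      rw [if_pos rfl, Finset.sum_eq_zero (fun l _ => by rw [hh l, zero_mul])] at h2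
      exact zero_ne_one h2
    obtain ⟨i0, hi0⟩ := hrow
    have hi0' : ∀ r, r ≠ a → r ≠ b → (g : Matrix κ κ F) r i0 = 0 := by
      rcases hkind i0 with h | h
      · exact absurd h.1 hi0
      · exact h
    have hother : ∀ i, i ≠ i0 → (g : Matrix κ κ F) a i = 0 ∧ (g : Matrix κ κ F) b i = 0 := by
      intro i hi
      rcases hkind i with h | h
      · exact h
      · obtain ⟨r, hra, hrb, hr⟩ := hcon i i0 hi h
        exact absurd (hi0' r hra hrb) hr
    have haa := gl_mul_inv_apply g a a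
    rw [if_pos rfl, Finset.sum_eq_single i0
      (fun l _ hl => by rw [(hother l hl).1, zero_mul])
      (fun hh => absurd (Finset.mem_univ _) hh)] at haa
    have hba := gl_mul_inv_apply g b a
    rw [if_neg hab.symm, Finset.sum_eq_single i0
      (fun l _ hl => by rw [(hother l hl).2, zero_mul])
      (fun hh => absurd (Finset.mem_univ _) hh)] at hba
    have hbb := gl_mul_inv_apply g b b
    rw [if_pos rfl, Finset.sum_eq_single i0
      (fun l _ hl => by rw [(hother l hl).2, zero_mul])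
      (fun hh => absurd (Finset.mem_univ _) hh)] at hbb
    have hψ : ((g⁻¹ : GL κ F) : Matrix κ κ F) i0 a ≠ 0 := by
      intro h0
      rw [h0, mul_zero] at haa
      exact zero_ne_one haa
    rcases mul_eq_zero.mp hba with h0 | h0
    · rw [h0, zero_mul] at hbb
      exact zero_ne_one hbb
    · exact hψ h0
  obtain ⟨i1, i2, hi12, hc1, hc2⟩ := htwo
  exact hnm (h1' g hg i1 i2 a b hi12 hab (fun r hra hrb => ⟨hc1 r hra hrb, hc2 r hra hrb⟩))

end

end Cfsg.Agent.Lib.Helper65.Mono
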