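import Mathlib
import Cfsg.Agent.Lib.Helper65.MonoDefs

set_option autoImplicit false

/-! S5634 piece MONO-TRANSPORT (job of helper65): transport of `MonoMaxP (Fin n) F` (standard
frame) to an arbitrary decomposition of `F^n` into lines.  helper87. -/

namespace Cfsg.Agent.Lib.Helper65.Mono

open Matrix

/-- a decomposition into lines is given by a basis -/
theorem s5634_m1_basis {F : Type*} [Field F] (n : ℕ) {t : ℕ}
    (D : Fin t → Submodule F (Fin n → F)) (hD : Cfsg.Geo.IsMDecomposition 1 D) :
    ∃ b : Module.Basis (Fin t) F (Fin n → F), ∀ i, D i = Submodule.span F {b i} := by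
  have h1 : ∀ i, ∃ v : Fin n → F, v ≠ 0 ∧ D i = Submodule.span F {v} := by
    intro i
    have hf := hD.finrank_eq i
    obtain ⟨v, hv0, hv⟩ := finrank_eq_one_iff'.mp hf
    refine ⟨(v : Fin n → F), ?_, ?_⟩
    · intro h0
      apply hv0
      exact Subtype.ext h0
    · apply le_antisymm
      · intro w hw
        obtain ⟨c, hc⟩ := hv ⟨w, hw⟩
        rw [Submodule.mem_span_singleton]
        exact ⟨c, congrArg Subtype.val hc⟩
      · rw [Submodule.span_singleton_le_iff_mem]
        exact v.2
  choose v hv0 hv using h1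
  have hli : LinearIndependent F v :=
    hD.indep.linearIndependent D
      (fun i => by rw [hv i]; exact Submodule.mem_span_singleton_self _) hv0
  have hsp : ⊤ ≤ Submodule.span F (Set.range v) := by
    rw [Submodule.span_range_eq_iSup, ← hD.iSup_eq_top]
    exact le_of_eq (iSup_congr hv)
  refine ⟨Module.Basis.mk hli hsp, fun i => ?_⟩
  rw [Module.Basis.mk_apply]
  exact hv i

/-- the stabiliser of a decomposition into lines is a conjugate of the monomial group -/
theorem s5634_m1_conj {F : Type*} [Field F] (n : ℕ)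
    (D : Fin n → Submodule F (Fin n → F)) (hD : Cfsg.Geo.IsMDecomposition 1 D) :
    ∃ P : GL (Fin n) F, ∀ g : GL (Fin n) F,
      g ∈ Cfsg.Geo.decompositionStabilizer D ↔
        IsMono ((P⁻¹ * g * P : GL (Fin n) F) : Matrix (Fin n) (Fin n) F) := by
  obtain ⟨b, hb⟩ := s5634_m1_basis n D hD
  obtain ⟨P, hP⟩ : ∃ P : GL (Fin n) F, ∀ i j, (P : Matrix (Fin n) (Fin n) F) i j = b j i := by
    refine ⟨⟨(Pi.basisFun F (Fin n)).toMatrix b, b.toMatrix (Pi.basisFun F (Fin n)),
      Module.Basis.toMatrix_mul_toMatrix_flip _ _, Module.Basis.toMatrix_mul_toMatrix_flip _ _⟩,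
      fun i j => ?_⟩
    change (Pi.basisFun F (Fin n)).toMatrix b i j = b j i
    rw [Module.Basis.toMatrix_apply, Pi.basisFun_repr]
  have hgP : ∀ (g : GL (Fin n) F) (i j : Fin n),
      ((g * P : GL (Fin n) F) : Matrix (Fin n) (Fin n) F) i j =
        ((g : Matrix (Fin n) (Fin n) F) *ᵥ b j) i := by
    intro g i j
    rw [Units.val_mul, Matrix.mul_apply]
    change _ = ∑ l, (g : Matrix (Fin n) (Fin n) F) i l * b j l
    exact Finset.sum_congr rfl (fun l _ => by rw [hP])
  refine ⟨P, fun g => ⟨?_, ?_⟩⟩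
  · rintro ⟨σ, hσ⟩
    intro j
    refine ⟨σ j, fun i hne => ?_⟩
    by_contra hij
    apply hne
    have hmem : (g : Matrix (Fin n) (Fin n) F) *ᵥ b j ∈ D (σ j) := by
      rw [← hσ j]
      refine ⟨b j, ?_, ?_⟩
      · rw [hb j]
        exact Submodule.mem_span_singleton_self _
      · rw [Matrix.toLin'_apply]
    rw [hb (σ j), Submodule.mem_span_singleton] at hmem
    obtain ⟨c, hc⟩ := hmem
    have e : (P⁻¹ * g * P : GL (Fin n) F) = P⁻¹ * (g * P) := mul_assoc _ _ _
    rw [e, Units.val_mul, Matrix.mul_apply]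
    have h2 : ∀ l, ((P⁻¹ : GL (Fin n) F) : Matrix (Fin n) (Fin n) F) i l *
        ((g * P : GL (Fin n) F) : Matrix (Fin n) (Fin n) F) l j =
        c * (((P⁻¹ : GL (Fin n) F) : Matrix (Fin n) (Fin n) F) i l *
          (P : Matrix (Fin n) (Fin n) F) l (σ j)) := by
      intro l
      rw [hgP, ← hc, hP, Pi.smul_apply, smul_eq_mul]
      ring
    rw [Finset.sum_congr rfl (fun l _ => h2 l), ← Finset.mul_sum, gl_inv_mul_apply,
      if_neg hij, mul_zero]
  · intro hmono
    choose π hπ using hmono
    have hcol : ∀ j, (g : Matrix (Fin n) (Fin n) F) *ᵥ b j =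
        ((P⁻¹ * g * P : GL (Fin n) F) : Matrix (Fin n) (Fin n) F) (π j) j • b (π j) := by
      intro j
      funext i
      rw [← hgP]
      have e : g * P = P * (P⁻¹ * g * P) := by group
      rw [e, Units.val_mul, Matrix.mul_apply, Pi.smul_apply, smul_eq_mul]
      rw [Finset.sum_eq_single (π j)]
      · rw [hP, mul_comm]
      · intro l _ hl
        have : ((P⁻¹ * g * P : GL (Fin n) F) : Matrix (Fin n) (Fin n) F) l j = 0 := by
          by_contra hne
          exact hl (hπ j l hne)
        rw [this, mul_zero]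
      · intro hh
        exact absurd (Finset.mem_univ _) hh
    have hginv : ∀ z : Fin n → F, ((g⁻¹ : GL (Fin n) F) : Matrix (Fin n) (Fin n) F) *ᵥ
        ((g : Matrix (Fin n) (Fin n) F) *ᵥ z) = z := by
      intro z
      rw [Matrix.mulVec_mulVec, ← Units.val_mul, inv_mul_cancel, Units.val_one,
        Matrix.one_mulVec]
    have hc0 : ∀ j, ((P⁻¹ * g * P : GL (Fin n) F) : Matrix (Fin n) (Fin n) F) (π j) j ≠ 0 := by
      intro j h0
      have h3 := hcol j
      rw [h0, zero_smul] at h3
      have h4 := hginv (b j)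
      rw [h3, Matrix.mulVec_zero] at h4
      exact b.ne_zero j h4.symm
    have hmap : ∀ j, (D j).map (Matrix.toLin' (g : Matrix (Fin n) (Fin n) F)) = D (π j) := by
      intro j
      rw [hb j, hb (π j), Submodule.map_span, Set.image_singleton, Matrix.toLin'_apply, hcol j]
      exact Submodule.span_singleton_smul_eq (IsUnit.mk0 _ (hc0 j)) _
    have hDinj : Function.Injective D := hD.indep.injective (fun i h0 => by
      have := hD.finrank_eq i
      rw [h0, finrank_bot] at this
      exact zero_ne_one this)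
    have hginj : Function.Injective (Matrix.toLin' (g : Matrix (Fin n) (Fin n) F)) := by
      intro x y hxy
      rw [Matrix.toLin'_apply, Matrix.toLin'_apply] at hxy
      rw [← hginv x, ← hginv y, hxy]
    have hinj : Function.Injective π := by
      intro j j' hjj
      apply hDinj
      have h5 : (D j).map (Matrix.toLin' (g : Matrix (Fin n) (Fin n) F)) =
          (D j').map (Matrix.toLin' (g : Matrix (Fin n) (Fin n) F)) := by
        rw [hmap j, hmap j', hjj]
      exact Submodule.map_injective_of_injective hginj h5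
    exact ⟨Equiv.ofBijective π ⟨hinj, Finite.surjective_of_injective hinj⟩, fun i => hmap i⟩

/-- TRANSPORT -/
theorem s5634_m1 {F : Type*} [Field F] [Fintype F] (n : ℕ) (hn : 13 ≤ n) {t : ℕ}
    (D : Fin t → Submodule F (Fin n → F)) (hD : Cfsg.Geo.IsMDecomposition 1 D)
    (hmain : MonoMaxP (Fin n) F) :
    Cfsg.Geo.IsMaximalIn (Cfsg.Geo.specialLinear (Fin n) F)
      (Cfsg.Geo.decompositionStabilizer D ⊓ Cfsg.Geo.specialLinear (Fin n) F) := by
  obtain ⟨b0, _⟩ := s5634_m1_basis n D hD
  have htn : t = n := by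
    have h1 := Module.finrank_eq_card_basis b0
    rw [Module.finrank_fin_fun, Fintype.card_fin] at h1
    exact h1.symm
  subst htn
  obtain ⟨P, hP⟩ := s5634_m1_conj t D hD
  have hSL : ∀ g : GL (Fin t) F, P⁻¹ * g * P ∈ Cfsg.Geo.specialLinear (Fin t) F ↔
      g ∈ Cfsg.Geo.specialLinear (Fin t) F := by
    intro g
    unfold Cfsg.Geo.specialLinear
    rw [MonoidHom.mem_ker, MonoidHom.mem_ker, map_mul, map_mul, map_inv, mul_comm, ← mul_assoc,
      mul_inv_cancel, one_mul]
  have hSL' : ∀ x : GL (Fin t) F, P * x * P⁻¹ ∈ Cfsg.Geo.specialLinear (Fin t) F ↔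
      x ∈ Cfsg.Geo.specialLinear (Fin t) F := by
    intro x
    unfold Cfsg.Geo.specialLinear
    rw [MonoidHom.mem_ker, MonoidHom.mem_ker, map_mul, map_mul, map_inv, mul_comm, ← mul_assoc,
      inv_mul_cancel, one_mul]
  have hcancel : ∀ x : GL (Fin t) F, P⁻¹ * (P * x * P⁻¹) * P = x := by
    intro x
    group
  have hcancel' : ∀ g : GL (Fin t) F, P * (P⁻¹ * g * P) * P⁻¹ = g := by
    intro g
    group
  constructor
  · -- properness
    refine lt_of_le_of_ne inf_le_right ?_
    intro heq
    have h01 : (⟨0, by omega⟩ : Fin t) ≠ ⟨1, by omega⟩ := by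
      intro h
      have := congrArg Fin.val h
      simp at this
    obtain ⟨T, hT⟩ : ∃ T : GL (Fin t) F, (T : Matrix (Fin t) (Fin t) F) =
        Matrix.transvection (⟨0, by omega⟩ : Fin t) ⟨1, by omega⟩ (1 : F) := by
      refine ⟨⟨Matrix.transvection (⟨0, by omega⟩ : Fin t) ⟨1, by omega⟩ (1 : F),
        Matrix.transvection (⟨0, by omega⟩ : Fin t) ⟨1, by omega⟩ (-1 : F), ?_, ?_⟩, rfl⟩
      · rw [Matrix.transvection_mul_transvection_same _ _ h01, add_neg_cancel,
          Matrix.transvection_zero]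
      · rw [Matrix.transvection_mul_transvection_same _ _ h01, neg_add_cancel,
          Matrix.transvection_zero]
    have hTSL : T ∈ Cfsg.Geo.specialLinear (Fin t) F := by
      rw [Cfsg.Agent.Lib.Helper97.mem_specialLinear_iff, hT, Matrix.det_transvection_of_ne _ _ h01]
    have hmem : P * T * P⁻¹ ∈ Cfsg.Geo.specialLinear (Fin t) F := (hSL' T).mpr hTSL
    rw [← heq] at hmem
    have hst := (Subgroup.mem_inf.mp hmem).1
    rw [hP, hcancel, hT] at hst
    obtain ⟨i, hi⟩ := hst ⟨1, by omega⟩
    have ha : (⟨0, by omega⟩ : Fin t) = i := by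
      apply hi
      have hv : Matrix.transvection (⟨0, by omega⟩ : Fin t) ⟨1, by omega⟩ (1 : F)
          ⟨0, by omega⟩ ⟨1, by omega⟩ = 1 := by
        simp [Matrix.transvection, Matrix.one_apply_ne h01]
      rw [hv]
      exact one_ne_zero
    have hb : (⟨1, by omega⟩ : Fin t) = i := by
      apply hi
      have hv : Matrix.transvection (⟨0, by omega⟩ : Fin t) ⟨1, by omega⟩ (1 : F)
          ⟨1, by omega⟩ ⟨1, by omega⟩ = 1 := by
        simp [Matrix.transvection, h01]
      rw [hv]
      exact one_ne_zero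
    exact h01 (ha.trans hb.symm)
  · intro M hM1 hM2
    -- the conjugate subgroup
    have hXmem : ∀ x : GL (Fin t) F,
        x ∈ M.comap (MulAut.conj P).toMonoidHom ↔ P * x * P⁻¹ ∈ M := by
      intro x
      rfl
    have hXmono : MonIn (M.comap (MulAut.conj P).toMonoidHom) := by
      intro x hdet hmono
      rw [hXmem]
      apply hM1
      refine Subgroup.mem_inf.mpr ⟨?_, ?_⟩
      · rw [hP, hcancel]
        exact hmono
      · rw [hSL', Cfsg.Agent.Lib.Helper97.mem_specialLinear_iff]
        exact hdet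
    have hXSL : M.comap (MulAut.conj P).toMonoidHom ≤ Cfsg.Geo.specialLinear (Fin t) F := by
      intro x hx
      rw [hXmem] at hx
      exact (hSL' x).mp (hM2 hx)
    by_cases hex : ∃ x ∈ M.comap (MulAut.conj P).toMonoidHom,
        ¬ IsMono (x : Matrix (Fin t) (Fin t) F)
    · right
      have hle := hmain _ hXmono hXSL hex
      apply le_antisymm hM2
      intro g hg
      have h1 : P⁻¹ * g * P ∈ M.comap (MulAut.conj P).toMonoidHom := hle ((hSL g).mpr hg)
      rw [hXmem, hcancel'] at h1
      exact h1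
    · left
      push Not at hex
      apply le_antisymm _ hM1
      intro g hg
      refine Subgroup.mem_inf.mpr ⟨?_, hM2 hg⟩
      rw [hP]
      apply hex
      rw [hXmem, hcancel']
      exact hg

end Cfsg.Agent.Lib.Helper65.Mono
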