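import Mathlib
import Cfsg.Prelude.Def_GeometricClasses
import Cfsg.Agent.Lib.Helper71.Asch0

/-!
# S5630 project (helper71): piece PSF (helper87)

A field subalgebra of degree `≥ 2` of the matrix algebra contains a canonical field subalgebra of
prime degree (the fixed points of a power of the Frobenius map).
-/

set_option autoImplicit false
set_option linter.style.haveILetI false

namespace Cfsg.Agent.Lib.Helper87.ASPSF

open Matrix Cfsg.Geo Cfsg.Agent.Lib.Helper71.Asch
open scoped Kronecker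

variable {n : ℕ} {F : Type*} [Field F] [Fintype F]

/-- commutative ring structure on a commutative subalgebra -/
@[reducible] def commRingK (K : Subalgebra F (Matrix (Fin n) (Fin n) F))
    (hcomm : ∀ x ∈ K, ∀ y ∈ K, x * y = y * x) : CommRing ↥K :=
  { (inferInstance : Ring ↥K) with
    mul_comm := fun a b => Subtype.ext (hcomm a.1 a.2 b.1 b.2) }

open scoped Classical in
/-- field structure on a field subalgebra -/
@[reducible] noncomputable def fieldK (K : Subalgebra F (Matrix (Fin n) (Fin n) F))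
    (hcomm : ∀ x ∈ K, ∀ y ∈ K, x * y = y * x)
    (hinv : ∀ x ∈ K, x ≠ 0 → ∃ y ∈ K, x * y = 1) (h01 : (0 : ↥K) ≠ 1) : Field ↥K :=
  { commRingK K hcomm with
    inv := fun x => if h : x = 0 then 0 else
      ⟨Classical.choose (hinv x.1 x.2 (fun h0 => h (Subtype.ext h0))),
        (Classical.choose_spec (hinv x.1 x.2 (fun h0 => h (Subtype.ext h0)))).1⟩
    exists_pair_ne := ⟨0, 1, h01⟩
    mul_inv_cancel := fun x hx => by
      show x * (if h : x = 0 then (0 : ↥K) else _) = 1
      rw [dif_neg hx]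
      exact Subtype.ext (Classical.choose_spec (hinv x.1 x.2 (fun h0 => hx (Subtype.ext h0)))).2
    inv_zero := dif_pos rfl
    nnqsmul := _
    qsmul := _ }

/-- PSF: a field subalgebra of degree ≥ 2 contains a canonical field subalgebra of prime degree. -/
theorem PSF (K : Subalgebra F (Matrix (Fin n) (Fin n) F))
    (hcomm : ∀ x ∈ K, ∀ y ∈ K, x * y = y * x)
    (hinv : ∀ x ∈ K, x ≠ 0 → ∃ y ∈ K, x * y = 1) (hdim : 2 ≤ Module.finrank F K) :
    ∃ (r : ℕ) (K' : Subalgebra F (Matrix (Fin n) (Fin n) F)), r.Prime ∧ IsFieldSubalgebra r K' ∧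
      K' ≤ K ∧ ∀ g : GL (Fin n) F, (∀ x ∈ K, g.1 * x * (g⁻¹ : GL (Fin n) F).1 ∈ K) →
        g ∈ subalgebraNormalizer K' := by
  classical
  have hnt : Nontrivial ↥K := Module.nontrivial_of_finrank_pos (R := F) (by omega)
  have h01 : (0 : ↥K) ≠ 1 := zero_ne_one
  letI iF : Field ↥K := fieldK K hcomm hinv h01
  obtain ⟨r, hr, hrd⟩ := Nat.exists_prime_and_dvd (show Module.finrank F K ≠ 1 by omega)
  have hq2 : 2 ≤ Fintype.card F := Fintype.one_lt_card
  let φ : ↥K →ₐ[F] ↥K := FiniteField.frobeniusAlgHom F ↥K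
  have hφ : ∀ (x : ↥K), ((φ ^ r) x : ↥K) = x ^ (Fintype.card F ^ r) := by
    intro x
    rw [AlgHom.coe_pow, FiniteField.coe_frobeniusAlgHom, pow_iterate]
  let E : Subalgebra F ↥K := AlgHom.equalizer (φ ^ r) (AlgHom.id F ↥K)
  have hE : ∀ x : ↥K, x ∈ E ↔ x ^ (Fintype.card F ^ r) = x := by
    intro x
    rw [AlgHom.mem_equalizer, hφ, AlgHom.id_apply]
  let K' : Subalgebra F (Matrix (Fin n) (Fin n) F) := E.map K.val
  have hmem : ∀ x : Matrix (Fin n) (Fin n) F,
      x ∈ K' ↔ x ∈ K ∧ x ^ (Fintype.card F ^ r) = x := by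
    intro x
    constructor
    · rintro ⟨y, hy, rfl⟩
      refine ⟨y.2, ?_⟩
      have h1 := (hE y).mp hy
      have h2 := congrArg Subtype.val h1
      exact h2
    · rintro ⟨hx, hx'⟩
      refine ⟨⟨x, hx⟩, ?_, rfl⟩
      exact (hE ⟨x, hx⟩).mpr (Subtype.ext hx')
  -- cardinality of `E`
  have hcardK : Nat.card ↥K = Fintype.card F ^ Module.finrank F K := by
    have : Fintype ↥K := Fintype.ofFinite _
    rw [Nat.card_eq_fintype_card, Module.card_eq_pow_finrank (K := F) (V := ↥K)]
  have hcardU : Nat.card (↥K)ˣ = Fintype.card F ^ Module.finrank F K - 1 := by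
    rw [Nat.card_units, hcardK]
  have hq1 : 1 ≤ Fintype.card F ^ r := Nat.one_le_pow _ _ (by omega)
  have hker : Nat.card (powMonoidHom (Fintype.card F ^ r - 1) : (↥K)ˣ →* (↥K)ˣ).ker =
      Fintype.card F ^ r - 1 := by
    rw [IsCyclic.card_powMonoidHom_ker, hcardU]
    exact Nat.gcd_eq_right (Nat.pow_sub_one_dvd_pow_sub_one _ hrd)
  have hcardE : Nat.card ↥E = Fintype.card F ^ r := by
    have hbij : Function.Bijective (fun o : Option ↥(powMonoidHom (Fintype.card F ^ r - 1) :
        (↥K)ˣ →* (↥K)ˣ).ker => (match o with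
          | none => (⟨0, (hE 0).mpr (zero_pow (by omega))⟩ : ↥E)
          | some u => ⟨((u.1 : (↥K)ˣ) : ↥K), (hE _).mpr (by
              have hu : (u.1 : (↥K)ˣ) ^ (Fintype.card F ^ r - 1) = 1 := u.2
              have hu' : ((u.1 : (↥K)ˣ) : ↥K) ^ (Fintype.card F ^ r - 1) = 1 := by
                rw [← Units.val_pow_eq_pow_val, hu, Units.val_one]
              calc ((u.1 : (↥K)ˣ) : ↥K) ^ (Fintype.card F ^ r)
                  = ((u.1 : (↥K)ˣ) : ↥K) ^ (Fintype.card F ^ r - 1 + 1) := by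
                    rw [Nat.sub_add_cancel hq1]
                _ = ((u.1 : (↥K)ˣ) : ↥K) := by rw [pow_succ, hu', one_mul])⟩ : ↥E)) := by
      constructor
      · intro a b hab
        rcases a with _ | a <;> rcases b with _ | b
        · rfl
        · exfalso
          have h1 : (0 : ↥K) = ((b.1 : (↥K)ˣ) : ↥K) := congrArg Subtype.val hab
          exact (Units.ne_zero b.1) h1.symm
        · exfalso
          have h1 : ((a.1 : (↥K)ˣ) : ↥K) = 0 := congrArg Subtype.val hab
          exact (Units.ne_zero a.1) h1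
        · have h1 : ((a.1 : (↥K)ˣ) : ↥K) = ((b.1 : (↥K)ˣ) : ↥K) := congrArg Subtype.val hab
          exact congrArg some (Subtype.ext (Units.ext h1))
      · intro y
        by_cases hy0 : (y : ↥K) = 0
        · exact ⟨none, Subtype.ext hy0.symm⟩
        · have hy1 : (y : ↥K) ^ (Fintype.card F ^ r) = (y : ↥K) := (hE _).mp y.2
          have hy2 : (y : ↥K) ^ (Fintype.card F ^ r - 1) = 1 := by
            have h3 : (y : ↥K) * (y : ↥K) ^ (Fintype.card F ^ r - 1) = (y : ↥K) * 1 := by
              rw [← pow_succ', Nat.sub_add_cancel hq1, hy1, mul_one]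
            exact mul_left_cancel₀ hy0 h3
          refine ⟨some ⟨Units.mk0 (y : ↥K) hy0, ?_⟩, Subtype.ext rfl⟩
          rw [MonoidHom.mem_ker, powMonoidHom_apply]
          apply Units.ext
          rw [Units.val_pow_eq_pow_val, Units.val_mk0, hy2, Units.val_one]
    rw [← Nat.card_congr (Equiv.ofBijective _ hbij), Finite.card_option, hker,
      Nat.sub_add_cancel hq1]
  have hfinE : Module.finrank F ↥E = r := by
    have : Fintype ↥E := Fintype.ofFinite _
    have h1 : Nat.card ↥E = Fintype.card F ^ Module.finrank F ↥E := by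
      rw [Nat.card_eq_fintype_card, Module.card_eq_pow_finrank (K := F) (V := ↥E)]
    rw [hcardE] at h1
    exact (Nat.pow_right_injective hq2 h1).symm
  have hfinK' : Module.finrank F ↥K' = r := by
    rw [← hfinE]
    exact (LinearEquiv.finrank_eq
      (E.equivMapOfInjective K.val Subtype.val_injective).toLinearEquiv).symm
  refine ⟨r, K', hr, ⟨?_, ?_, hfinK'⟩, ?_, ?_⟩
  · intro x hx y hy
    exact hcomm x ((hmem x).mp hx).1 y ((hmem y).mp hy).1
  · intro x hx hx0
    obtain ⟨hxK, hxq⟩ := (hmem x).mp hx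
    obtain ⟨y, hy, hxy⟩ := hinv x hxK hx0
    refine ⟨y, (hmem y).mpr ⟨hy, ?_⟩, hxy⟩
    have hc : Commute x y := hcomm x hxK y hy
    have h1 : x * y ^ (Fintype.card F ^ r) = 1 := by
      have h2 := hc.mul_pow (Fintype.card F ^ r)
      rw [hxy, one_pow, hxq] at h2
      exact h2.symm
    have hyx : y * x = 1 := by rw [← hc.eq]; exact hxy
    calc y ^ (Fintype.card F ^ r) = (y * x) * y ^ (Fintype.card F ^ r) := by rw [hyx, one_mul]
      _ = y * (x * y ^ (Fintype.card F ^ r)) := mul_assoc _ _ _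
      _ = y := by rw [h1, mul_one]
  · intro x hx
    exact ((hmem x).mp hx).1
  · intro g hg
    -- conjugation by `g` is a bijection of `K`
    let c : ↥K →ₗ[F] ↥K :=
      { toFun := fun x => ⟨g.1 * x.1 * (g⁻¹ : GL (Fin n) F).1, hg x.1 x.2⟩
        map_add' := fun x y => Subtype.ext (by
          show g.1 * (x.1 + y.1) * (g⁻¹ : GL (Fin n) F).1 = _
          rw [mul_add, add_mul]; rfl)
        map_smul' := fun a x => Subtype.ext (by
          show g.1 * (a • x.1) * (g⁻¹ : GL (Fin n) F).1 = a • (g.1 * x.1 * (g⁻¹ : GL (Fin n) F).1)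
          rw [mul_smul_comm, smul_mul_assoc]) }
    have hginv1 : (g⁻¹ : GL (Fin n) F).1 * g.1 = 1 := by
      rw [← Units.val_mul, inv_mul_cancel, Units.val_one]
    have hginv2 : g.1 * (g⁻¹ : GL (Fin n) F).1 = 1 := by
      rw [← Units.val_mul, mul_inv_cancel, Units.val_one]
    have hcinj : Function.Injective c := by
      intro x y hxy
      have h1 : g.1 * x.1 * (g⁻¹ : GL (Fin n) F).1 = g.1 * y.1 * (g⁻¹ : GL (Fin n) F).1 :=
        congrArg Subtype.val hxy
      apply Subtype.ext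
      calc x.1 = (g⁻¹ : GL (Fin n) F).1 * (g.1 * x.1 * (g⁻¹ : GL (Fin n) F).1) * g.1 := by
            rw [mul_assoc, mul_assoc, hginv1, mul_one, ← mul_assoc, hginv1, one_mul]
        _ = (g⁻¹ : GL (Fin n) F).1 * (g.1 * y.1 * (g⁻¹ : GL (Fin n) F).1) * g.1 := by rw [h1]
        _ = y.1 := by
            rw [mul_assoc, mul_assoc, hginv1, mul_one, ← mul_assoc, hginv1, one_mul]
    have hcsurj : Function.Surjective c := LinearMap.injective_iff_surjective.mp hcinj
    have hback : ∀ k : Matrix (Fin n) (Fin n) F,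
        g.1 * k * (g⁻¹ : GL (Fin n) F).1 ∈ K → k ∈ K := by
      intro k hk
      obtain ⟨x, hx⟩ := hcsurj ⟨_, hk⟩
      have h1 : g.1 * x.1 * (g⁻¹ : GL (Fin n) F).1 = g.1 * k * (g⁻¹ : GL (Fin n) F).1 :=
        congrArg Subtype.val hx
      have h2 : x.1 = k := by
        calc x.1 = (g⁻¹ : GL (Fin n) F).1 * (g.1 * x.1 * (g⁻¹ : GL (Fin n) F).1) * g.1 := by
              rw [mul_assoc, mul_assoc, hginv1, mul_one, ← mul_assoc, hginv1, one_mul]
          _ = (g⁻¹ : GL (Fin n) F).1 * (g.1 * k * (g⁻¹ : GL (Fin n) F).1) * g.1 := by rw [h1]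
          _ = k := by
              rw [mul_assoc, mul_assoc, hginv1, mul_one, ← mul_assoc, hginv1, one_mul]
      rw [← h2]
      exact x.2
    show ∀ k : Matrix (Fin n) (Fin n) F,
      k ∈ K' ↔ (g : Matrix (Fin n) (Fin n) F) * k * ((g⁻¹ : GL (Fin n) F) : Matrix _ _ F) ∈ K'
    intro k
    rw [hmem, hmem]
    constructor
    · rintro ⟨hk, hkq⟩
      refine ⟨hg k hk, ?_⟩
      rw [Units.conj_pow, hkq]
    · rintro ⟨hk, hkq⟩
      refine ⟨hback k hk, ?_⟩
      rw [Units.conj_pow] at hkq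
      calc k ^ (Fintype.card F ^ r)
          = (g⁻¹ : GL (Fin n) F).1 * (g.1 * k ^ (Fintype.card F ^ r) *
              (g⁻¹ : GL (Fin n) F).1) * g.1 := by
            rw [mul_assoc, mul_assoc, hginv1, mul_one, ← mul_assoc, hginv1, one_mul]
        _ = (g⁻¹ : GL (Fin n) F).1 * (g.1 * k * (g⁻¹ : GL (Fin n) F).1) * g.1 := by rw [hkq]
        _ = k := by
            rw [mul_assoc, mul_assoc, hginv1, mul_one, ← mul_assoc, hginv1, one_mul]

end Cfsg.Agent.Lib.Helper87.ASPSF
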