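import Mathlib
import Cfsg.Prelude.Def_GeometricClasses
import Cfsg.Agent.Lib.Helper71.Asch0
import Cfsg.Agent.Lib.Helper87.ASPSF

/-!
# S5630 project (helper71): piece B2 (helper87)

An irreducible, not absolutely irreducible subgroup of `GL_n(F)` normalises a field subalgebra of
prime degree (class 3).
-/

set_option autoImplicit false

namespace Cfsg.Agent.Lib.Helper87.ASB2

open Matrix Cfsg.Geo Cfsg.Agent.Lib.Helper71.Asch
open scoped Kronecker

variable {n : ℕ} {F : Type*} [Field F] [Fintype F]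

/-- B2: irreducible, not absolutely irreducible groups lie in class 3. -/
theorem B2 (H : Subgroup (GL (Fin n) F)) (h1 : ActsIrreducibly (matrixSet H))
    (h2 : ¬ ActsAbsolutelyIrreducibly (matrixSet H)) : InCls H := by
  classical
  -- a non-scalar matrix commuting with `H`
  have h3 : ∃ M : Matrix (Fin n) (Fin n) F, (∀ s ∈ matrixSet H, M * s = s * M) ∧
      ¬ ∃ c : F, M = c • (1 : Matrix (Fin n) (Fin n) F) := by
    by_contra hcon
    apply h2
    refine ⟨h1, fun M hM => ?_⟩
    by_contra hc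
    exact hcon ⟨M, hM, hc⟩
  obtain ⟨M, hM, hMns⟩ := h3
  let K : Subalgebra F (Matrix (Fin n) (Fin n) F) := Algebra.adjoin F {M}
  have hMK : M ∈ K := Algebra.subset_adjoin (Set.mem_singleton M)
  have hcomm : ∀ x ∈ K, ∀ y ∈ K, x * y = y * x := by
    intro x hx y hy
    have hxM : Commute x M := (Algebra.commute_of_mem_adjoin_self hx).symm
    exact (Algebra.commute_of_mem_adjoin_singleton_of_commute hy hxM).eq
  have hKc : ∀ x ∈ K, ∀ s ∈ matrixSet H, x * s = s * x := by
    intro x hx s hs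
    have hsM : Commute s M := (hM s hs).symm
    exact (Algebra.commute_of_mem_adjoin_singleton_of_commute hx hsM).eq.symm
  -- nonzero elements of `K` are injective
  have hinj : ∀ x ∈ K, x ≠ 0 → ∀ v : Fin n → F, x *ᵥ v = 0 → v = 0 := by
    intro x hx hx0 v hv
    have hW := h1 (LinearMap.ker (Matrix.toLin' x)) (by
      intro s hs w hw
      obtain ⟨u, hu, rfl⟩ := Submodule.mem_map.mp hw
      rw [LinearMap.mem_ker] at hu ⊢
      rw [Matrix.toLin'_apply] at hu ⊢
      rw [Matrix.toLin'_apply, Matrix.mulVec_mulVec, hKc x hx s hs, ← Matrix.mulVec_mulVec, hu,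
        Matrix.mulVec_zero])
    rcases hW with hW | hW
    · have : v ∈ LinearMap.ker (Matrix.toLin' x) := by
        rw [LinearMap.mem_ker, Matrix.toLin'_apply]; exact hv
      rw [hW] at this
      exact (Submodule.mem_bot F).mp this
    · exfalso
      apply hx0
      have h4 : Matrix.toLin' x = 0 := LinearMap.ker_eq_top.mp hW
      have h5 : Matrix.toLin' x = Matrix.toLin' (0 : Matrix (Fin n) (Fin n) F) := by
        rw [h4, map_zero]
      exact Matrix.toLin'.injective h5
  have hcancel : ∀ x ∈ K, x ≠ 0 → ∀ y : Matrix (Fin n) (Fin n) F, x * y = 0 → y = 0 := by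
    intro x hx hx0 y hxy
    apply Matrix.toLin'.injective
    apply LinearMap.ext
    intro v
    rw [Matrix.toLin'_apply, map_zero, LinearMap.zero_apply]
    apply hinj x hx hx0
    rw [Matrix.mulVec_mulVec, hxy, Matrix.zero_mulVec]
  have hinv : ∀ x ∈ K, x ≠ 0 → ∃ y ∈ K, x * y = 1 := by
    intro x hx hx0
    let L : ↥K →ₗ[F] ↥K :=
      { toFun := fun y => ⟨x * y.1, K.mul_mem hx y.2⟩
        map_add' := fun y z => Subtype.ext (by
          show x * (y.1 + z.1) = x * y.1 + x * z.1
          rw [mul_add])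
        map_smul' := fun a y => Subtype.ext (by
          show x * (a • y.1) = a • (x * y.1)
          rw [mul_smul_comm]) }
    have hLinj : Function.Injective L := by
      intro y z hyz
      have h4 : x * y.1 = x * z.1 := congrArg Subtype.val hyz
      have h5 : x * (y.1 - z.1) = 0 := by rw [mul_sub, h4, sub_self]
      exact Subtype.ext (sub_eq_zero.mp (hcancel x hx hx0 _ h5))
    obtain ⟨y, hy⟩ := (LinearMap.injective_iff_surjective.mp hLinj) ⟨1, K.one_mem⟩
    exact ⟨y.1, y.2, congrArg Subtype.val hy⟩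
  have hdim : 2 ≤ Module.finrank F K := by
    by_contra hlt
    have hle : Module.finrank F K ≤ 1 := by omega
    obtain ⟨v, hv⟩ := finrank_le_one_iff.mp hle
    obtain ⟨c₁, hc₁⟩ := hv ⟨1, K.one_mem⟩
    obtain ⟨c₂, hc₂⟩ := hv ⟨M, hMK⟩
    have e1 : c₁ • v.1 = (1 : Matrix (Fin n) (Fin n) F) := congrArg Subtype.val hc₁
    have e2 : c₂ • v.1 = M := congrArg Subtype.val hc₂
    apply hMns
    by_cases hc0 : c₁ = 0
    · refine ⟨0, ?_⟩
      rw [hc0, zero_smul] at e1
      rw [zero_smul, ← mul_one M, ← e1, mul_zero]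
    · refine ⟨c₂ * c₁⁻¹, ?_⟩
      rw [← e2, ← e1, smul_smul, mul_assoc, inv_mul_cancel₀ hc0, mul_one]
  obtain ⟨r, K', hr, hK', hle, hnorm⟩ := Cfsg.Agent.Lib.Helper87.ASPSF.PSF K hcomm hinv hdim
  refine ⟨subalgebraNormalizer K', Or.inr (Or.inr (Or.inr (Or.inr (Or.inl ⟨r, K', hr, hK', rfl⟩)))),
    ?_⟩
  intro h hh
  apply hnorm h
  intro x hx
  have hs : h.1 ∈ matrixSet H := ⟨h, hh, rfl⟩
  have h6 : h.1 * x * (h⁻¹ : GL (Fin n) F).1 = x := by
    rw [← hKc x hx h.1 hs, mul_assoc, ← Units.val_mul, mul_inv_cancel, Units.val_one, mul_one]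
  rw [h6]
  exact hx

end Cfsg.Agent.Lib.Helper87.ASB2
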