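import Cfsg.Agent.Lib.Helper96.PiDefs
import Cfsg.Agent.Lib.Helper96.PiGlueB
import Cfsg.Agent.Lib.Helper96.PiOmega
import Cfsg.Agent.Lib.Helper9.HeUNIPPOW

/-! Project PI (S5989, helper96), piece UNIA (helper87): unipotent isometry with `N * N = 0`,
`ker N ≤ range N`: invariant nondegenerate subspaces have even dimension. -/

set_option autoImplicit false
set_option linter.unusedSectionVars false
set_option linter.unusedVariables false

namespace Cfsg.Agent.Lib.Helper87.Pi

open Module Cfsg.Agent.Lib.Helper96.Sp Cfsg.Agent.Lib.Helper96.BG Cfsg.Agent.Lib.Helper96.Hy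
  Cfsg.Agent.Lib.Helper96.Pi Cfsg.Agent.Lib.Helper47

universe u

variable {F : Type u} [Field F] [Fintype F] {V : Type u} [AddCommGroup V] [Module F V]
  [FiniteDimensional F V] {B : LinearMap.BilinForm F V}

/-- common setup of the pieces UNIA / UNIB / UNIC: the orthogonal complement of an invariant
nondegenerate subspace is an invariant complement -/
theorem unip_setup (hS : B.IsSymm) (h2 : (2 : F) ≠ 0) (hN : ND B ⊤) (T : Module.End F V)
    (hT : Isom B T) (W : Submodule F V) (hW : ND B W) (hWT : W.map T ≤ W) :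
    IsCompl W (B.orthogonal W) ∧ W.map (T - 1) ≤ W ∧
      (B.orthogonal W).map (T - 1) ≤ B.orthogonal W ∧
      finrank F W + finrank F (B.orthogonal W) = finrank F V := by
  have hc := Cfsg.Agent.Lib.Helper98.O72.nd_isCompl hS h2 hW
  have hinj : Function.Injective T := isom_injective hN hT
  have hWeq : W.map T = W := by
    apply Submodule.eq_of_le_of_finrank_eq hWT
    exact (LinearEquiv.finrank_eq (Submodule.equivMapOfInjective T hinj W)).symm
  have hW'T : ∀ w' ∈ B.orthogonal W, T w' ∈ B.orthogonal W := by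
    intro w' hw'
    rw [Cfsg.Agent.Lib.Helper98.O72.mem_perp_iff' hS h2] at hw' ⊢
    intro u hu
    rw [← hWeq] at hu
    obtain ⟨u₀, hu₀, rfl⟩ := hu
    rw [hT]
    exact hw' u₀ hu₀
  refine ⟨hc, ?_, ?_, ?_⟩
  · rintro _ ⟨w, hw, rfl⟩
    exact W.sub_mem (hWT ⟨w, hw, rfl⟩) hw
  · rintro _ ⟨w, hw, rfl⟩
    exact (B.orthogonal W).sub_mem (hW'T w hw) hw
  · exact Submodule.finrank_add_eq_of_isCompl hc

theorem unip_map_zero (W : Submodule F V) :
    finrank F (W.map (0 : Module.End F V)) = 0 := by
  have e : W.map (0 : Module.End F V) = ⊥ := Submodule.map_zero W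
  rw [e]
  exact finrank_bot F V

-- PIECE UNIA
theorem unip_A (hS : B.IsSymm) (h2 : (2 : F) ≠ 0) (hN : ND B ⊤) (T : Module.End F V)
    (hT : Isom B T) (hN2 : (T - 1) * (T - 1) = 0)
    (hker : LinearMap.ker (T - 1) ≤ LinearMap.range (T - 1))
    (hadd : ∀ (N : Module.End F V) (W W' : Submodule F V), IsCompl W W' → W.map N ≤ W →
      W'.map N ≤ W' →
      finrank F (LinearMap.range N) = finrank F (W.map N) + finrank F (W'.map N))
    (hrk : ∀ (N : Module.End F V) (W : Submodule F V), W.map N ≤ W →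
      2 * finrank F (W.map N) ≤ finrank F W + finrank F (W.map (N * N)))
    (W : Submodule F V) (hW : ND B W) (hWT : W.map T ≤ W) : Even (finrank F W) := by
  obtain ⟨hc, hWN, hW'N, hsum⟩ := unip_setup hS h2 hN T hT W hW hWT
  have hrn := LinearMap.finrank_range_add_finrank_ker (T - 1)
  have hkr : finrank F (LinearMap.ker (T - 1)) ≤ finrank F (LinearMap.range (T - 1)) :=
    Submodule.finrank_mono hker
  have ha := hadd (T - 1) W (B.orthogonal W) hc hWN hW'N
  have h1 := hrk (T - 1) W hWN
  have h3 := hrk (T - 1) (B.orthogonal W) hW'N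
  rw [hN2, unip_map_zero] at h1 h3
  exact ⟨finrank F (W.map (T - 1)), by omega⟩

end Cfsg.Agent.Lib.Helper87.Pi
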