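import Mathlib
import Cfsg.Agent.Lib.Helper22.HPDefs
import Cfsg.Agent.Lib.Helper64.BFSYL

/-!
# S4504 (helper22's HP project), piece PSING (helper87)

Under `HP`, every element of order divisible by `p` is conjugate to some `z ^ t * u` with
`t ≠ 0` and `u` central.
-/

set_option autoImplicit false

namespace Cfsg.Agent.Lib.Helper87.HPT

open Cfsg Cfsg.Agent.Lib.Helper22.BFD Cfsg.Agent.Lib.Helper22.HPD
open scoped ComplexConjugate

universe u

/-- PIECE PSING (under `HP`, every `p`-singular element is conjugate to some `z ^ t * u`) -/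
theorem hp_psing {G : Type u} [Group G] [Fintype G] (p : ℕ) [Fact p.Prime]
    (hsq : ¬ p ^ 2 ∣ Nat.card G) (hnn : ∀ H : Subgroup G, H.Normal → Nat.card H ≠ p)
    (χ : G → ℂ) (z : G) (ζ : ℂ) (hHP : HP p ζ z χ) :
    ∀ g : G, p ∣ orderOf g → ∃ t : ZMod p, t ≠ 0 ∧ ∃ u ∈ Subgroup.center G,
      IsConj g (z ^ t.val * u) := by
  intro g hpg
  have hp : p.Prime := Fact.out
  have hz := hHP.hz
  obtain ⟨m, hm⟩ := hpg
  have hgpos : 0 < orderOf g := orderOf_pos g
  have hm0 : m ≠ 0 := by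
    rintro rfl
    rw [mul_zero] at hm
    omega
  have hx : orderOf (g ^ m) = p := by
    rw [orderOf_pow_of_dvd hm0 ⟨p, by rw [hm, mul_comm]⟩, hm,
      Nat.mul_div_cancel _ (Nat.pos_of_ne_zero hm0)]
  have hpz : IsPGroup p (Subgroup.zpowers z) :=
    IsPGroup.of_card (n := 1) (by rw [Nat.card_zpowers, hz, pow_one])
  obtain ⟨P, hP⟩ := hpz.exists_le_sylow
  have hPeq : (P : Subgroup G) = Subgroup.zpowers z := by
    symm
    apply Subgroup.eq_of_le_of_card_ge hP
    obtain ⟨k, hk⟩ := IsPGroup.iff_card.mp P.isPGroup'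
    have hdvd : p ^ k ∣ Nat.card G := hk ▸ Subgroup.card_subgroup_dvd_card _
    have hk1 : k ≤ 1 := by
      by_contra hcon
      exact hsq ((pow_dvd_pow p (by omega : 2 ≤ k)).trans hdvd)
    rw [hk, Nat.card_zpowers, hz]
    calc p ^ k ≤ p ^ 1 := Nat.pow_le_pow_right hp.pos hk1
      _ = p := pow_one p
  obtain ⟨c, hc, hc1⟩ := Cfsg.Agent.Lib.Helper64.BFT.syl_conj p P (g ^ m) hx
  rw [hPeq] at hc
  -- `z` is a power of `y := c g^m c⁻¹`
  have hcardz : Nat.card ↥(Subgroup.zpowers z) = p := by rw [Nat.card_zpowers, hz]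
  have hy1 : (⟨c * g ^ m * c⁻¹, hc⟩ : ↥(Subgroup.zpowers z)) ≠ 1 := by
    intro h
    exact hc1 (congrArg Subtype.val h)
  have hzmem := mem_zpowers_of_prime_card hcardz hy1
    (g' := (⟨z, Subgroup.mem_zpowers z⟩ : ↥(Subgroup.zpowers z)))
  obtain ⟨i, hi⟩ := Subgroup.mem_zpowers_iff.mp hzmem
  have hi' : (c * g ^ m * c⁻¹) ^ i = z := by
    have := congrArg Subtype.val hi
    simpa using this
  have hconj : c * g ^ m * c⁻¹ = (c * g * c⁻¹) ^ m := (conj_pow (a := c) (b := g) (i := m)).symm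
  have hzpow : z = ((c * g * c⁻¹) ^ m) ^ i := by rw [← hconj, hi']
  have hcomm : (c * g * c⁻¹) * z = z * (c * g * c⁻¹) := by
    have h1 : Commute (c * g * c⁻¹) (((c * g * c⁻¹) ^ m) ^ i) :=
      ((Commute.refl (c * g * c⁻¹)).pow_right m).zpow_right i
    rw [hzpow]
    exact h1.eq
  obtain ⟨t, u, hu, hgu⟩ := hHP.hC (c * g * c⁻¹) hcomm
  refine ⟨t, ?_, u, hu, ?_⟩
  · intro ht
    rw [ht] at hgu
    simp only [ZMod.val_zero, pow_zero, one_mul] at hgu
    have hzc : z ∈ Subgroup.center G := by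
      rw [hzpow, hgu]
      exact Subgroup.zpow_mem _ (Subgroup.pow_mem _ hu m) i
    have hnorm : (Subgroup.zpowers z).Normal := by
      constructor
      intro n hn a
      obtain ⟨k, rfl⟩ := Subgroup.mem_zpowers_iff.mp hn
      have h1 : a * z ^ k = z ^ k * a :=
        (Subgroup.mem_center_iff.mp (Subgroup.zpow_mem _ hzc k) a)
      have h2 : a * z ^ k * a⁻¹ = z ^ k := by rw [h1]; group
      rw [h2]; exact hn
    exact hnn _ hnorm hcardz
  · rw [← hgu]
    exact isConj_iff.mpr ⟨c, rfl⟩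

end Cfsg.Agent.Lib.Helper87.HPT
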