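import Mathlib
import Cfsg.Prelude.Def_GeometricClasses
import Cfsg.Agent.Lib.Helper97.Transv
import Cfsg.Agent.Lib.Helper97.TransvM
import Cfsg.Agent.Lib.Helper71.TP0
import Cfsg.Agent.Lib.Helper71.TP1
import Cfsg.Agent.Lib.Helper87.SLTransv

set_option autoImplicit false

/-! S5637 piece FLAGW (job of helper71): an `SL_b` matrix with first column `w` and
`ψ ᵥ* B = e₁`.  helper87. -/

namespace Cfsg.Agent.Lib.Helper87.TPFLAGW

open Matrix Cfsg.Agent.Lib.Helper71.TP Cfsg.Agent.Lib.Helper97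
open scoped Kronecker

variable {a b : ℕ} {F : Type*} [Field F]

/-- a nonzero functional stays nonzero after composing with an element of `SL` -/
theorem vecMul_sl_ne_zero {ι : Type} [Fintype ι] [DecidableEq ι] (g : Matrix.SpecialLinearGroup ι F)
    {ψ : ι → F} (hψ : ψ ≠ 0) : ψ ᵥ* (g : Matrix ι ι F) ≠ 0 := by
  intro h0
  apply hψ
  have h1 : (ψ ᵥ* (g : Matrix ι ι F)) ᵥ* ((g⁻¹ : Matrix.SpecialLinearGroup ι F) : Matrix ι ι F)
      = ψ := by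
    rw [Matrix.vecMul_vecMul, ← Matrix.SpecialLinearGroup.coe_mul, mul_inv_cancel,
      Matrix.SpecialLinearGroup.coe_one, Matrix.vecMul_one]
  rw [h0, Matrix.zero_vecMul] at h1
  exact h1.symm

/-- FLAGW -/
theorem exists_flagW (hb : 3 ≤ b) (w ψ : Fin b → F) (hw : w ≠ 0) (hψ : ψ ≠ 0) (h : ψ ⬝ᵥ w = 0) :
    ∃ B : GL (Fin b) F, B.1.det = 1 ∧ B.1 *ᵥ Pi.single (⟨0, by omega⟩ : Fin b) (1 : F) = w ∧
      ψ ᵥ* B.1 = Pi.single (⟨1, by omega⟩ : Fin b) (1 : F) := by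
  have h01 : (⟨0, by omega⟩ : Fin b) ≠ ⟨1, by omega⟩ := by
    intro h'
    simpa using congrArg Fin.val h'
  have h02 : (⟨0, by omega⟩ : Fin b) ≠ ⟨2, by omega⟩ := by
    intro h'
    simpa using congrArg Fin.val h'
  have h12 : (⟨1, by omega⟩ : Fin b) ≠ ⟨2, by omega⟩ := by
    intro h'
    simpa using congrArg Fin.val h'
  obtain ⟨g₁, hg₁⟩ := Cfsg.Agent.Lib.Helper87.exists_sl_single h01 hw
  have hχ0 : (ψ ᵥ* (g₁ : Matrix (Fin b) (Fin b) F)) ⬝ᵥ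
      Pi.single (⟨0, by omega⟩ : Fin b) (1 : F) = 0 := by
    rw [← Matrix.dotProduct_mulVec, hg₁, h]
  have hχ : ψ ᵥ* (g₁ : Matrix (Fin b) (Fin b) F) ≠ 0 := vecMul_sl_ne_zero g₁ hψ
  obtain ⟨g₂, hg₂, hg₂'⟩ := Cfsg.Agent.Lib.Helper87.exists_sl_single_dual h01 h02 h12 hχ hχ0
  refine ⟨Matrix.SpecialLinearGroup.toGL (g₁ * g₂), ?_, ?_, ?_⟩
  · exact (g₁ * g₂).2
  · change ((g₁ * g₂ : Matrix.SpecialLinearGroup (Fin b) F) : Matrix (Fin b) (Fin b) F) *ᵥ _ = w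
    rw [Matrix.SpecialLinearGroup.coe_mul, ← Matrix.mulVec_mulVec, hg₂, hg₁]
  · change ψ ᵥ* ((g₁ * g₂ : Matrix.SpecialLinearGroup (Fin b) F) : Matrix (Fin b) (Fin b) F) = _
    rw [Matrix.SpecialLinearGroup.coe_mul, ← Matrix.vecMul_vecMul, hg₂']

end Cfsg.Agent.Lib.Helper87.TPFLAGW
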