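import Mathlib
import Cfsg.Prelude.Def_GeometricClasses
import Cfsg.Prelude.Def_LieClassical
import Cfsg.Agent.Lib.Helper71.Asch5
import Cfsg.Agent.Lib.Helper82.ASB8UNITS
import Cfsg.Agent.Lib.Helper44.BADDefs

/-! Project BAD (helper44; sub-project of helper49's SUG = S5663), piece SUNI:
the elements of `bS` are unitary. -/

set_option autoImplicit false

namespace Cfsg.Agent.Lib.Helper44.BAD

open Matrix Cfsg.Geo Cfsg.Agent.Lib.Helper71.Asch
open scoped Kronecker

variable {n : ℕ} {F : Type*} [Field F] [Fintype F] {q : ℕ}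

lemma SUNI_Y3 : bY F ^ 3 = 1 := by
  ext i j
  fin_cases i <;> fin_cases j <;>
    simp [bY, pow_succ, Matrix.mul_apply, Fin.sum_univ_three, Matrix.one_apply]

lemma SUNI_N0 (c d : F) :
    c • (Matrix.diagonal ![1, d, d ^ 2] * bY F ^ 0) = !![c, 0, 0; 0, c * d, 0; 0, 0, c * d ^ 2] := by
  ext i j
  fin_cases i <;> fin_cases j <;>
    simp [bY, Matrix.mul_apply, Fin.sum_univ_three, Matrix.one_apply, Matrix.diagonal]

lemma SUNI_N1 (c d : F) :
    c • (Matrix.diagonal ![1, d, d ^ 2] * bY F ^ 1) = !![0, 0, c; c * d, 0, 0; 0, c * d ^ 2, 0] := by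
  ext i j
  fin_cases i <;> fin_cases j <;>
    simp [bY, Matrix.mul_apply, Fin.sum_univ_three, Matrix.one_apply, Matrix.diagonal]

lemma SUNI_N2 (c d : F) :
    c • (Matrix.diagonal ![1, d, d ^ 2] * bY F ^ 2) = !![0, c, 0; 0, 0, c * d; c * d ^ 2, 0, 0] := by
  ext i j
  fin_cases i <;> fin_cases j <;>
    simp [bY, pow_succ, Matrix.mul_apply, Fin.sum_univ_three, Matrix.one_apply, Matrix.diagonal]

/-- SUNI: the elements of `bS` are unitary. -/
theorem SUNI (hF : Fintype.card F = 4) : ∀ M ∈ bS F, M ∈ bU F 2 := by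
  have h3 : ∀ x : F, x ≠ 0 → x * x ^ 2 = 1 := by
    intro x hx
    have := FiniteField.pow_card_sub_one_eq_one x hx
    rw [hF] at this
    rw [← this]
    ring
  rintro M ⟨c, d, k, hc, hd, rfl⟩
  have hcd : c * d ≠ 0 := mul_ne_zero hc hd
  have hcd2 : c * d ^ 2 ≠ 0 := mul_ne_zero hc (pow_ne_zero _ hd)
  have e1 := h3 c hc
  have e2 := h3 _ hcd
  have e3 := h3 _ hcd2
  show _ * _ = (1 : Matrix (Fin 3) (Fin 3) F)
  rw [pow_eq_pow_mod k SUNI_Y3]
  have hk : k % 3 < 3 := Nat.mod_lt _ (by norm_num)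
  interval_cases (k % 3)
  · rw [SUNI_N0]
    ext i j
    fin_cases i <;> fin_cases j <;>
      simp [Matrix.mul_apply, Fin.sum_univ_three, Matrix.one_apply, e1, e2, e3]
  · rw [SUNI_N1]
    ext i j
    fin_cases i <;> fin_cases j <;>
      simp [Matrix.mul_apply, Fin.sum_univ_three, Matrix.one_apply, e1, e2, e3]
  · rw [SUNI_N2]
    ext i j
    fin_cases i <;> fin_cases j <;>
      simp [Matrix.mul_apply, Fin.sum_univ_three, Matrix.one_apply, e1, e2, e3]

end Cfsg.Agent.Lib.Helper44.BAD
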