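import Mathlib
import Cfsg.Prelude.Def_GeometricClasses
import Cfsg.Prelude.Def_LieClassical

/-!
# Project O9 (helper44), piece FR3

Proved by helper87: transfer of the monomial frame statement (given as the hypothesis `hmon`) to a
3-dimensional non-degenerate subspace `W` of a quadratic space, via a basis of `W`.
-/

set_option autoImplicit false

namespace Cfsg.Agent.Lib.Helper44.O9

open Matrix Cfsg.Geo

variable {n : ℕ} {F : Type*} [Field F] [Fintype F]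

theorem FR3 (hq : Fintype.card F = 3) (Q : (Fin 9 → F) → F)
    (hQ : IsNondegenerateQuadraticForm Q) (W : Submodule F (Fin 9 → F))
    (hdim : Module.finrank F W = 3) (hnd : IsNondegenerateOn (QuadraticMap.polar Q) W)
    (hmon : ∀ f₁ : (Fin 3 → F) → (Fin 3 → F) → F, IsSymmetricForm f₁ →
      ∃ (w : Fin 3 → Fin 3 → F) (ε : F), ε ≠ 0 ∧ (∀ j, f₁ (w j) (w j) = ε) ∧
        (∀ j k, j ≠ k → f₁ (w j) (w k) = 0) ∧
        ∀ x : Fin 3 → F, f₁ x x = ε → ∃ j, x = w j ∨ x = - w j) :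
    ∃ (w : Fin 3 → Fin 9 → F) (ε : F), ε ≠ 0 ∧ (∀ j, w j ∈ W) ∧
      (∀ j, QuadraticMap.polar Q (w j) (w j) = ε) ∧
      (∀ j k, j ≠ k → QuadraticMap.polar Q (w j) (w k) = 0) ∧
      ∀ x ∈ W, QuadraticMap.polar Q x x = ε → ∃ j, x = w j ∨ x = - w j := by
  classical
  -- a linear isomorphism `(Fin 3 → F) ≃ W`
  obtain ⟨E⟩ : Nonempty ((Fin 3 → F) ≃ₗ[F] ↥W) :=
    ⟨(Module.finBasisOfFinrankEq F (↥W) hdim).equivFun.symm⟩
  obtain ⟨T, hT⟩ : ∃ T : (Fin 3 → F) → (Fin 9 → F), ∀ x, T x = ((E x : ↥W) : Fin 9 → F) :=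
    ⟨fun x => ((E x : ↥W) : Fin 9 → F), fun _ => rfl⟩
  have hTW : ∀ x, T x ∈ W := fun x => by
    rw [hT]
    exact (E x).2
  have hTadd : ∀ x y, T (x + y) = T x + T y := fun x y => by
    rw [hT, hT, hT, map_add]
    rfl
  have hTsmul : ∀ (c : F) (x : Fin 3 → F), T (c • x) = c • T x := fun c x => by
    rw [hT, hT, map_smul]
    rfl
  have hTneg : ∀ x, T (-x) = - T x := fun x => by
    rw [hT, hT, map_neg]
    rfl
  have hTsurj : ∀ w ∈ W, ∃ x, T x = w := fun w hw => by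
    refine ⟨E.symm ⟨w, hw⟩, ?_⟩
    rw [hT, LinearEquiv.apply_symm_apply]
  have hT0 : ∀ x, x ≠ 0 → T x ≠ 0 := fun x hx h0 => by
    apply hx
    rw [hT] at h0
    have h1 : E x = 0 := Subtype.ext h0
    exact (LinearEquiv.map_eq_zero_iff E).mp h1
  have hb := hQ.polar_bilinear
  -- the transported form
  have hsym : IsSymmetricForm (fun x y : Fin 3 → F => QuadraticMap.polar Q (T x) (T y)) := by
    refine ⟨⟨?_, ?_, ?_, ?_⟩, ?_, ?_⟩
    · intro x y v
      show QuadraticMap.polar Q (T (x + y)) (T v) = _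
      rw [hTadd, hb.add_left]
    · intro c x v
      show QuadraticMap.polar Q (T (c • x)) (T v) = _
      rw [hTsmul, hb.smul_left]
    · intro v x y
      show QuadraticMap.polar Q (T v) (T (x + y)) = _
      rw [hTadd, hb.add_right]
    · intro c v x
      show QuadraticMap.polar Q (T v) (T (c • x)) = _
      rw [hTsmul, hb.smul_right]
    · intro u v
      exact QuadraticMap.polar_comm Q (T u) (T v)
    · intro v hv
      obtain ⟨⟨y, hy, hy1⟩, ⟨z, hz, hz1⟩⟩ := hnd (T v) (hTW v) (hT0 v hv)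
      obtain ⟨y', rfl⟩ := hTsurj y hy
      obtain ⟨z', rfl⟩ := hTsurj z hz
      exact ⟨⟨y', hy1⟩, ⟨z', hz1⟩⟩
  obtain ⟨w', ε, hε, hnorm, horth, hfr⟩ := hmon _ hsym
  refine ⟨fun j => T (w' j), ε, hε, fun j => hTW _, hnorm, horth, ?_⟩
  intro x hx hxε
  obtain ⟨x', rfl⟩ := hTsurj x hx
  obtain ⟨j, hj | hj⟩ := hfr x' hxε
  · exact ⟨j, Or.inl (by rw [hj])⟩
  · exact ⟨j, Or.inr (by rw [hj, hTneg])⟩

end Cfsg.Agent.Lib.Helper44.O9
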