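import Mathlib
import Cfsg.Prelude.Def_GeometricClasses
import Cfsg.Prelude.Def_LieClassical

/-! Project U9 (helper44, S5832), piece AR9 (helper87): the arithmetic of the minimal field for
cube roots of unity when `|F| = q²`. -/

set_option autoImplicit false

namespace Cfsg.Agent.Lib.Helper44.U9

open Matrix Cfsg.Geo
open scoped Kronecker

variable {n : ℕ} {F : Type*} [Field F] [Fintype F] {q : ℕ}

/-- AR9: the arithmetic of the minimal field for cube roots of unity when `|F| = q²`. -/
theorem AR9 (hF : Fintype.card F = q ^ 2) (p e : ℕ) (hmin : IsMinimalFieldFor 3 p e F) :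
    q = p ∧ p % 3 = 2 := by
  obtain ⟨hp, _, hcard, hdvd, hmin'⟩ := hmin
  have hqe : q ^ 2 = p ^ e := by rw [← hF, hcard]
  have h1 : 1 < Fintype.card F := Fintype.one_lt_card
  have he0 : e ≠ 0 := by
    rintro rfl
    rw [hcard] at h1
    simp at h1
  have hfac : 2 * q.factorization p = e := by
    have h2 := congrArg (fun m => m.factorization p) hqe
    simp only [Nat.factorization_pow, Finsupp.smul_apply, smul_eq_mul] at h2
    rw [hp.factorization_self] at h2
    omega
  obtain ⟨k, hk⟩ : ∃ k, 2 * k = e := ⟨_, hfac⟩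
  have hq : q = p ^ k := by
    have h2 : q ^ 2 = (p ^ k) ^ 2 := by rw [hqe, ← pow_mul, ← hk, mul_comm]
    exact Nat.pow_left_injective (by norm_num : (2 : ℕ) ≠ 0) h2
  have hp3 : p % 3 ≠ 0 := by
    intro h0
    have h3 : 3 ∣ p := Nat.dvd_of_mod_eq_zero h0
    have hp3' : p = 3 := ((Nat.prime_dvd_prime_iff_eq Nat.prime_three hp).1 h3).symm
    subst hp3'
    have h4 : 3 ∣ 3 ^ e := dvd_pow_self 3 he0
    have hpos : 1 ≤ 3 ^ e := Nat.one_le_pow _ _ (by norm_num)
    omega
  have hk1 : 1 ≤ k := by omega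
  have hp2 : p % 3 = 2 := by
    by_contra hne
    have h1' : p % 3 = 1 := by omega
    have h5 : 3 ∣ p ^ 1 - 1 := by
      rw [pow_one]
      omega
    exact hmin' 1 (by norm_num) (by omega) h5
  have he2 : e ≤ 2 := by
    by_contra hlt
    have h5 : 3 ∣ p ^ 2 - 1 := by
      obtain ⟨m, hm⟩ : ∃ m, p = 3 * m + 2 := ⟨p / 3, by omega⟩
      subst hm
      have e1 : (3 * m + 2) ^ 2 = 3 * (3 * m * m + 4 * m + 1) + 1 := by ring
      rw [e1, Nat.add_sub_cancel]
      exact dvd_mul_right _ _
    exact hmin' 2 (by norm_num) (by omega) h5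
  have hk' : k = 1 := by omega
  refine ⟨?_, hp2⟩
  rw [hq, hk', pow_one]

end Cfsg.Agent.Lib.Helper44.U9
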