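import Mathlib
import Cfsg.Agent.Lib.Helper48.MulA

set_option autoImplicit false
open scoped commutatorElement

/-! S2086 piece HA (job of helper48): Milnor's trick, lifts of `x_ij(a)`, `x_ij(b)` commute
(`n ≥ 3`).  helper87. -/

namespace Cfsg.Agent.Lib.Helper48.Mul

open Cfsg.Agent.Lib.Helper48 Cfsg.Agent.Lib.Helper48.St Cfsg.Agent.Lib.Helper70

section abstract

variable {Γ : Type*} [Group Γ] {G : Type*} [Group G] {K : Type*} [Field K] {n : ℕ}

/-- an index outside a small set -/
theorem h87_exists_notMem (S : Finset (Fin n)) (h : S.card < n) : ∃ k, k ∉ S := by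
  by_contra hcon
  push Not at hcon
  have h1 : S = Finset.univ := Finset.eq_univ_iff_forall.mpr hcon
  rw [h1, Finset.card_univ, Fintype.card_fin] at h
  exact lt_irrefl _ h

/-- Milnor's trick: if `g` commutes with `p` and `q`, all lifts of `g` commute with all lifts
of `⁅p, q⁆`. -/
theorem h87_milnor (σ : Γ →* G) (hs : Function.Surjective σ) (hc : σ.ker ≤ Subgroup.center Γ)
    {g p q h : G} (h1 : Commute g p) (h2 : Commute g q) (hh : p * q * p⁻¹ * q⁻¹ = h) :
    CL σ g h := by
  obtain ⟨u, hu⟩ := hs g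
  obtain ⟨v, hv⟩ := hs p
  obtain ⟨w, hw⟩ := hs q
  apply CL_of_exists hc
  refine ⟨u, ⁅v, w⁆, hu, ?_, ?_⟩
  · rw [map_commutatorElement, hv, hw, commutatorElement_def, hh]
  · apply commute_lift_comm hc
    · rw [hu, hv]; exact h1
    · rw [hu, hw]; exact h2

/-- piece HA -/
theorem hypA (σ : Γ →* G) (hs : Function.Surjective σ) (hc : σ.ker ≤ Subgroup.center Γ) (hn : 3 ≤ n)
    (x : Fin n → Fin n → K → G) (hx : StRel x) : HypA σ x := by
  classical
  intro i j hij a b
  obtain ⟨k, hk⟩ := h87_exists_notMem ({i, j} : Finset (Fin n))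
    (lt_of_le_of_lt Finset.card_le_two (by omega))
  have hki : k ≠ i := fun h => hk (by rw [h]; simp)
  have hkj : k ≠ j := fun h => hk (by rw [h]; simp)
  refine h87_milnor σ hs hc (p := x i k 1) (q := x k j b) ?_ ?_ ?_
  · exact hx.comm i j i k hij hki.symm hki.symm hij.symm a 1
  · exact hx.comm i j k j hij hkj hij hkj.symm a b
  · rw [hx.comm3 i k j hki.symm hkj hij 1 b, one_mul]

end abstract

end Cfsg.Agent.Lib.Helper48.Mul
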