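import Mathlib
import Cfsg.Agent.Lib.Helper48.MulA
import Cfsg.Agent.Lib.Helper87.MulHA

set_option autoImplicit false
open scoped commutatorElement

/-! S2086 piece HBC4 (job of helper48): Milnor's trick for root elements in the same row / the
same column (`n ≥ 4`).  helper87. -/

namespace Cfsg.Agent.Lib.Helper48.Mul

open Cfsg.Agent.Lib.Helper48 Cfsg.Agent.Lib.Helper48.St Cfsg.Agent.Lib.Helper70

section abstract

variable {Γ : Type*} [Group Γ] {G : Type*} [Group G] {K : Type*} [Field K] {n : ℕ}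

/-- piece HBC4 (1) -/
theorem hypB4 (σ : Γ →* G) (hs : Function.Surjective σ) (hc : σ.ker ≤ Subgroup.center Γ) (hn : 4 ≤ n)
    (x : Fin n → Fin n → K → G) (hx : StRel x) : HypB σ x := by
  classical
  intro i j l hij hil hjl a b
  obtain ⟨m, hm⟩ := h87_exists_notMem ({i, j, l} : Finset (Fin n))
    (lt_of_le_of_lt Finset.card_le_three (by omega))
  have hmi : m ≠ i := fun h => hm (by rw [h]; simp)
  have hmj : m ≠ j := fun h => hm (by rw [h]; simp)
  have hml : m ≠ l := fun h => hm (by rw [h]; simp)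
  refine h87_milnor σ hs hc (p := x i m 1) (q := x m l b) ?_ ?_ ?_
  · exact hx.comm i j i m hij hmi.symm hmi.symm hij.symm a 1
  · exact hx.comm i j m l hij hml hil hmj.symm a b
  · rw [hx.comm3 i m l hmi.symm hml hil 1 b, one_mul]

/-- piece HBC4 (2) -/
theorem hypC4 (σ : Γ →* G) (hs : Function.Surjective σ) (hc : σ.ker ≤ Subgroup.center Γ) (hn : 4 ≤ n)
    (x : Fin n → Fin n → K → G) (hx : StRel x) : HypC σ x := by
  classical
  intro i j l hij hil hjl a b
  obtain ⟨m, hm⟩ := h87_exists_notMem ({i, j, l} : Finset (Fin n))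
    (lt_of_le_of_lt Finset.card_le_three (by omega))
  have hmi : m ≠ i := fun h => hm (by rw [h]; simp)
  have hmj : m ≠ j := fun h => hm (by rw [h]; simp)
  have hml : m ≠ l := fun h => hm (by rw [h]; simp)
  refine h87_milnor σ hs hc (p := x j m 1) (q := x m l b) ?_ ?_ ?_
  · exact hx.comm i l j m hil hmj.symm hmi.symm hjl.symm a 1
  · exact hx.comm i l m l hil hml hil hml.symm a b
  · rw [hx.comm3 j m l hmj.symm hml hjl 1 b, one_mul]

end abstract

end Cfsg.Agent.Lib.Helper48.Mul
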