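import Mathlib
import Cfsg.Agent.Lib.Helper61.BlkDefs

set_option autoImplicit false

/-! S5634 (m ≥ 2) piece BLK-K2 (job of helper61): a block monomial element of `GL` stabilises
the coordinate block decomposition.  helper87. -/

namespace Cfsg.Agent.Lib.Helper61.Blk

open Matrix Cfsg.Agent.Lib.Helper97

section
variable {ι : Type} [Fintype ι] [DecidableEq ι] {F : Type*} [Field F] {t : ℕ}

omit [DecidableEq ι] in
/-- the dimension of a coordinate block is the size of the fibre -/
theorem stepK2_finrank (β : ι → Fin t) (l : Fin t) :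
    Module.finrank F (Bl (F := F) β l) = Fintype.card {j // β j = l} := by
  have e : (Bl (F := F) β l) ≃ₗ[F] ({j // β j = l} → F) :=
    { toFun := fun v j => (v : ι → F) j.1
      map_add' := fun v w => rfl
      map_smul' := fun c v => rfl
      invFun := fun f => ⟨fun j => if h : β j = l then f ⟨j, h⟩ else 0, fun j hj => dif_neg hj⟩
      left_inv := fun v => by
        apply Subtype.ext
        funext j
        by_cases h : β j = l
        · simp [h]
        · simp only [h, dif_neg, not_false_eq_true]
          exact (v.2 j h).symm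
      right_inv := fun f => by
        funext j
        simp [j.2] }
  rw [e.finrank_eq, Module.finrank_fintype_fun_eq_card]

/-- K2 -/
theorem stepK2 (β : ι → Fin t) (m : ℕ) (hfib : ∀ l, Fintype.card {j // β j = l} = m)
    (g : GL ι F) (σ : Equiv.Perm (Fin t)) (h : BMono β σ (g : Matrix ι ι F)) :
    g ∈ Cfsg.Geo.decompositionStabilizer (fun l => Bl (F := F) β l) := by
  refine ⟨σ, fun l => ?_⟩
  have hle : (Bl (F := F) β l).map (Matrix.toLin' (g : Matrix ι ι F)) ≤ Bl β (σ l) := by
    rintro _ ⟨v, hv, rfl⟩
    intro i hi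
    rw [Matrix.toLin'_apply]
    change ∑ j, (g : Matrix ι ι F) i j * v j = 0
    apply Finset.sum_eq_zero
    intro j _
    by_cases hj : β j = l
    · have h0 : (g : Matrix ι ι F) i j = 0 := by
        by_contra hne
        exact hi (by rw [h i j hne, hj])
      rw [h0, zero_mul]
    · rw [hv j hj, mul_zero]
  have hginv : ∀ z : ι → F, ((g⁻¹ : GL ι F) : Matrix ι ι F) *ᵥ
      ((g : Matrix ι ι F) *ᵥ z) = z := by
    intro z
    rw [Matrix.mulVec_mulVec, ← Units.val_mul, inv_mul_cancel, Units.val_one,
      Matrix.one_mulVec]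
  have hinj : Function.Injective (Matrix.toLin' (g : Matrix ι ι F)) := by
    intro x y hxy
    rw [Matrix.toLin'_apply, Matrix.toLin'_apply] at hxy
    rw [← hginv x, ← hginv y, hxy]
  apply Submodule.eq_of_le_of_finrank_eq hle
  rw [stepK2_finrank, hfib, ← (Submodule.equivMapOfInjective _ hinj _).finrank_eq,
    stepK2_finrank, hfib]

end

end Cfsg.Agent.Lib.Helper61.Blk
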