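import Mathlib
import Cfsg.Agent.Lib.Helper61.BlkDefs

set_option autoImplicit false

/-! S5634 (m ≥ 2) piece BLK-T2 (job of helper61): transport of `IsMaximalIn` from the model
`Stab(Bl β)` to `Stab(D)` by conjugation with `P`.  helper87. -/

namespace Cfsg.Agent.Lib.Helper61.Blk

open Matrix Cfsg.Agent.Lib.Helper97

/-- `g` stabilises `D` iff `P⁻¹ g P` stabilises the model decomposition -/
theorem stepT2_conj {F : Type*} [Field F] {n t : ℕ} (β : Fin n → Fin t) (P : GL (Fin n) F)
    (D : Fin t → Submodule F (Fin n → F))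
    (hP : ∀ l, (Bl β l).map (Matrix.toLin' (P : Matrix (Fin n) (Fin n) F)) = D l)
    (g : GL (Fin n) F) :
    g ∈ Cfsg.Geo.decompositionStabilizer D ↔
      P⁻¹ * g * P ∈ Cfsg.Geo.decompositionStabilizer (fun l => Bl (F := F) β l) := by
  have hPinv : ∀ S : Submodule F (Fin n → F),
      (S.map (Matrix.toLin' (P : Matrix (Fin n) (Fin n) F))).map
        (Matrix.toLin' ((P⁻¹ : GL (Fin n) F) : Matrix (Fin n) (Fin n) F)) = S := by
    intro S
    rw [← Submodule.map_comp, ← Matrix.toLin'_mul, ← Units.val_mul, inv_mul_cancel,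
      Units.val_one, Matrix.toLin'_one, Submodule.map_id]
  constructor
  · rintro ⟨σ, hσ⟩
    refine ⟨σ, fun l => ?_⟩
    change (Bl β l).map (Matrix.toLin' ((P⁻¹ * g * P : GL (Fin n) F) :
      Matrix (Fin n) (Fin n) F)) = Bl β (σ l)
    rw [Units.val_mul, Units.val_mul, Matrix.toLin'_mul, Matrix.toLin'_mul, Submodule.map_comp,
      Submodule.map_comp, hP l, hσ l, ← hP (σ l), hPinv]
  · rintro ⟨σ, hσ⟩
    refine ⟨σ, fun l => ?_⟩
    have h1 : (Bl (F := F) β l).map (Matrix.toLin' ((P⁻¹ * g * P : GL (Fin n) F) :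
        Matrix (Fin n) (Fin n) F)) = Bl β (σ l) := hσ l
    have e : g * P = P * (P⁻¹ * g * P) := by group
    rw [← hP l, ← hP (σ l), ← h1, ← Submodule.map_comp, ← Submodule.map_comp,
      ← Matrix.toLin'_mul, ← Matrix.toLin'_mul, ← Units.val_mul, ← Units.val_mul, e]

/-- T2 -/
theorem stepT2 {F : Type*} [Field F] {n t : ℕ} (β : Fin n → Fin t) (P : GL (Fin n) F)
    (D : Fin t → Submodule F (Fin n → F))
    (hP : ∀ l, (Bl β l).map (Matrix.toLin' (P : Matrix (Fin n) (Fin n) F)) = D l)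
    (hmax : Cfsg.Geo.IsMaximalIn (Cfsg.Geo.specialLinear (Fin n) F) (MB β F)) :
    Cfsg.Geo.IsMaximalIn (Cfsg.Geo.specialLinear (Fin n) F)
      (Cfsg.Geo.decompositionStabilizer D ⊓ Cfsg.Geo.specialLinear (Fin n) F) := by
  have hSL : ∀ g : GL (Fin n) F, P⁻¹ * g * P ∈ Cfsg.Geo.specialLinear (Fin n) F ↔
      g ∈ Cfsg.Geo.specialLinear (Fin n) F := by
    intro g
    unfold Cfsg.Geo.specialLinear
    rw [MonoidHom.mem_ker, MonoidHom.mem_ker, map_mul, map_mul, map_inv, mul_comm, ← mul_assoc,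
      mul_inv_cancel, one_mul]
  have hSL' : ∀ x : GL (Fin n) F, P * x * P⁻¹ ∈ Cfsg.Geo.specialLinear (Fin n) F ↔
      x ∈ Cfsg.Geo.specialLinear (Fin n) F := by
    intro x
    unfold Cfsg.Geo.specialLinear
    rw [MonoidHom.mem_ker, MonoidHom.mem_ker, map_mul, map_mul, map_inv, mul_comm, ← mul_assoc,
      inv_mul_cancel, one_mul]
  have hcancel : ∀ x : GL (Fin n) F, P⁻¹ * (P * x * P⁻¹) * P = x := by
    intro x
    group
  have hcancel' : ∀ g : GL (Fin n) F, P * (P⁻¹ * g * P) * P⁻¹ = g := by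
    intro g
    group
  -- membership in the two groups
  have hH : ∀ g : GL (Fin n) F,
      g ∈ Cfsg.Geo.decompositionStabilizer D ⊓ Cfsg.Geo.specialLinear (Fin n) F ↔
        P⁻¹ * g * P ∈ MB β F := by
    intro g
    unfold MB
    rw [Subgroup.mem_inf, Subgroup.mem_inf, stepT2_conj β P D hP g, hSL g]
  obtain ⟨hlt, hmx⟩ := hmax
  constructor
  · refine lt_of_le_of_ne inf_le_right ?_
    intro heq
    apply hlt.ne
    apply le_antisymm hlt.le
    intro x hx
    have h1 : P * x * P⁻¹ ∈ Cfsg.Geo.specialLinear (Fin n) F := (hSL' x).mpr hx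
    rw [← heq, hH, hcancel] at h1
    exact h1
  · intro M hM1 hM2
    have hXmem : ∀ x : GL (Fin n) F,
        x ∈ M.comap (MulAut.conj P).toMonoidHom ↔ P * x * P⁻¹ ∈ M := by
      intro x
      rfl
    have hle1 : MB β F ≤ M.comap (MulAut.conj P).toMonoidHom := by
      intro x hx
      rw [hXmem]
      apply hM1
      rw [hH, hcancel]
      exact hx
    have hle2 : M.comap (MulAut.conj P).toMonoidHom ≤ Cfsg.Geo.specialLinear (Fin n) F := by
      intro x hx
      rw [hXmem] at hx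
      exact (hSL' x).mp (hM2 hx)
    rcases hmx _ hle1 hle2 with h1 | h1
    · left
      apply le_antisymm _ hM1
      intro g hg
      rw [hH, ← h1, hXmem, hcancel']
      exact hg
    · right
      apply le_antisymm hM2
      intro g hg
      have h2 : P⁻¹ * g * P ∈ M.comap (MulAut.conj P).toMonoidHom := by
        rw [h1, hSL]
        exact hg
      rw [hXmem, hcancel'] at h2
      exact h2

end Cfsg.Agent.Lib.Helper61.Blk
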