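import Mathlib
import Cfsg.Prelude.Def_GeometricClasses
import Cfsg.Agent.Lib.Helper97.Transv
import Cfsg.Agent.Lib.Helper97.TransvM
import Cfsg.Agent.Lib.Helper71.TP0
import Cfsg.Agent.Lib.Helper71.TP1
import Cfsg.Agent.Lib.Helper87.SLTransv
import Cfsg.Agent.Lib.Helper87.TPFLAGW

set_option autoImplicit false

/-! S5637 piece FLAGU (job of helper71): an `SL_a` matrix with first column `u` and
`φ ᵥ* A = c • e₁`, `a ≥ 2`.  helper87. -/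

namespace Cfsg.Agent.Lib.Helper87.TPFLAGU

open Matrix Cfsg.Agent.Lib.Helper71.TP Cfsg.Agent.Lib.Helper97
open scoped Kronecker

variable {a b : ℕ} {F : Type*} [Field F]

/-- FLAGU -/
theorem exists_flagU (ha : 2 ≤ a) (u φ : Fin a → F) (hu : u ≠ 0) (hφ : φ ≠ 0) (h : φ ⬝ᵥ u = 0) :
    ∃ (A : GL (Fin a) F) (c : F), c ≠ 0 ∧ A.1.det = 1 ∧
      A.1 *ᵥ Pi.single (⟨0, by omega⟩ : Fin a) (1 : F) = u ∧
      φ ᵥ* A.1 = c • Pi.single (⟨1, by omega⟩ : Fin a) (1 : F) := by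
  by_cases ha3 : 3 ≤ a
  · obtain ⟨B, hB1, hB2, hB3⟩ :=
      Cfsg.Agent.Lib.Helper87.TPFLAGW.exists_flagW ha3 u φ hu hφ h
    exact ⟨B, 1, one_ne_zero, hB1, hB2, by rw [hB3, one_smul]⟩
  · have ha2 : a = 2 := by omega
    subst ha2
    have h01 : (⟨0, by omega⟩ : Fin 2) ≠ ⟨1, by omega⟩ := by decide
    obtain ⟨g₁, hg₁⟩ := Cfsg.Agent.Lib.Helper87.exists_sl_single h01 hu
    have hχ0 : (φ ᵥ* (g₁ : Matrix (Fin 2) (Fin 2) F)) ⬝ᵥ
        Pi.single (⟨0, by omega⟩ : Fin 2) (1 : F) = 0 := by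
      rw [← Matrix.dotProduct_mulVec, hg₁, h]
    have hχ := Cfsg.Agent.Lib.Helper87.TPFLAGW.vecMul_sl_ne_zero g₁ hφ
    rw [dotProduct_single, mul_one] at hχ0
    refine ⟨Matrix.SpecialLinearGroup.toGL g₁,
      (φ ᵥ* (g₁ : Matrix (Fin 2) (Fin 2) F)) ⟨1, by omega⟩, ?_, g₁.2, hg₁, ?_⟩
    · intro hc
      apply hχ
      funext i
      fin_cases i
      · exact hχ0
      · exact hc
    · change φ ᵥ* (g₁ : Matrix (Fin 2) (Fin 2) F) = _
      funext i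
      fin_cases i
      · rw [Pi.smul_apply, smul_eq_mul]
        change (φ ᵥ* (g₁ : Matrix (Fin 2) (Fin 2) F)) ⟨0, by omega⟩ = _
        rw [hχ0, Pi.single_eq_of_ne h01, mul_zero]
      · rw [Pi.smul_apply, smul_eq_mul]
        change _ = (φ ᵥ* (g₁ : Matrix (Fin 2) (Fin 2) F)) ⟨1, by omega⟩ *
          (Pi.single (⟨1, by omega⟩ : Fin 2) (1 : F) : Fin 2 → F) ⟨1, by omega⟩
        rw [Pi.single_eq_same, mul_one]

end Cfsg.Agent.Lib.Helper87.TPFLAGU
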