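import Mathlib
import Cfsg.Agent.Lib.Helper22.HPDefs
import Cfsg.Agent.Lib.Helper22.HPDefs2
import Cfsg.Agent.Lib.Helper31.HPETA

/-!
# S4504 (helper22's HP project), piece STAR-QUAD (G3) (helper87)

`∑_{t ≠ 0} |γ + α η_t + β η_{s t}|² = e ((γ-α)² + (γ-β)² + e (α-β)²)`.
-/

set_option autoImplicit false

namespace Cfsg.Agent.Lib.Helper87.HPT

open Cfsg Cfsg.Agent.Lib.Helper22.BFD Cfsg.Agent.Lib.Helper22.HPD
open scoped ComplexConjugate

universe u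

/-- PIECE QUAD (G3): pure Fourier analysis -/
theorem hp_quad (p : ℕ) [Fact p.Prime] (hp2 : p ≠ 2) (ζ : ℂ) (hζ : IsPrimitiveRoot ζ p)
    (e : ℕ) (he : 2 * e + 1 = p) (s : ZMod p) (hs0 : s ≠ 0) (hs : s ∉ Sq p) (γ α β : ℕ) :
    ∑ t ∈ Finset.univ.filter (fun t : ZMod p => t ≠ 0),
        ‖(γ : ℂ) + (α : ℂ) * eta p ζ t + (β : ℂ) * eta p ζ (s * t)‖ ^ 2 =
      (e : ℝ) * (((γ : ℝ) - α) ^ 2 + ((γ : ℝ) - β) ^ 2 + e * ((α : ℝ) - β) ^ 2) := by
  classical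
  have hp : p.Prime := Fact.out
  obtain ⟨-, h0, hsum, -, hpars, hns⟩ := Cfsg.Agent.Lib.Helper31.HPT.eta_facts p hp2 ζ hζ
  obtain ⟨-, hpt⟩ := hns s hs0 hs
  have hpe : (p - 1) / 2 = e := by omega
  rw [hpe] at h0 hpars
  have hF : Finset.univ.filter (fun t : ZMod p => t ≠ 0) = Finset.univ.erase (0 : ZMod p) := by
    ext t; simp
  rw [hF]
  have hA0 : ∑ t : ZMod p, ‖eta p ζ t‖ ^ 2 = ((p * e : ℕ) : ℝ) := by
    have h1 : ∑ t : ZMod p, eta p ζ t * conj (eta p ζ t) =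
        ((∑ t : ZMod p, ‖eta p ζ t‖ ^ 2 : ℝ) : ℂ) := by
      rw [Complex.ofReal_sum]
      apply Finset.sum_congr rfl
      intro t _
      rw [Complex.mul_conj']; norm_cast
    rw [h1] at hpars
    exact_mod_cast hpars
  have hA : ∑ t ∈ Finset.univ.erase (0 : ZMod p), ‖eta p ζ t‖ ^ 2 = (e : ℝ) * (e + 1) := by
    have h1 := Finset.add_sum_erase Finset.univ (fun t : ZMod p => ‖eta p ζ t‖ ^ 2)
      (Finset.mem_univ 0)
    rw [hA0, h0] at h1
    have h2 : ‖((e : ℕ) : ℂ)‖ = (e : ℝ) := by simp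
    rw [h2] at h1
    have h3 : ((p * e : ℕ) : ℝ) = (2 * (e : ℝ) + 1) * e := by rw [← he]; push_cast; ring
    rw [h3] at h1
    linarith
  have hB : ∑ t ∈ Finset.univ.erase (0 : ZMod p), (eta p ζ t).re = -(e : ℝ) := by
    have h1 := Finset.add_sum_erase Finset.univ (fun t : ZMod p => (eta p ζ t).re)
      (Finset.mem_univ 0)
    have h2 : ∑ t : ZMod p, (eta p ζ t).re = 0 := by
      rw [← Complex.re_sum, hsum]; simp
    rw [h2, h0] at h1
    have h3 : (((e : ℕ) : ℂ)).re = (e : ℝ) := by simp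
    rw [h3] at h1
    linarith
  have hC : ((Finset.univ.erase (0 : ZMod p)).card : ℝ) = 2 * (e : ℝ) := by
    rw [Finset.card_erase_of_mem (Finset.mem_univ _), Finset.card_univ, ZMod.card, ← he]
    simp
  have hD : ∀ t ∈ Finset.univ.erase (0 : ZMod p),
      ‖(γ : ℂ) + (α : ℂ) * eta p ζ t + (β : ℂ) * eta p ζ (s * t)‖ ^ 2 =
        ((γ : ℝ) - β) ^ 2 + ((α : ℝ) - β) ^ 2 * ‖eta p ζ t‖ ^ 2 +
          2 * ((γ : ℝ) - β) * ((α : ℝ) - β) * (eta p ζ t).re := by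
    intro t ht
    have ht0 : t ≠ 0 := Finset.ne_of_mem_erase ht
    have h1 : eta p ζ (s * t) = -1 - eta p ζ t := by
      have h2 := (hpt t ht0).1
      linear_combination h2
    rw [h1, Complex.sq_norm, Complex.sq_norm, Complex.normSq_apply, Complex.normSq_apply]
    simp
    ring
  rw [Finset.sum_congr rfl hD, Finset.sum_add_distrib, Finset.sum_add_distrib, Finset.sum_const,
    ← Finset.mul_sum, ← Finset.mul_sum, hA, hB, nsmul_eq_mul, hC]
  ring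

end Cfsg.Agent.Lib.Helper87.HPT
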