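import Mathlib
import Cfsg.Agent.Lib.Helper72.JPDefs
import Cfsg.Agent.Lib.Helper82.JcOCPC

/-!
# Project JP (helper72), piece KP

Proved by helper87: for `K = KOf Q k` (closure of the `Q`-conjugates of an element `k` of order 3,
`Q` a normal 2-subgroup), `O₂(K) = K ⊓ Q` and it has index 3 in `K`.
-/

set_option autoImplicit false

namespace Cfsg.Agent.Lib.Helper87.JP

open Cfsg.Agent.Lib.Helper72.JP Cfsg.Agent.Lib.Helper72.JM Cfsg.Agent.Lib.Helper72.JL
  Cfsg.Agent.Lib.Helper72.SC Cfsg.Agent.Lib.Helper78.Jc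

open scoped commutatorElement

universe u

/-- an element of a 2-group whose cube is trivial is trivial -/
theorem kp_two_three {X : Type u} [Group X] (H : Subgroup X) (hH : IsPGroup 2 ↥H) (x : X)
    (hx : x ∈ H) (h3 : x ^ 3 = 1) : x = 1 := by
  obtain ⟨n, hn⟩ := hH ⟨x, hx⟩
  have hn' : x ^ 2 ^ n = 1 := by
    have := congrArg (fun z : ↥H => (z : X)) hn
    simpa using this
  have hd1 : orderOf x ∣ 2 ^ n := orderOf_dvd_of_pow_eq_one hn'
  have hd2 : orderOf x ∣ 3 := orderOf_dvd_of_pow_eq_one h3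
  have hcop : Nat.Coprime (2 ^ n) 3 := Nat.Coprime.pow_left _ (by norm_num)
  have hd3 : orderOf x ∣ 1 := by
    have := Nat.dvd_gcd hd1 hd2
    rwa [hcop.gcd_eq_one] at this
  exact orderOf_eq_one_iff.mp (Nat.dvd_one.mp hd3)

theorem kp : KpStmt.{u} := by
  intro X _ _ Q k hQn hQ2 hk3 hk1
  have hkK : k ∈ KOf Q k := Subgroup.subset_closure ⟨1, Q.one_mem, by simp⟩
  have hzk3 : ∀ j : ℤ, (k ^ j) ^ 3 = 1 := by
    intro j
    rw [← zpow_natCast, ← zpow_mul, mul_comm, zpow_mul, zpow_natCast, hk3, one_zpow]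
  -- `K ≤ Q ⊔ ⟨k⟩`
  have hKle : KOf Q k ≤ Q ⊔ Subgroup.zpowers k := by
    unfold KOf
    rw [Subgroup.closure_le]
    rintro x ⟨q, hq, rfl⟩
    have h1 : q * k * q⁻¹ = (q * (k * q⁻¹ * k⁻¹)) * k := by group
    rw [h1]
    exact Subgroup.mul_mem _
      (Subgroup.mem_sup_left (Q.mul_mem hq (hQn.conj_mem _ (Q.inv_mem hq) k)))
      (Subgroup.mem_sup_right (Subgroup.mem_zpowers k))
  have hdec : ∀ x ∈ KOf Q k, ∃ q ∈ Q, ∃ j : ℤ, x = q * k ^ j := by
    intro x hx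
    have h1 := hKle hx
    rw [Subgroup.mem_sup_of_normal_left] at h1
    obtain ⟨q, hq, z, hz, rfl⟩ := h1
    obtain ⟨j, rfl⟩ := Subgroup.mem_zpowers_iff.mp hz
    exact ⟨q, hq, j, rfl⟩
  have hzQ : Q ⊓ Subgroup.zpowers k = ⊥ := by
    rw [eq_bot_iff]
    rintro x ⟨hxQ, hxz⟩
    obtain ⟨j, rfl⟩ := Subgroup.mem_zpowers_iff.mp hxz
    rw [Subgroup.mem_bot]
    exact kp_two_three Q hQ2 _ hxQ (hzk3 j)
  have hord : orderOf k = 3 := by
    have : Fact (Nat.Prime 3) := ⟨Nat.prime_three⟩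
    exact orderOf_eq_prime hk3 hk1
  -- the index
  have hrel : (KOf Q k ⊓ Q).relIndex (KOf Q k) = 3 := by
    rw [inf_comm, Subgroup.inf_relIndex_right]
    have h1 : Q ⊔ KOf Q k = Q ⊔ Subgroup.zpowers k := by
      apply le_antisymm
      · exact sup_le le_sup_left hKle
      · exact sup_le le_sup_left (((Subgroup.zpowers_le).mpr hkK).trans le_sup_right)
    have h2 : Q.relIndex (Q ⊔ KOf Q k) = Q.relIndex (KOf Q k) :=
      Subgroup.relIndex_sup_left (KOf Q k) Q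
    have h3 : Q.relIndex (Q ⊔ Subgroup.zpowers k) = Q.relIndex (Subgroup.zpowers k) :=
      Subgroup.relIndex_sup_left (Subgroup.zpowers k) Q
    rw [← h2, h1, h3, ← Subgroup.inf_relIndex_right, hzQ, Subgroup.relIndex_bot_left,
      Nat.card_zpowers, hord]
  -- the 2-core
  have hO2 : IsPGroup 2 ↥(Cfsg.pCoreOf 2 (KOf Q k)) := Cfsg.Agent.Lib.Helper82.Jc.pc_pgroup _
  have hOK : Cfsg.pCoreOf 2 (KOf Q k) ≤ KOf Q k := Cfsg.Agent.Lib.Helper82.Jc.pc_le _
  have hcore : Cfsg.pCoreOf 2 (KOf Q k) = KOf Q k ⊓ Q := by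
    apply le_antisymm
    · refine le_inf hOK ?_
      intro x hx
      have hOQ : IsPGroup 2 ↥(Cfsg.pCoreOf 2 (KOf Q k) ⊔ Q) :=
        IsPGroup.to_sup_of_normal_right hO2 hQ2
      obtain ⟨q, hq, j, rfl⟩ := hdec x (hOK hx)
      have h1 : k ^ j ∈ Cfsg.pCoreOf 2 (KOf Q k) ⊔ Q := by
        have e : k ^ j = q⁻¹ * (q * k ^ j) := by group
        rw [e]
        exact Subgroup.mul_mem _ (Subgroup.mem_sup_right (Q.inv_mem hq)) (Subgroup.mem_sup_left hx)
      have h2 : k ^ j = 1 := kp_two_three _ hOQ _ h1 (hzk3 j)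
      rw [h2, mul_one]
      exact hq
    · have hn : (Q.subgroupOf (KOf Q k)).Normal := hQn.subgroupOf _
      have h2 : IsPGroup 2 ↥(Q.subgroupOf (KOf Q k)) := hQ2.comap_subtype
      have hle : Q.subgroupOf (KOf Q k) ≤ Cfsg.pCore 2 ↥(KOf Q k) := le_sSup ⟨hn, h2⟩
      have h3 := Subgroup.map_mono (f := (KOf Q k).subtype) hle
      rw [Subgroup.subgroupOf_map_subtype] at h3
      rw [inf_comm]
      exact h3
  refine ⟨hcore, ?_⟩
  rw [hcore]
  exact hrel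

end Cfsg.Agent.Lib.Helper87.JP
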