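import Mathlib
import Cfsg.Agent.Lib.Helper72.JRDefs
import Cfsg.Agent.Lib.Helper40.JPTrm
import Cfsg.Agent.Lib.Helper66.JNThc
import Cfsg.Agent.Lib.Helper94.JcTH

/-! Project JR (helper72, S2950), piece JR-CONJ (helper87): conjugating a `J(T)`-component by an
element normalizing `J(T)` gives a `J(T)`-component, and `W` commutes with the conjugation. -/

set_option autoImplicit false

namespace Cfsg.Agent.Lib.Helper87.JR

open Cfsg.Agent.Lib.Helper72.JR Cfsg.Agent.Lib.Helper72.JP Cfsg.Agent.Lib.Helper72.JM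
  Cfsg.Agent.Lib.Helper72.JL Cfsg.Agent.Lib.Helper72.SC Cfsg.Agent.Lib.Helper78.Jc

open scoped commutatorElement

universe u

/-- a subgroup normalized by `m` is fixed by conjugation with `m` -/
theorem cj_map_eq {G : Type*} [Group G] (J : Subgroup G) (m : G)
    (hm : m ∈ Subgroup.normalizer (J : Set G)) :
    J.map (MulAut.conj m).toMonoidHom = J := by
  have hm' := Subgroup.mem_normalizer_iff.1 hm
  apply le_antisymm
  · rintro _ ⟨x, hx, rfl⟩
    exact (hm' x).1 hx
  · intro y hy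
    refine ⟨m⁻¹ * y * m, ?_, ?_⟩
    · have h1 := (hm' (m⁻¹ * y * m)).2
      apply h1
      have e : m * (m⁻¹ * y * m) * m⁻¹ = y := by group
      rw [e]
      exact hy
    · show m * (m⁻¹ * y * m) * m⁻¹ = y
      group

theorem cj_relIndex_map {G : Type*} [Group G] (A B : Subgroup G) (m : G) :
    (A.map (MulAut.conj m).toMonoidHom).relIndex (B.map (MulAut.conj m).toMonoidHom) =
      A.relIndex B := by
  have hc : Function.Injective (MulAut.conj m).toMonoidHom := (MulAut.conj m).injective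
  rw [← Subgroup.relIndex_comap, Subgroup.comap_map_eq_self_of_injective hc]

theorem cj : ConjStmt.{u} := by
  intro G _ _ T K m hK hm
  obtain ⟨h1, h2, h3, h4, h5, h6⟩ := hK
  have hc : Function.Injective (MulAut.conj m).toMonoidHom := (MulAut.conj m).injective
  have hJ : (Cfsg.thompsonSubgroupOf 2 T).map (MulAut.conj m).toMonoidHom =
      Cfsg.thompsonSubgroupOf 2 T := cj_map_eq _ m hm
  have hW := Cfsg.Agent.Lib.Helper40.JP.trm_wOf_map (MulAut.conj m).toMonoidHom hc K
  refine ⟨⟨?_, ?_, ?_, ?_, ?_, ?_⟩, hW⟩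
  · have e : {g : G | g ∈ K.map (MulAut.conj m).toMonoidHom ∧ Odd (orderOf g)} =
        (MulAut.conj m).toMonoidHom '' {g : G | g ∈ K ∧ Odd (orderOf g)} := by
      ext g
      constructor
      · rintro ⟨⟨x, hx, rfl⟩, ho⟩
        refine ⟨x, ⟨hx, ?_⟩, rfl⟩
        rwa [orderOf_injective (MulAut.conj m).toMonoidHom hc x] at ho
      · rintro ⟨x, ⟨hx, ho⟩, rfl⟩
        refine ⟨Subgroup.mem_map_of_mem _ hx, ?_⟩
        rwa [orderOf_injective (MulAut.conj m).toMonoidHom hc x]
    rw [e, ← MonoidHom.map_closure, h1]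
  · have h2' : ⁅K.map (MulAut.conj m).toMonoidHom,
        (Cfsg.thompsonSubgroupOf 2 T).map (MulAut.conj m).toMonoidHom⁆ =
        K.map (MulAut.conj m).toMonoidHom := by
      rw [← Subgroup.map_commutator, h2]
    rwa [hJ] at h2'
  · rw [Cfsg.Agent.Lib.Helper40.JP.trm_pCoreOf_map _ hc, cj_relIndex_map]
    exact h3
  · intro S hS hJS
    obtain ⟨hS1, hS2, hS3⟩ := hS
    -- the conjugate back
    have hS' : Cfsg.IsSylowTwoIn (S.map (MulAut.conj m⁻¹).toMonoidHom)
        (K ⊔ Cfsg.thompsonSubgroupOf 2 T) := by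
      have hKJ : (K.map (MulAut.conj m).toMonoidHom ⊔ Cfsg.thompsonSubgroupOf 2 T).map
          (MulAut.conj m⁻¹).toMonoidHom = K ⊔ Cfsg.thompsonSubgroupOf 2 T := by
        have e1 : K.map (MulAut.conj m).toMonoidHom ⊔ Cfsg.thompsonSubgroupOf 2 T =
            (K ⊔ Cfsg.thompsonSubgroupOf 2 T).map (MulAut.conj m).toMonoidHom := by
          rw [Subgroup.map_sup, hJ]
        rw [e1, Cfsg.Agent.Lib.Helper66.JN.thc_map_map']
      refine ⟨?_, ?_, ?_⟩
      · rw [← hKJ]
        exact Subgroup.map_mono hS1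
      · exact hS2.map _
      · rw [← hKJ, cj_relIndex_map]
        exact hS3
    have hJS' : Cfsg.thompsonSubgroupOf 2 T ≤ S.map (MulAut.conj m⁻¹).toMonoidHom := by
      have h7 := Subgroup.map_mono (f := (MulAut.conj m⁻¹).toMonoidHom) hJS
      have h8 : (Cfsg.thompsonSubgroupOf 2 T).map (MulAut.conj m⁻¹).toMonoidHom =
          Cfsg.thompsonSubgroupOf 2 T := by
        conv_lhs => rw [← hJ]
        rw [Cfsg.Agent.Lib.Helper66.JN.thc_map_map']
      rwa [h8] at h7
    have h9 := h4 _ hS' hJS'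
    have h10 := Cfsg.Agent.Lib.Helper66.JN.thc G (S.map (MulAut.conj m⁻¹).toMonoidHom) m
    rw [Cfsg.Agent.Lib.Helper66.JN.thc_map_map, h9, hJ] at h10
    exact h10
  · rw [hW, Subgroup.card_map_of_injective hc]
    exact h5
  · rw [hW]
    rintro _ ⟨w, hw, rfl⟩
    rw [← map_mul, h6 w hw, map_one]

end Cfsg.Agent.Lib.Helper87.JR
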