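import Mathlib
import Cfsg.Agent.Lib.Helper72.JRDefs
import Cfsg.Agent.Lib.Helper94.JcTH

/-!
# Project JR (helper72, S2950), piece LOC

Proved by helper87: a 2-local `H ≰ M` containing `J(T)` has a Sylow 2-subgroup `T₀ ⊇ J(T)` with
`H ∈ ℒ(T₀)`, `J(T₀) = J(T)`, `T₀ ≠ ⊥`, and the `J(T₀)`-components are the `J(T)`-components.
-/

set_option autoImplicit false

namespace Cfsg.Agent.Lib.Helper87.JR

open Cfsg.Agent.Lib.Helper72.JR Cfsg.Agent.Lib.Helper72.JP Cfsg.Agent.Lib.Helper72.JM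
  Cfsg.Agent.Lib.Helper72.JL Cfsg.Agent.Lib.Helper72.SC Cfsg.Agent.Lib.Helper78.Jc

open scoped commutatorElement

universe u

theorem loc : LocStmt.{u} := by
  intro G _ _ M T hC hT H hH2 hHM hJH
  have : Fact (Nat.Prime 2) := ⟨Nat.prime_two⟩
  have hJT : Cfsg.thompsonSubgroupOf 2 T ≤ T := Cfsg.Agent.Lib.Helper94.Jc.th_le_self T
  have hJ2 : IsPGroup 2 ↥(Cfsg.thompsonSubgroupOf 2 T) := hT.to_le hJT
  have hJ2' : IsPGroup 2 ↥((Cfsg.thompsonSubgroupOf 2 T).subgroupOf H) := hJ2.comap_subtype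
  obtain ⟨P, hP⟩ := hJ2'.exists_le_sylow
  obtain ⟨T₀, hT₀⟩ : ∃ T₀ : Subgroup G, T₀ = (P : Subgroup ↥H).map H.subtype := ⟨_, rfl⟩
  have hT₀H : T₀ ≤ H := by
    rw [hT₀]
    exact Subgroup.map_subtype_le _
  have hT₀2 : IsPGroup 2 ↥T₀ := by
    rw [hT₀]
    exact P.2.map _
  have hsub : T₀.subgroupOf H = (P : Subgroup ↥H) := by
    rw [hT₀]
    exact Subgroup.comap_map_eq_self_of_injective (Subgroup.subtype_injective H) _
  have hodd : Odd (T₀.relIndex H) := by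
    have h1 : T₀.relIndex H = (P : Subgroup ↥H).index := by
      unfold Subgroup.relIndex
      rw [hsub]
    rw [h1, ← Nat.not_even_iff_odd, even_iff_two_dvd]
    exact P.not_dvd_index
  have hJT₀ : Cfsg.thompsonSubgroupOf 2 T ≤ T₀ := by
    have h1 := Subgroup.map_mono (f := H.subtype) hP
    rw [Subgroup.map_subgroupOf_eq_of_le hJH] at h1
    rw [hT₀]
    exact h1
  obtain ⟨hJ, hjo⟩ := hC.hA H T₀ hH2 hHM ⟨hT₀H, hT₀2, hodd⟩ hJT₀
  refine ⟨T₀, hT₀2, ?_, hjo, hJ.symm, ?_⟩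
  · intro h0
    apply hjo.2.1
    have h1 : Cfsg.thompsonSubgroupOf 2 T₀ ≤ T₀ := Cfsg.Agent.Lib.Helper94.Jc.th_le_self T₀
    rw [h0] at h1
    rw [h0]
    exact h1.trans bot_le
  · intro K
    unfold Cfsg.IsJComponent
    rw [← hJ]

end Cfsg.Agent.Lib.Helper87.JR
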