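import Mathlib
import Cfsg.Agent.Lib.Helper22.HPDefs
import Cfsg.Agent.Lib.Helper83.IrrBasic
import Cfsg.Agent.Lib.Helper83.Ortho
import Cfsg.Agent.Lib.Helper83.Central
import Cfsg.Agent.Lib.Helper80.Twisted
import Cfsg.Agent.Lib.Helper82.PQ
import Cfsg.Agent.Lib.Helper68.BFPDEC
import Cfsg.Agent.Lib.Helper63.BFS1E

/-!
# S4504, piece HP-STARSTAR, sub-piece SS-ZORTH (helper87)

Orthogonality of the central characters `cc φ u = φ u / φ 1` on the centre.
-/

set_option autoImplicit false

namespace Cfsg.Agent.Lib.Helper87.HPT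

open Cfsg Cfsg.Agent.Lib.Helper22.BFD Cfsg.Agent.Lib.Helper22.HPD
open scoped ComplexConjugate

universe u

/-- the central character has absolute value one on the centre -/
theorem zorth_norm {G : Type u} [Group G] [Fintype G] (θ : IrrCharacter G) (u : G)
    (hu : u ∈ Subgroup.center G) :
    Cfsg.Agent.Lib.Helper80.cc θ u * conj (Cfsg.Agent.Lib.Helper80.cc θ u) = 1 := by
  obtain ⟨hpos, hdeg⟩ := Cfsg.Agent.Lib.Helper83.irr_degree θ.2
  have h1 : ‖Cfsg.Agent.Lib.Helper80.cc θ u‖ = 1 := by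
    unfold Cfsg.Agent.Lib.Helper80.cc
    rw [norm_div, Cfsg.Agent.Lib.Helper83.irr_central_norm θ u hu, hdeg, Complex.norm_natCast]
    exact div_self (by exact_mod_cast hpos.ne')
  rw [Complex.mul_conj', h1]; simp

open Classical in
/-- SUB-PIECE SS-ZORTH: orthogonality of the central characters `cc φ u = φ u / φ 1` on the centre.
(`u ↦ cc ψ u * conj (cc φ u)` is multiplicative on `Z(G)` (`Helper80.cc_mul`), of absolute
value one (`Helper83.irr_central_norm`), and identically one iff `SameZ ψ φ`; a nontrivial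
multiplicative function on a finite group sums to zero.) -/
theorem hp_zorth {G : Type u} [Group G] [Fintype G] (ψ φ : IrrCharacter G) :
    ∑ u : G, (if u ∈ Subgroup.center G then
        Cfsg.Agent.Lib.Helper80.cc ψ u * conj (Cfsg.Agent.Lib.Helper80.cc φ u) else 0) =
      if SameZ ψ.1 φ.1 then (Nat.card (Subgroup.center G) : ℂ) else 0 := by
  have hφ1 : φ.1 1 ≠ 0 := Cfsg.Agent.Lib.Helper83.irr_one_ne_zero φ.2
  have hψ1 : ψ.1 1 ≠ 0 := Cfsg.Agent.Lib.Helper83.irr_one_ne_zero ψ.2
  split_ifs with hS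
  · have hval : ∀ u : G, (if u ∈ Subgroup.center G then
        Cfsg.Agent.Lib.Helper80.cc ψ u * conj (Cfsg.Agent.Lib.Helper80.cc φ u) else 0) =
        if u ∈ Subgroup.center G then (1 : ℂ) else 0 := by
      intro u
      split_ifs with hu
      · have h1 : Cfsg.Agent.Lib.Helper80.cc ψ u = Cfsg.Agent.Lib.Helper80.cc φ u := by
          unfold Cfsg.Agent.Lib.Helper80.cc
          rw [div_eq_div_iff hψ1 hφ1]
          exact (hS u hu).symm
        rw [h1]; exact zorth_norm φ u hu
      · rfl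
    rw [Finset.sum_congr rfl (fun u _ => hval u), Finset.sum_boole]
    have hc : (Finset.univ.filter (fun u : G => u ∈ Subgroup.center G)).card =
        Nat.card (Subgroup.center G) := by
      rw [← Nat.card_eq_finsetCard]
      exact Nat.card_congr (Equiv.subtypeEquivRight (fun u => by simp))
    rw [hc]
  · unfold SameZ at hS
    push Not at hS
    obtain ⟨u0, hu0, hne⟩ := hS
    have hl0 : Cfsg.Agent.Lib.Helper80.cc ψ u0 * conj (Cfsg.Agent.Lib.Helper80.cc φ u0) ≠ 1 := by
      intro h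
      apply hne
      have h1 : Cfsg.Agent.Lib.Helper80.cc ψ u0 = Cfsg.Agent.Lib.Helper80.cc φ u0 := by
        have h2 := zorth_norm φ u0 hu0
        calc Cfsg.Agent.Lib.Helper80.cc ψ u0
            = Cfsg.Agent.Lib.Helper80.cc ψ u0 * (Cfsg.Agent.Lib.Helper80.cc φ u0 *
                conj (Cfsg.Agent.Lib.Helper80.cc φ u0)) := by rw [h2, mul_one]
          _ = (Cfsg.Agent.Lib.Helper80.cc ψ u0 * conj (Cfsg.Agent.Lib.Helper80.cc φ u0)) *
                Cfsg.Agent.Lib.Helper80.cc φ u0 := by ring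
          _ = Cfsg.Agent.Lib.Helper80.cc φ u0 := by rw [h, one_mul]
      unfold Cfsg.Agent.Lib.Helper80.cc at h1
      rw [div_eq_div_iff hψ1 hφ1] at h1
      exact h1.symm
    have hshift : ∀ u : G, (if u * u0 ∈ Subgroup.center G then
        Cfsg.Agent.Lib.Helper80.cc ψ (u * u0) * conj (Cfsg.Agent.Lib.Helper80.cc φ (u * u0))
          else 0) =
        (Cfsg.Agent.Lib.Helper80.cc ψ u0 * conj (Cfsg.Agent.Lib.Helper80.cc φ u0)) *
          (if u ∈ Subgroup.center G then
            Cfsg.Agent.Lib.Helper80.cc ψ u * conj (Cfsg.Agent.Lib.Helper80.cc φ u) else 0) := by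
      intro u
      by_cases hu : u ∈ Subgroup.center G
      · rw [if_pos (Subgroup.mul_mem _ hu hu0), if_pos hu,
          Cfsg.Agent.Lib.Helper80.cc_mul ψ hu0, Cfsg.Agent.Lib.Helper80.cc_mul φ hu0, map_mul]
        ring
      · have h1 : u * u0 ∉ Subgroup.center G := by
          intro h
          apply hu
          have h2 := Subgroup.mul_mem _ h (Subgroup.inv_mem _ hu0)
          simpa using h2
        rw [if_neg h1, if_neg hu, mul_zero]
    have hre : ∑ u : G, (if u ∈ Subgroup.center G then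
        Cfsg.Agent.Lib.Helper80.cc ψ u * conj (Cfsg.Agent.Lib.Helper80.cc φ u) else 0) =
        ∑ u : G, (if u * u0 ∈ Subgroup.center G then
          Cfsg.Agent.Lib.Helper80.cc ψ (u * u0) * conj (Cfsg.Agent.Lib.Helper80.cc φ (u * u0))
            else 0) :=
      (Equiv.sum_comp (Equiv.mulRight u0) (fun u => if u ∈ Subgroup.center G then
        Cfsg.Agent.Lib.Helper80.cc ψ u * conj (Cfsg.Agent.Lib.Helper80.cc φ u) else 0)).symm
    have hfix : ∑ u : G, (if u ∈ Subgroup.center G then
        Cfsg.Agent.Lib.Helper80.cc ψ u * conj (Cfsg.Agent.Lib.Helper80.cc φ u) else 0) =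
        (Cfsg.Agent.Lib.Helper80.cc ψ u0 * conj (Cfsg.Agent.Lib.Helper80.cc φ u0)) *
        ∑ u : G, (if u ∈ Subgroup.center G then
          Cfsg.Agent.Lib.Helper80.cc ψ u * conj (Cfsg.Agent.Lib.Helper80.cc φ u) else 0) := by
      rw [Finset.mul_sum]
      exact hre.trans (Finset.sum_congr rfl (fun u _ => hshift u))
    have hS0 : (1 - Cfsg.Agent.Lib.Helper80.cc ψ u0 * conj (Cfsg.Agent.Lib.Helper80.cc φ u0)) *
        ∑ u : G, (if u ∈ Subgroup.center G then
          Cfsg.Agent.Lib.Helper80.cc ψ u * conj (Cfsg.Agent.Lib.Helper80.cc φ u) else 0) = 0 := by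
      rw [sub_mul, one_mul]
      exact sub_eq_zero.mpr hfix
    rcases mul_eq_zero.mp hS0 with h | h
    · exact absurd (sub_eq_zero.mp h).symm hl0
    · exact h

end Cfsg.Agent.Lib.Helper87.HPT
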