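import Cfsg.Agent.Lib.Helper46.BSW0
import Cfsg.Agent.Lib.Helper87.BSWG0

/-!
# S0508 piece D3 (helper87): the Brauer–Suzuki–Wall set-up from the structure of the centralizer
of an involution in a group with dihedral Sylow 2-subgroups
-/

set_option autoImplicit false

namespace Cfsg.Agent.Lib.Helper87.BSWD3

universe u

variable {G : Type u} [Group G]

/-- If `s` inverts every element of a subgroup then the subgroup is abelian. -/
theorem abelian_of_inverted (s : G) (X : Subgroup G) (h : ∀ x ∈ X, s * x * s⁻¹ = x⁻¹) :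
    ∀ a ∈ X, ∀ b ∈ X, a * b = b * a := by
  intro a ha b hb
  have h1 := h (a * b) (X.mul_mem ha hb)
  have h2 := h a ha
  have h3 := h b hb
  have h4 : s * (a * b) * s⁻¹ = (s * a * s⁻¹) * (s * b * s⁻¹) := by group
  rw [h4, h2, h3] at h1
  have h5 : a⁻¹ * b⁻¹ = b⁻¹ * a⁻¹ := by rw [h1, mul_inv_rev]
  have h6 := congrArg (fun z => z⁻¹) h5
  simp only [mul_inv_rev, inv_inv] at h6
  exact h6.symm

theorem trivial_of_odd_two (x : G) (m k : ℕ) (hm : Odd m) (h1 : x ^ m = 1)
    (h2 : x ^ (2 ^ k) = 1) : x = 1 := by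
  have hd1 : orderOf x ∣ m := orderOf_dvd_of_pow_eq_one h1
  have hd2 : orderOf x ∣ 2 ^ k := orderOf_dvd_of_pow_eq_one h2
  have hcop : Nat.Coprime m (2 ^ k) := Nat.Coprime.pow_right k (Nat.coprime_two_right.mpr hm)
  have : orderOf x = 1 := Nat.eq_one_of_dvd_coprimes hcop hd1 hd2
  exact orderOf_eq_one_iff.mp this

theorem exists_invol_pow (y : G) (k : ℕ) (hy : y ≠ 1) (h : y ^ (2 ^ k) = 1) :
    ∃ i : ℕ, (y ^ (2 ^ i)) * (y ^ (2 ^ i)) = 1 ∧ y ^ (2 ^ i) ≠ 1 := by
  induction k with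
  | zero => exact absurd (by simpa using h) hy
  | succ k ih =>
    by_cases hk : y ^ (2 ^ k) = 1
    · exact ih hk
    · refine ⟨k, ?_, hk⟩
      rw [← pow_add, ← two_mul, ← pow_succ']
      exact h

theorem conj_pow' (g x : G) (n : ℕ) : (g⁻¹ * x * g) ^ n = g⁻¹ * x ^ n * g := by
  induction n with
  | zero => simp
  | succ n ih => rw [pow_succ, ih, pow_succ]; group

/-- The product set `O A` as a subgroup, when `A` centralizes `O`. -/
def kSub (O A : Subgroup G) (hAO : ∀ a ∈ A, ∀ o ∈ O, a * o = o * a) : Subgroup G where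
  carrier := {x | ∃ o ∈ O, ∃ a ∈ A, x = o * a}
  mul_mem' := by
    rintro x y ⟨o1, ho1, a1, ha1, rfl⟩ ⟨o2, ho2, a2, ha2, rfl⟩
    refine ⟨o1 * o2, O.mul_mem ho1 ho2, a1 * a2, A.mul_mem ha1 ha2, ?_⟩
    calc o1 * a1 * (o2 * a2) = o1 * (a1 * o2) * a2 := by group
      _ = o1 * (o2 * a1) * a2 := by rw [hAO a1 ha1 o2 ho2]
      _ = o1 * o2 * (a1 * a2) := by group
  one_mem' := ⟨1, O.one_mem, 1, A.one_mem, by simp⟩
  inv_mem' := by
    rintro x ⟨o, ho, a, ha, rfl⟩
    refine ⟨o⁻¹, O.inv_mem ho, a⁻¹, A.inv_mem ha, ?_⟩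
    rw [mul_inv_rev]
    exact hAO a⁻¹ (A.inv_mem ha) o⁻¹ (O.inv_mem ho)

theorem mem_kSub (O A : Subgroup G) (hAO : ∀ a ∈ A, ∀ o ∈ O, a * o = o * a) (x : G) :
    x ∈ kSub O A hAO ↔ ∃ o ∈ O, ∃ a ∈ A, x = o * a := Iff.rfl

end Cfsg.Agent.Lib.Helper87.BSWD3

namespace Cfsg.Agent.Lib.Helper46.BSW

open Cfsg
open Cfsg.Agent.Lib.Helper87.BSWD3 Cfsg.Agent.Lib.Helper87.BSWG0

universe u

variable {G : Type u} [Group G]

/-! ### Piece D3 : the Brauer–Suzuki–Wall set-up -/
theorem dih_setup_core [Finite G] (S : Subgroup G) (t : G) (ht : orderOf t = 2) (htS : t ∈ S)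
    (O A : Subgroup G) (hS2 : IsPGroup 2 S) (hSC : S ≤ Subgroup.centralizer ({t} : Set G))
    (hOodd : Odd (Nat.card O)) (hOC : O ≤ Subgroup.centralizer ({t} : Set G))
    (hOn : ∀ g ∈ Subgroup.centralizer ({t} : Set G), ∀ o ∈ O, g * o * g⁻¹ ∈ O)
    (hOS : ∀ g ∈ Subgroup.centralizer ({t} : Set G), ∃ o ∈ O, ∃ x ∈ S, g = o * x)
    (hAS : A ≤ S) (hAcyc : IsCyclic A) (hAidx : A.relIndex S = 2) (htA : t ∈ A)
    (hA2 : ∀ a ∈ A, a * a = 1 → a = 1 ∨ a = t)
    (hAinv : ∀ s ∈ S, s ∉ A → orderOf s = 2 ∧ ∀ a ∈ A, s * a * s⁻¹ = a⁻¹)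
    (hAuniq : ∀ B : Subgroup G, B ≤ S → IsCyclic B → B.relIndex S = 2 → t ∈ B → B = A)
    (ha : O ≠ ⊥ → IsCyclic (S ⊓ Subgroup.centralizer (O : Set G) : Subgroup G) ∧
      (S ⊓ Subgroup.centralizer (O : Set G)).relIndex S = 2)
    (hb : ∀ s ∈ S, s ∉ Subgroup.centralizer (O : Set G) → ∀ y ∈ O, s * y * s⁻¹ = y⁻¹)
    (hc : ∀ Y : Subgroup G, Y ≤ O → Y ≠ ⊥ →
      Subgroup.normalizer (Y : Set G) ≤ Subgroup.centralizer ({t} : Set G))
    (hconj : ∀ x y : G, orderOf x = 2 → orderOf y = 2 → IsConj x y) :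
    ∃ (s : G) (K : Subgroup G), Setup t s K := by
  classical
  have memC : ∀ g : G, g ∈ Subgroup.centralizer ({t} : Set G) ↔ t * g = g * t := by
    intro g
    rw [Subgroup.mem_centralizer_iff]
    simp only [Set.mem_singleton_iff, forall_eq]
  have htt : t * t = 1 := by
    have := pow_orderOf_eq_one t
    rw [ht, pow_two] at this
    exact this
  have ht1 : t ≠ 1 := by
    intro h
    rw [h, orderOf_one] at ht
    omega
  -- an element of `S` outside `A`
  have hAneS : ¬ S ≤ A := by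
    intro hle
    have : A.relIndex S = 1 := Subgroup.relIndex_eq_one.mpr hle
    omega
  obtain ⟨s, hsS, hsA⟩ := SetLike.not_le_iff_exists.mp hAneS
  have hcos : ∀ x ∈ S, x ∈ A ∨ x * s⁻¹ ∈ A := by
    intro x hx
    by_cases hxA : x ∈ A
    · exact Or.inl hxA
    · right
      have h2 : (A.subgroupOf S).index = 2 := hAidx
      have h3 := (Subgroup.mul_mem_iff_of_index_two h2 (a := (⟨x, hx⟩ : S))
        (b := (⟨s, hsS⟩ : S)⁻¹))
      rw [Subgroup.mem_subgroupOf, Subgroup.mem_subgroupOf, Subgroup.mem_subgroupOf] at h3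
      apply h3.mpr
      constructor
      · intro h; exact absurd h hxA
      · intro h; exact absurd (by simpa using h) hsA
  have hOpow : ∀ x ∈ O, x ^ Nat.card O = 1 := by
    intro x hx
    have h1 := pow_card_eq_one' (G := O) (x := ⟨x, hx⟩)
    have h2 := congrArg Subtype.val h1
    rw [Subgroup.coe_pow, Subgroup.coe_one] at h2
    exact h2
  have hSpow : ∀ x ∈ S, ∃ k : ℕ, x ^ (2 ^ k) = 1 := by
    intro x hx
    obtain ⟨k, hk⟩ := hS2 ⟨x, hx⟩
    refine ⟨k, ?_⟩
    have h2 := congrArg Subtype.val hk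
    rw [Subgroup.coe_pow, Subgroup.coe_one] at h2
    exact h2
  have hOS1 : ∀ x ∈ O, x ∈ S → x = 1 := by
    intro x hxO hxS
    obtain ⟨k, hk⟩ := hSpow x hxS
    exact trivial_of_odd_two x _ k hOodd (hOpow x hxO) hk
  -- step 1 : `A` centralizes `O` and `s` inverts `O`
  have hstep1 : (∀ a ∈ A, ∀ o ∈ O, a * o = o * a) ∧ (∀ y ∈ O, s * y * s⁻¹ = y⁻¹) := by
    by_cases hO : O = ⊥
    · constructor
      · intro a _ o ho
        rw [hO, Subgroup.mem_bot] at ho
        rw [ho]; simp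
      · intro y hy
        rw [hO, Subgroup.mem_bot] at hy
        rw [hy]; simp
    · obtain ⟨hBcyc, hBidx⟩ := ha hO
      have htB : t ∈ S ⊓ Subgroup.centralizer (O : Set G) := by
        refine Subgroup.mem_inf.mpr ⟨htS, Subgroup.mem_centralizer_iff.mpr ?_⟩
        intro o ho
        have := (memC o).mp (hOC ho)
        exact this.symm
      have hBA := hAuniq _ inf_le_left hBcyc hBidx htB
      constructor
      · intro a haA o ho
        have h1 : a ∈ S ⊓ Subgroup.centralizer (O : Set G) := by rw [hBA]; exact haA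
        have h2 := (Subgroup.mem_centralizer_iff.mp (Subgroup.mem_inf.mp h1).2) o ho
        exact h2.symm
      · have hsO : s ∉ Subgroup.centralizer (O : Set G) := by
          intro h
          apply hsA
          rw [← hBA]
          exact Subgroup.mem_inf.mpr ⟨hsS, h⟩
        exact hb s hsS hsO
  obtain ⟨hAO, hsinvO⟩ := hstep1
  have hKmem : ∀ x : G, x ∈ kSub O A hAO ↔ ∃ o ∈ O, ∃ a ∈ A, x = o * a := fun x => Iff.rfl
  have hsinvK : ∀ x ∈ kSub O A hAO, s * x * s⁻¹ = x⁻¹ := by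
    intro x hx
    obtain ⟨o, ho, a, haA, rfl⟩ := (hKmem x).mp hx
    have e1 : s * (o * a) * s⁻¹ = (s * o * s⁻¹) * (s * a * s⁻¹) := by group
    rw [e1, hsinvO o ho, (hAinv s hsS hsA).2 a haA, ← mul_inv_rev, hAO a haA o ho]
  have hKab : ∀ a ∈ kSub O A hAO, ∀ b ∈ kSub O A hAO, a * b = b * a :=
    abelian_of_inverted s _ hsinvK
  have hKC : kSub O A hAO ≤ Subgroup.centralizer ({t} : Set G) := by
    intro x hx
    obtain ⟨o, ho, a, haA, rfl⟩ := (hKmem x).mp hx
    exact Subgroup.mul_mem _ (hOC ho) (hSC (hAS haA))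
  have hOK : ∀ o ∈ O, o ∈ kSub O A hAO := by
    intro o ho
    exact (hKmem o).mpr ⟨o, ho, 1, A.one_mem, by simp⟩
  have hAK : ∀ a ∈ A, a ∈ kSub O A hAO := by
    intro a haA
    exact (hKmem a).mpr ⟨1, O.one_mem, a, haA, by simp⟩
  have htK : t ∈ kSub O A hAO := hAK t htA
  have hsC : s ∈ Subgroup.centralizer ({t} : Set G) := hSC hsS
  have hsK : s ∉ kSub O A hAO := by
    intro hs
    obtain ⟨o, ho, a, haA, hsoa⟩ := (hKmem s).mp hs
    have ho' : o = s * a⁻¹ := by rw [hsoa]; group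
    have hoS : o ∈ S := by rw [ho']; exact S.mul_mem hsS (S.inv_mem (hAS haA))
    have ho1 := hOS1 o ho hoS
    rw [ho1, one_mul] at hsoa
    rw [hsoa] at hsA
    exact hsA haA
  have hsq : ∀ x ∈ kSub O A hAO, x * x = 1 → x = 1 ∨ x = t := by
    intro x hx hxx
    obtain ⟨o, ho, a, haA, rfl⟩ := (hKmem x).mp hx
    have e1 : (o * a) * (o * a) = (o * o) * (a * a) := by
      calc (o * a) * (o * a) = o * (a * o) * a := by group
        _ = o * (o * a) * a := by rw [hAO a haA o ho]
        _ = (o * o) * (a * a) := by group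
    rw [e1] at hxx
    have hoo : o * o = (a * a)⁻¹ := eq_inv_of_mul_eq_one_left hxx
    have hooS : o * o ∈ S := by rw [hoo]; exact S.inv_mem (S.mul_mem (hAS haA) (hAS haA))
    have hoo1 : o * o = 1 := hOS1 _ (O.mul_mem ho ho) hooS
    have ho1 : o = 1 := by
      apply trivial_of_odd_two o (Nat.card O) 1 hOodd (hOpow o ho)
      rw [pow_one, pow_two]; exact hoo1
    rw [hoo1, one_mul] at hxx
    rcases hA2 a haA hxx with h | h
    · left; rw [ho1, h, one_mul]
    · right; rw [ho1, h, one_mul]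
  have hCcos : ∀ g ∈ Subgroup.centralizer ({t} : Set G),
      g ∈ kSub O A hAO ∨ g * s⁻¹ ∈ kSub O A hAO := by
    intro g hg
    obtain ⟨o, ho, x, hxS, rfl⟩ := hOS g hg
    rcases hcos x hxS with h | h
    · left; exact (hKmem _).mpr ⟨o, ho, x, h, rfl⟩
    · right; exact (hKmem _).mpr ⟨o, ho, x * s⁻¹, h, by group⟩
  have hH : kSub O A hAO ⊔ Subgroup.zpowers s = Subgroup.centralizer ({t} : Set G) := by
    apply le_antisymm
    · exact sup_le hKC ((Subgroup.zpowers_le).mpr hsC)
    · intro g hg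
      rcases hCcos g hg with h | h
      · exact Subgroup.mem_sup_left h
      · have e : g = (g * s⁻¹) * s := by group
        rw [e]
        exact Subgroup.mul_mem_sup h (Subgroup.mem_zpowers s)
  have hCK : kSub O A hAO ⊓ Subgroup.centralizer ({s} : Set G) = Subgroup.zpowers t := by
    ext x
    constructor
    · intro hx
      obtain ⟨hxK, hxs⟩ := Subgroup.mem_inf.mp hx
      have hxs' : s * x = x * s :=
        (Subgroup.mem_centralizer_iff.mp hxs) s (Set.mem_singleton s)
      have h1 := hsinvK x hxK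
      have h2 : s * x * s⁻¹ = x := by rw [hxs']; group
      rw [h2] at h1
      have h3 : x * x = 1 := by
        calc x * x = x * x⁻¹ := by rw [← h1]
          _ = 1 := mul_inv_cancel x
      rcases hsq x hxK h3 with h | h
      · rw [h]; exact Subgroup.one_mem _
      · rw [h]; exact Subgroup.mem_zpowers t
    · intro hx
      obtain ⟨n, rfl⟩ := Subgroup.mem_zpowers_iff.mp hx
      refine Subgroup.mem_inf.mpr ⟨Subgroup.zpow_mem _ htK n, Subgroup.mem_centralizer_iff.mpr ?_⟩
      intro y hy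
      rw [Set.mem_singleton_iff] at hy
      rw [hy]
      have hcomm : Commute s t := ((memC s).mp hsC).symm
      exact (hcomm.zpow_right n)
  have hTI : ∀ g : G, g ∉ Subgroup.centralizer ({t} : Set G) →
      kSub O A hAO ⊓ (kSub O A hAO).map (MulAut.conj g).toMonoidHom = ⊥ := by
    intro g hg
    rw [Subgroup.eq_bot_iff_forall]
    intro x hx
    obtain ⟨hxK, hxg⟩ := Subgroup.mem_inf.mp hx
    rw [mem_map_conj] at hxg
    by_contra hx1
    -- an involution of `K` conjugate into `K` under `g` forces `g ∈ C(t)`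
    have key : ∀ n : ℕ, x ^ n = t → False := by
      intro n hn
      have h1 : g⁻¹ * t * g ∈ kSub O A hAO := by
        rw [← hn, ← conj_pow']
        exact Subgroup.pow_mem _ hxg n
      have h2 : (g⁻¹ * t * g) * (g⁻¹ * t * g) = 1 := by
        calc (g⁻¹ * t * g) * (g⁻¹ * t * g) = g⁻¹ * (t * t) * g := by group
          _ = 1 := by rw [htt]; group
      rcases hsq _ h1 h2 with h | h
      · apply ht1
        calc t = g * (g⁻¹ * t * g) * g⁻¹ := by group
          _ = 1 := by rw [h]; group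
      · apply hg
        rw [memC]
        calc t * g = g * (g⁻¹ * t * g) := by group
          _ = g * t := by rw [h]
    obtain ⟨o, ho, a, haA, hxoa⟩ := (hKmem x).mp hxK
    by_cases ha1 : a = 1
    · -- `x ∈ O`
      rw [ha1, mul_one] at hxoa
      have hxO : x ∈ O := by rw [hxoa]; exact ho
      have hYO : Subgroup.zpowers x ≤ O := (Subgroup.zpowers_le).mpr hxO
      have hYne : Subgroup.zpowers x ≠ ⊥ := by
        intro h
        apply hx1
        have : x ∈ (⊥ : Subgroup G) := by rw [← h]; exact Subgroup.mem_zpowers x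
        exact Subgroup.mem_bot.mp this
      have hN := hc _ hYO hYne
      have hcomm0 : (g⁻¹ * x * g) * t = t * (g⁻¹ * x * g) := hKab _ hxg _ htK
      have hcomm : x * (g * t * g⁻¹) = (g * t * g⁻¹) * x := by
        calc x * (g * t * g⁻¹) = g * ((g⁻¹ * x * g) * t) * g⁻¹ := by group
          _ = g * (t * (g⁻¹ * x * g)) * g⁻¹ := by rw [hcomm0]
          _ = (g * t * g⁻¹) * x := by group
      have ht'cent : g * t * g⁻¹ ∈ Subgroup.centralizer ((Subgroup.zpowers x : Subgroup G) : Set G) := by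
        rw [Subgroup.mem_centralizer_iff]
        intro y hy
        obtain ⟨n, rfl⟩ := Subgroup.mem_zpowers_iff.mp hy
        have hc1 : Commute x (g * t * g⁻¹) := hcomm
        exact (hc1.zpow_left n)
      have ht'C : g * t * g⁻¹ ∈ Subgroup.centralizer ({t} : Set G) :=
        hN (Subgroup.centralizer_le_normalizer _ ht'cent)
      have ht'sq : (g * t * g⁻¹) * (g * t * g⁻¹) = 1 := by
        calc (g * t * g⁻¹) * (g * t * g⁻¹) = g * (t * t) * g⁻¹ := by group
          _ = 1 := by rw [htt]; group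
      rcases hCcos _ ht'C with h | h
      · rcases hsq _ h ht'sq with h' | h'
        · apply ht1
          calc t = g⁻¹ * (g * t * g⁻¹) * g := by group
            _ = 1 := by rw [h']; group
        · apply hg
          rw [memC]
          calc t * g = (g * t * g⁻¹) * g := by rw [h']
            _ = g * t := by group
      · -- `t' = k s` inverts `x`
        have e1 : (g * t * g⁻¹) * x * (g * t * g⁻¹)⁻¹ =
            (g * t * g⁻¹ * s⁻¹) * (s * x * s⁻¹) * (g * t * g⁻¹ * s⁻¹)⁻¹ := by group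
        have e2 : (g * t * g⁻¹) * x * (g * t * g⁻¹)⁻¹ = x := by
          rw [← hcomm]; group
        rw [e2, hsinvK x hxK] at e1
        have hxinvK : x⁻¹ ∈ kSub O A hAO := Subgroup.inv_mem _ hxK
        have e3 : (g * t * g⁻¹ * s⁻¹) * x⁻¹ = x⁻¹ * (g * t * g⁻¹ * s⁻¹) := hKab _ h _ hxinvK
        have e4 : x = x⁻¹ := by
          rw [e3] at e1
          calc x = x⁻¹ * (g * t * g⁻¹ * s⁻¹) * (g * t * g⁻¹ * s⁻¹)⁻¹ := e1
            _ = x⁻¹ := by group
        have e5 : x * x = 1 := by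
          calc x * x = x * x⁻¹ := by rw [← e4]
            _ = 1 := mul_inv_cancel x
        apply hx1
        apply trivial_of_odd_two x (Nat.card O) 1 hOodd (hOpow x hxO)
        rw [pow_one, pow_two]; exact e5
    · -- `x` has even order
      obtain ⟨k, hk⟩ := hSpow a (hAS haA)
      have hoa : Commute o a := (hAO a haA o ho).symm
      have hxm : x ^ Nat.card O = a ^ Nat.card O := by
        rw [hxoa, hoa.mul_pow, hOpow o ho, one_mul]
      have hy1 : a ^ Nat.card O ≠ 1 := by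
        intro h
        exact ha1 (trivial_of_odd_two a _ k hOodd h hk)
      have hyk : (a ^ Nat.card O) ^ (2 ^ k) = 1 := by
        rw [← pow_mul, mul_comm, pow_mul, hk, one_pow]
      obtain ⟨i, hi1, hi2⟩ := exists_invol_pow _ k hy1 hyk
      have hvA : (a ^ Nat.card O) ^ (2 ^ i) ∈ A := A.pow_mem (A.pow_mem haA _) _
      rcases hA2 _ hvA hi1 with h | h
      · exact hi2 h
      · apply key (Nat.card O * 2 ^ i)
        rw [pow_mul, hxm]
        exact h
  exact ⟨s, kSub O A hAO,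
    { ht := ht
      hKab := hKab
      hKH := hKC
      htK := htK
      hs := (hAinv s hsS hsA).1
      hsH := hsC
      hsK := hsK
      hH := hH
      hCK := hCK
      hinv := hsinvK
      hTI := hTI
      hconj := hconj }⟩

end Cfsg.Agent.Lib.Helper46.BSW
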