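import Mathlib
import Cfsg.Prelude.Def_GeometricClasses
import Cfsg.Prelude.Def_ClassicalGeometry
import Cfsg.Agent.Lib.Helper98.F75Defs

/-!
# S5975 piece F75-NORMMEM (helper87 for helper98)
-/

set_option autoImplicit false

universe u

namespace Cfsg.Agent.Lib.Helper98.F75

open Matrix Polynomial

/-! ### F75-NORMMEM -/
theorem mem_normalizer_of_semilinear {F : Type*} [Field F] {ι : Type} [Fintype ι]
    [DecidableEq ι] {L : Type*} [Field L] [Algebra F L] (K : Subalgebra F (Matrix ι ι F))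
    (ρ : L →ₐ[F] Matrix ι ι F) (hρ : ∀ a : Matrix ι ι F, a ∈ K ↔ ∃ c : L, ρ c = a)
    (τ : L → L) (hτ : Function.Surjective τ) (y : GL ι F)
    (hy : ∀ c : L, (y : Matrix ι ι F) * ρ c = ρ (τ c) * (y : Matrix ι ι F)) :
    y ∈ Cfsg.Geo.subalgebraNormalizer K := by
  show ∀ k : Matrix ι ι F,
    k ∈ K ↔ (y : Matrix ι ι F) * k * ((y⁻¹ : GL ι F) : Matrix ι ι F) ∈ K
  intro k
  have hconj : ∀ c : L,
      (y : Matrix ι ι F) * ρ c * ((y⁻¹ : GL ι F) : Matrix ι ι F) = ρ (τ c) := by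
    intro c
    rw [hy c, mul_assoc, Units.mul_inv, mul_one]
  constructor
  · intro hk
    obtain ⟨c, rfl⟩ := (hρ k).mp hk
    rw [hconj]
    exact (hρ _).mpr ⟨_, rfl⟩
  · intro hk
    obtain ⟨c', hc'⟩ := (hρ _).mp hk
    obtain ⟨c'', rfl⟩ := hτ c'
    rw [← hconj c''] at hc'
    have h1 : ρ c'' = ((y⁻¹ : GL ι F) : Matrix ι ι F) *
        ((y : Matrix ι ι F) * ρ c'' * ((y⁻¹ : GL ι F) : Matrix ι ι F)) * (y : Matrix ι ι F) := by
      simp [mul_assoc]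
    have h2 : k = ((y⁻¹ : GL ι F) : Matrix ι ι F) *
        ((y : Matrix ι ι F) * k * ((y⁻¹ : GL ι F) : Matrix ι ι F)) * (y : Matrix ι ι F) := by
      simp [mul_assoc]
    rw [h2, ← hc', ← h1]
    exact (hρ _).mpr ⟨_, rfl⟩

end Cfsg.Agent.Lib.Helper98.F75
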