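import Mathlib
import Cfsg.Agent.Lib.Helper26.Gross2DefsC
import Cfsg.Agent.Lib.Helper26.FpfBasic
import Cfsg.Agent.Lib.Helper26.FpfConj
import Cfsg.Agent.Lib.Helper31.GrossChain

/-!
# S3795, piece CARD2 (helper87): `Card2CoreStmt → Card2Stmt` (quotient plumbing)
-/

set_option autoImplicit false
set_option linter.unusedSectionVars false
set_option linter.unusedVariables false
open scoped commutatorElement

namespace Cfsg.Agent.Lib.Helper26.Gross2

open Cfsg.Agent.Lib.Helper26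
open Cfsg.Agent.Lib.Helper31

universe u

/-- a quotient with all commutators in the kernel is commutative -/
@[reducible] def card2_commGroup {H : Type u} [Group H] (N : Subgroup H) [N.Normal]
    (h : ∀ x y : H, ⁅x, y⁆ ∈ N) : CommGroup (H ⧸ N) :=
  { QuotientGroup.Quotient.group N with
    mul_comm := by
      intro a b
      induction a using QuotientGroup.induction_on with
      | H x =>
        induction b using QuotientGroup.induction_on with
        | H y =>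
          show (QuotientGroup.mk (x * y) : H ⧸ N) = QuotientGroup.mk (y * x)
          rw [QuotientGroup.eq]
          have h1 := h y⁻¹ x⁻¹
          have e : (x * y)⁻¹ * (y * x) = ⁅y⁻¹, x⁻¹⁆ := by
            rw [commutatorElement_def]
            group
          rw [e]
          exact h1 }

/-- the abstract quotient step -/
theorem card2_quot (hC : Card2CoreStmt.{u}) (H : Type u) [Group H] [Finite H] (N : Subgroup H)
    [N.Normal] (hcomm : ∀ x y : H, ⁅x, y⁆ ∈ N) (hN : N ≠ ⊤) (ℓ a j : ℕ) (hℓ : ℓ.Prime)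
    (hℓ2 : ℓ ≠ 2) (hH : IsPGroup ℓ H) (haj : a = 2 ^ j) (ha : 1 < a) (σ : MulAut H)
    (hσN : N.map (σ : H →* H) = N) (hσa : σ ^ a = 1)
    (hfpf : ∀ i : ℕ, 0 < i → i < a → ∀ x : H, x⁻¹ * (σ ^ i) x ∈ N → x ∈ N)
    (k : Type) [Field k] (b : H → H → k)
    (hb1 : ∀ x x' y, b (x * x') y = b x y * b x' y)
    (hb2 : ∀ x y y', b x (y * y') = b x y * b x y')
    (hb3 : ∀ x, b x x = 1) (hbN : ∀ x, (∀ y, b x y = 1) → x ∈ N)
    (hbN1 : ∀ r ∈ N, ∀ y, b r y = 1) (hbN2 : ∀ r ∈ N, ∀ x, b x r = 1)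
    (hbσ : ∀ x y, b (σ x) (σ y) = b x y)
    (hcard : Nat.card H ≤ (a - 1) ^ 2 * Nat.card N) :
    Nat.card H = ℓ ^ 2 * Nat.card N ∧ a = ℓ + 1 := by
  have hnt : Nontrivial (H ⧸ N) := by
    have h1 : ∃ x : H, x ∉ N := by
      by_contra hcon
      push Not at hcon
      exact hN (eq_top_iff.mpr fun x _ => hcon x)
    obtain ⟨x, hx⟩ := h1
    refine ⟨⟨(QuotientGroup.mk x : H ⧸ N), 1, ?_⟩⟩
    intro h
    exact hx ((QuotientGroup.eq_one_iff x).mp h)
  -- the automorphism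
  have h_ta : (quotAut σ N hσN : MulAut (H ⧸ N)) ^ a = 1 := by
    apply MulEquiv.ext
    intro x
    induction x using QuotientGroup.induction_on with
    | H x => rw [gross_quotAut_pow_mk, hσa]; rfl
  have h_fpf : ∀ i : ℕ, 0 < i → i < a → ∀ x : H ⧸ N,
      ((quotAut σ N hσN : MulAut (H ⧸ N)) ^ i) x = x → x = 1 := by
    intro i hi0 hia x
    induction x using QuotientGroup.induction_on with
    | H x =>
      intro hx
      rw [gross_quotAut_pow_mk] at hx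
      have h1 : ((σ ^ i) x)⁻¹ * x ∈ N := QuotientGroup.eq.mp hx
      have h2 : x⁻¹ * (σ ^ i) x ∈ N := by
        have h3 := N.inv_mem h1
        rwa [mul_inv_rev, inv_inv] at h3
      exact (QuotientGroup.eq_one_iff x).mpr (hfpf i hi0 hia x h2)
  -- the pairing
  let β : H ⧸ N → H ⧸ N → k := fun x y => b x.out y.out
  have hβ : ∀ x y : H, β (QuotientGroup.mk x) (QuotientGroup.mk y) = b x y := by
    intro x y
    obtain ⟨r, hr⟩ := QuotientGroup.mk_out_eq_mul N x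
    obtain ⟨r', hr'⟩ := QuotientGroup.mk_out_eq_mul N y
    show b (QuotientGroup.mk x : H ⧸ N).out (QuotientGroup.mk y : H ⧸ N).out = b x y
    rw [hr, hr']
    simp only [hb1, hb2, hbN1 (r : H) r.2, hbN2 (r' : H) r'.2, mul_one]
  have h_β1 : ∀ x x' y : H ⧸ N, β (x * x') y = β x y * β x' y := by
    intro x x' y
    induction x using QuotientGroup.induction_on with
    | H x =>
      induction x' using QuotientGroup.induction_on with
      | H x' =>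
        induction y using QuotientGroup.induction_on with
        | H y =>
          have e : (QuotientGroup.mk x : H ⧸ N) * QuotientGroup.mk x' =
            QuotientGroup.mk (x * x') := rfl
          rw [e, hβ, hβ, hβ, hb1]
  have h_β2 : ∀ x y y' : H ⧸ N, β x (y * y') = β x y * β x y' := by
    intro x y y'
    induction x using QuotientGroup.induction_on with
    | H x =>
      induction y using QuotientGroup.induction_on with
      | H y =>
        induction y' using QuotientGroup.induction_on with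
        | H y' =>
          have e : (QuotientGroup.mk y : H ⧸ N) * QuotientGroup.mk y' =
            QuotientGroup.mk (y * y') := rfl
          rw [e, hβ, hβ, hβ, hb2]
  have h_β3 : ∀ x : H ⧸ N, β x x = 1 := by
    intro x
    induction x using QuotientGroup.induction_on with
    | H x => rw [hβ, hb3]
  have h_β4 : ∀ x : H ⧸ N, (∀ y : H ⧸ N, β x y = 1) → x = 1 := by
    intro x
    induction x using QuotientGroup.induction_on with
    | H x =>
      intro hx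
      apply (QuotientGroup.eq_one_iff x).mpr
      apply hbN
      intro y
      have := hx (QuotientGroup.mk y)
      rwa [hβ] at this
  have h_β5 : ∀ x y : H ⧸ N, β (quotAut σ N hσN x) (quotAut σ N hσN y) = β x y := by
    intro x y
    induction x using QuotientGroup.induction_on with
    | H x =>
      induction y using QuotientGroup.induction_on with
      | H y => rw [quotAut_mk, quotAut_mk, hβ, hβ, hbσ]
  -- cardinalities
  have hc1 : Nat.card H = Nat.card (H ⧸ N) * Nat.card N :=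
    Subgroup.card_eq_card_quotient_mul_card_subgroup N
  have hNpos : 0 < Nat.card N := Nat.card_pos
  have hcA : Nat.card (H ⧸ N) ≤ (a - 1) ^ 2 := by
    rw [hc1] at hcard
    exact Nat.le_of_mul_le_mul_right hcard hNpos
  have key := @hC (H ⧸ N) (card2_commGroup N hcomm) inferInstance hnt ℓ a j hℓ hℓ2
    (hH.to_quotient N) haj ha (quotAut σ N hσN) h_ta h_fpf k _ β h_β1 h_β2 h_β3 h_β4 h_β5 hcA
  exact ⟨by rw [hc1, key.1], key.2⟩

/-- `ψ = φ ^ 2 ^ n` is a power of every nontrivial power of `φ` -/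
theorem card2_psi_mem {Γ : Type*} [Group Γ] (φ : Γ) (n m : ℕ) (hφ : φ ^ 2 ^ (n + 1) = 1)
    (hm : φ ^ m ≠ 1) : ∃ l : ℕ, φ ^ 2 ^ n = (φ ^ m) ^ l := by
  have hm0 : m ≠ 0 := by
    rintro rfl
    exact hm (pow_zero φ)
  obtain ⟨e, m', hm', rfl⟩ := Nat.exists_eq_pow_mul_and_not_dvd hm0 2 (by norm_num)
  have he : e ≤ n := by
    by_contra hcon
    push Not at hcon
    apply hm
    have h1 : 2 ^ (n + 1) ∣ 2 ^ e * m' := Dvd.dvd.mul_right (pow_dvd_pow 2 hcon) m'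
    obtain ⟨c, hc⟩ := h1
    rw [hc, pow_mul, hφ, one_pow]
  have hcop : Nat.Coprime m' 2 := ((Nat.Prime.coprime_iff_not_dvd Nat.prime_two).mpr hm').symm
  obtain ⟨l, -, hl⟩ := Nat.exists_mul_mod_eq_one_of_coprime hcop one_lt_two
  refine ⟨2 ^ (n - e) * l, ?_⟩
  rw [← pow_mul]
  have e1 : 2 ^ e * m' * (2 ^ (n - e) * l) = 2 ^ n * (m' * l) := by
    have h2 : 2 ^ n = 2 ^ e * 2 ^ (n - e) := by
      rw [← pow_add]
      congr 1
      omega
    rw [h2]
    ring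
  have hψ2 : (φ ^ 2 ^ n) ^ 2 = 1 := by
    rw [← pow_mul, ← pow_succ]
    exact hφ
  rw [e1, pow_mul, pow_eq_pow_mod (m' * l) hψ2, hl, pow_one]

theorem gross2_card2 (hC : Card2CoreStmt.{u}) : Card2Stmt.{u} := by
  intro Γ _ _ ℓ n P φ hInv k _ χ R hχ hRP N a hNa ha hχt hcard
  have hℓ := hInv.hℓ
  have hℓ2 := hInv.hℓ2
  obtain ⟨t₀, ht₀⟩ : ∃ t₀ : Γ, t₀ = φ ^ N := ⟨_, rfl⟩
  obtain ⟨ψ, hψ⟩ : ∃ ψ : Γ, ψ = φ ^ 2 ^ n := ⟨_, rfl⟩
  rw [← ht₀] at hχt
  -- class two calculus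
  have hcm : ∀ x ∈ P, ∀ y ∈ P, ⁅x, y⁆ ∈ P := by
    intro x hx y hy
    rw [commutatorElement_def]
    exact P.mul_mem (P.mul_mem (P.mul_mem hx hy) (P.inv_mem hx)) (P.inv_mem hy)
  have hcZ : ∀ x ∈ P, ∀ y ∈ P, ⁅x, y⁆ ∈ P ⊓ Subgroup.centralizer (P : Set Γ) := by
    intro x hx y hy
    refine Subgroup.mem_inf.mpr ⟨hcm x hx y hy, ?_⟩
    rw [Subgroup.mem_centralizer_iff]
    intro w hw
    exact (hInv.hc2 x hx y hy w hw).symm
  have hcml : ∀ x ∈ P, ∀ x' ∈ P, ∀ y ∈ P, ⁅x * x', y⁆ = ⁅x, y⁆ * ⁅x', y⁆ := by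
    intro x hx x' hx' y hy
    have e1 : ⁅x * x', y⁆ = x * ⁅x', y⁆ * x⁻¹ * ⁅x, y⁆ := by
      simp only [commutatorElement_def]
      group
    have e2 : x * ⁅x', y⁆ * x⁻¹ = ⁅x', y⁆ := by
      rw [← hInv.hc2 x' hx' y hy x hx, mul_inv_cancel_right]
    rw [e1, e2]
    exact hInv.hc2 x' hx' y hy _ (hcm x hx y hy)
  have hcmr : ∀ x ∈ P, ∀ y ∈ P, ∀ y' ∈ P, ⁅x, y * y'⁆ = ⁅x, y⁆ * ⁅x, y'⁆ := by
    intro x hx y hy y' hy'
    have e1 : ⁅x, y * y'⁆ = ⁅x, y⁆ * (y * ⁅x, y'⁆ * y⁻¹) := by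
      simp only [commutatorElement_def]
      group
    have e2 : y * ⁅x, y'⁆ * y⁻¹ = ⁅x, y'⁆ := by
      rw [← hInv.hc2 x hx y' hy' y hy, mul_inv_cancel_right]
    rw [e1, e2]
  -- facts on `χ` and `R`
  have hχinv : ∀ z ∈ P ⊓ Subgroup.centralizer (P : Set Γ), χ z = 1 → χ z⁻¹ = 1 := by
    intro z hz h1
    have h2 := hχ.hmul z⁻¹ (Subgroup.inv_mem _ hz) z hz
    rw [inv_mul_cancel, hχ.h1, h1, mul_one] at h2
    exact h2.symm
  have hZR : ∀ z ∈ P ⊓ Subgroup.centralizer (P : Set Γ), z ∈ R := by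
    intro z hz
    refine hχ.center_le z hz.1 (fun w hw => ?_)
    exact (Subgroup.mem_centralizer_iff.mp hz.2 w hw).symm
  have hRP' : R ≤ P := hχ.le
  have hR1 : ∀ r ∈ R, ∀ y ∈ P, χ ⁅r, y⁆ = 1 := fun r hr y hy => ((hχ.hR r).mp hr).2 y hy
  have hR2 : ∀ r ∈ R, ∀ x ∈ P, χ ⁅x, r⁆ = 1 := by
    intro r hr x hx
    have e : ⁅x, r⁆ = ⁅r, x⁆⁻¹ := (commutatorElement_inv r x).symm
    rw [e]
    exact hχinv _ (hcZ r (hRP' hr) x hx) (hR1 r hr x hx)
  have hRnorm : ∀ g ∈ P, ∀ x ∈ R, g * x * g⁻¹ ∈ R := by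
    intro g hg x hx
    have e : g * x * g⁻¹ = ⁅g, x⁆ * x := by
      rw [commutatorElement_def]
      group
    rw [e]
    exact R.mul_mem (hZR _ (hcZ g hg x (hRP' hx))) hx
  -- facts on `t₀`
  have hNpos : 0 < N := by
    rcases Nat.eq_zero_or_pos N with h | h
    · rw [h, zero_mul] at hNa
      exact absurd hNa.symm (pow_ne_zero _ (by norm_num))
    · exact h
  have ht₀a : t₀ ^ a = 1 := by
    rw [ht₀, ← pow_mul, hNa]
    exact hInv.hφ
  have ht₀P : ∀ x ∈ P, t₀ * x * t₀⁻¹ ∈ P := by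
    rw [ht₀]
    exact gross_pow_conj_mem P hInv.hnorm N
  have ht₀P' : ∀ x ∈ P, t₀⁻¹ * x * t₀ ∈ P := gross_inv_conj_mem P (by omega) ht₀a ht₀P
  have ht₀R : ∀ x ∈ R, t₀ * x * t₀⁻¹ ∈ R := by
    intro x hx
    have hxP := hRP' hx
    refine (hχ.hR _).mpr ⟨ht₀P x hxP, fun y hy => ?_⟩
    have hy' : t₀⁻¹ * y * t₀ ∈ P := ht₀P' y hy
    have e : ⁅t₀ * x * t₀⁻¹, y⁆ = t₀ * ⁅x, t₀⁻¹ * y * t₀⁆ * t₀⁻¹ := by
      simp only [commutatorElement_def]
      group
    rw [e, hχt _ (hcZ x hxP _ hy'), hR1 x hx _ hy']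
  -- the odd order trick
  have hodd : ∀ x ∈ P, ∃ e : ℕ, x = (x * x) ^ e := by
    intro x hx
    obtain ⟨m, hm⟩ := hInv.hP ⟨x, hx⟩
    have hm' : x ^ ℓ ^ m = 1 := by
      have := congrArg Subtype.val hm
      simpa using this
    have hoddℓ : Odd (ℓ ^ m) := (hℓ.odd_of_ne_two hℓ2).pow
    obtain ⟨c, hc⟩ := hoddℓ
    refine ⟨c + 1, ?_⟩
    rw [← pow_two, ← pow_mul]
    have h2 : 2 * (c + 1) = ℓ ^ m + 1 := by omega
    rw [h2, pow_succ, hm', one_mul]
  -- facts on `ψ`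
  have hψP : ∀ x ∈ P, ψ * x * ψ⁻¹ ∈ P := by
    rw [hψ]
    exact gross_pow_conj_mem P hInv.hnorm (2 ^ n)
  have hinvψ : ∀ x ∈ P, ∀ w ∈ P, (x * (ψ * x * ψ⁻¹)) * w = w * (x * (ψ * x * ψ⁻¹)) := by
    rw [hψ]
    exact hInv.hinv
  have hψ1 : ψ ≠ 1 := by
    intro h1
    obtain ⟨x, hx, y, hy, hxy⟩ := hInv.hnab
    apply hxy
    have hxx : ∀ w ∈ P, (x * x) * w = w * (x * x) := by
      intro w hw
      have h2 := hinvψ x hx w hw
      rw [h1, one_mul, inv_one, mul_one] at h2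
      exact h2
    obtain ⟨e, he⟩ := hodd x hx
    rw [he]
    exact ((show Commute (x * x) y from hxx y hy).pow_left e).eq
  have hord : orderOf φ = 2 ^ (n + 1) := by
    have h1 : orderOf φ ∣ 2 ^ (n + 1) := orderOf_dvd_of_pow_eq_one hInv.hφ
    obtain ⟨j', hj', hj''⟩ := (Nat.dvd_prime_pow Nat.prime_two).mp h1
    rcases Nat.lt_or_ge j' (n + 1) with hlt | hge
    · exfalso
      apply hψ1
      have h2 : 2 ^ j' ∣ 2 ^ n := pow_dvd_pow 2 (by omega)
      rw [← hj''] at h2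
      rw [hψ]
      exact orderOf_dvd_iff_pow_eq_one.mp h2
    · rw [hj'', le_antisymm hj' hge]
  have hs1 : ∀ i : ℕ, 0 < i → i < a → φ ^ (N * i) ≠ 1 := by
    intro i hi0 hia h1
    have h2 : orderOf φ ∣ N * i := orderOf_dvd_of_pow_eq_one h1
    rw [hord] at h2
    have h3 : N * i < N * a := Nat.mul_lt_mul_of_pos_left hia hNpos
    have h4 : 0 < N * i := Nat.mul_pos hNpos hi0
    have h5 := Nat.le_of_dvd h4 h2
    rw [hNa] at h3
    exact absurd h5 (not_le.mpr h3)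
  -- fixed-point-freeness modulo `R`
  have hfpfR : ∀ i : ℕ, 0 < i → i < a → ∀ x ∈ P,
      x⁻¹ * (t₀ ^ i * x * (t₀ ^ i)⁻¹) ∈ R → x ∈ R := by
    intro i hi0 hia x hx hxs
    have hsR : ∀ y ∈ R, t₀ ^ i * y * (t₀ ^ i)⁻¹ ∈ R := gross_pow_conj_mem R ht₀R i
    obtain ⟨l, hl⟩ := card2_psi_mem φ n (N * i) hInv.hφ (hs1 i hi0 hia)
    have hl' : ψ = (t₀ ^ i) ^ l := by
      rw [hψ, ht₀, ← pow_mul φ N i]
      exact hl
    have h1 := gross_sl_pow R hsR hxs l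
    rw [← hl'] at h1
    have hc : x * (ψ * x * ψ⁻¹) ∈ R := by
      refine hZR _ (Subgroup.mem_inf.mpr ⟨P.mul_mem hx (hψP x hx), ?_⟩)
      rw [Subgroup.mem_centralizer_iff]
      intro w hw
      exact (hinvψ x hx w hw).symm
    have e : (x * x)⁻¹ = (x⁻¹ * (ψ * x * ψ⁻¹)) * (x * (ψ * x * ψ⁻¹))⁻¹ := by group
    have hxx : x * x ∈ R := by
      have h2 := R.mul_mem h1 (R.inv_mem hc)
      rw [← e] at h2
      exact (Subgroup.inv_mem_iff R).mp h2
    obtain ⟨e', he'⟩ := hodd x hx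
    rw [he']
    exact R.pow_mem hxx e'
  -- the quotient data
  have hRn : (R.subgroupOf P).Normal := by
    constructor
    intro x hx g
    rw [Subgroup.mem_subgroupOf] at hx ⊢
    exact hRnorm g g.2 x hx
  let σ : MulAut ↥P := conjAutOf P t₀ ht₀P ht₀P'
  have hσpow : ∀ (i : ℕ) (x : ↥P), (((σ ^ i) x : ↥P) : Γ) = t₀ ^ i * x * (t₀ ^ i)⁻¹ := by
    intro i
    induction i with
    | zero =>
      intro x
      simp
    | succ i ih =>
      intro x
      rw [pow_succ, MulAut.mul_apply, ih]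
      show t₀ ^ i * (t₀ * (x : Γ) * t₀⁻¹) * (t₀ ^ i)⁻¹ = t₀ ^ (i + 1) * x * (t₀ ^ (i + 1))⁻¹
      rw [pow_succ]
      group
  have hσN : (R.subgroupOf P).map (σ : ↥P →* ↥P) = R.subgroupOf P := by
    apply map_eq_of_forall_mem
    intro x hx
    rw [Subgroup.mem_subgroupOf] at hx ⊢
    exact ht₀R x hx
  have hσa : σ ^ a = 1 := by
    apply MulEquiv.ext
    intro x
    apply Subtype.ext
    rw [hσpow, ht₀a]
    simp
  have hcomm : ∀ x y : ↥P, ⁅x, y⁆ ∈ R.subgroupOf P := by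
    intro x y
    rw [Subgroup.mem_subgroupOf]
    have e : ((⁅x, y⁆ : ↥P) : Γ) = ⁅(x : Γ), (y : Γ)⁆ := rfl
    rw [e]
    exact hZR _ (hcZ x x.2 y y.2)
  have hNtop : R.subgroupOf P ≠ ⊤ := by
    intro h
    apply hRP
    apply le_antisymm hRP'
    intro x hx
    have h1 : (⟨x, hx⟩ : ↥P) ∈ R.subgroupOf P := by
      rw [h]
      exact Subgroup.mem_top _
    exact Subgroup.mem_subgroupOf.mp h1
  have hfpf : ∀ i : ℕ, 0 < i → i < a → ∀ x : ↥P,
      x⁻¹ * (σ ^ i) x ∈ R.subgroupOf P → x ∈ R.subgroupOf P := by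
    intro i hi0 hia x hx
    rw [Subgroup.mem_subgroupOf] at hx ⊢
    have e : ((x⁻¹ * (σ ^ i) x : ↥P) : Γ) = (x : Γ)⁻¹ * (t₀ ^ i * x * (t₀ ^ i)⁻¹) := by
      rw [Subgroup.coe_mul, Subgroup.coe_inv, hσpow]
    rw [e] at hx
    exact hfpfR i hi0 hia x x.2 hx
  obtain ⟨j, hj, haj⟩ := (Nat.dvd_prime_pow Nat.prime_two).mp (Dvd.intro_left N hNa)
  have hcR : Nat.card ↥(R.subgroupOf P) = Nat.card ↥R :=
    Nat.card_congr (Subgroup.subgroupOfEquivOfLe hRP').toEquiv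
  have key := card2_quot hC ↥P (R.subgroupOf P) hcomm hNtop ℓ a j hℓ hℓ2 hInv.hP haj ha σ hσN
    hσa hfpf k (fun x y => χ ⁅(x : Γ), (y : Γ)⁆) ?_ ?_ ?_ ?_ ?_ ?_ ?_ ?_
  · rw [hcR] at key
    exact key
  · intro x x' y
    show χ ⁅(x : Γ) * (x' : Γ), (y : Γ)⁆ = _
    rw [hcml x x.2 x' x'.2 y y.2]
    exact hχ.hmul _ (hcZ x x.2 y y.2) _ (hcZ x' x'.2 y y.2)
  · intro x y y'
    show χ ⁅(x : Γ), (y : Γ) * (y' : Γ)⁆ = _
    rw [hcmr x x.2 y y.2 y' y'.2]
    exact hχ.hmul _ (hcZ x x.2 y y.2) _ (hcZ x x.2 y' y'.2)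
  · intro x
    show χ ⁅(x : Γ), (x : Γ)⁆ = 1
    rw [commutatorElement_self, hχ.h1]
  · intro x hx
    rw [Subgroup.mem_subgroupOf]
    exact (hχ.hR x).mpr ⟨x.2, fun y hy => hx ⟨y, hy⟩⟩
  · intro r hr y
    exact hR1 r (Subgroup.mem_subgroupOf.mp hr) y y.2
  · intro r hr x
    exact hR2 r (Subgroup.mem_subgroupOf.mp hr) x x.2
  · intro x y
    show χ ⁅t₀ * (x : Γ) * t₀⁻¹, t₀ * (y : Γ) * t₀⁻¹⁆ = χ ⁅(x : Γ), (y : Γ)⁆
    have e : ⁅t₀ * (x : Γ) * t₀⁻¹, t₀ * (y : Γ) * t₀⁻¹⁆ = t₀ * ⁅(x : Γ), (y : Γ)⁆ * t₀⁻¹ := by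
      simp only [commutatorElement_def]
      group
    rw [e, hχt _ (hcZ x x.2 y y.2)]
  · rw [hcR]
    exact hcard

end Cfsg.Agent.Lib.Helper26.Gross2
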