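import Cfsg.Agent.Lib.Helper98.H74Defs

/-!
# Project H74 (S5974), piece CH4: `cpx_typ_four`

An isometry `g` with `g² = -1` over a finite field in which `-1` is a nonsquare makes the space a
vector space over `F[g] = F_{q²}`, and `Q (a v + b g v) = (a² + b²) Q v`.  Hence the nonzero
singular vectors of an invariant subspace `W` fall into classes (punctured `F[g]`-lines) of size
`q² - 1`, and the value count of a `(k, +)` space gives `q² - 1 ∣ (q - 1) (q^k + 1) + …`, which
forces `k` to be odd.  (No sibling piece is used.)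
-/

set_option autoImplicit false

namespace Cfsg.Agent.Lib.Helper98.H74

open Cfsg.Agent.Lib.Helper47 Cfsg.Agent.Lib.Helper98.T73 Module Polynomial

universe u

/-- A finite set all of whose `f`-fibres have `m` elements has cardinality divisible by `m`. -/
lemma ch4_dvd_ncard {α β : Type*} [Finite α] (S : Set α) (f : α → β) (m : ℕ)
    (h : ∀ v ∈ S, {w | w ∈ S ∧ f w = f v}.ncard = m) : m ∣ S.ncard := by
  classical
  have := Fintype.ofFinite α
  rw [Set.ncard_eq_toFinset_card' S, Finset.card_eq_sum_card_image f S.toFinset]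
  apply Finset.dvd_sum
  intro b hb
  obtain ⟨v, hv, rfl⟩ := Finset.mem_image.mp hb
  have hv' : v ∈ S := by simpa using hv
  rw [← h v hv', Set.ncard_eq_toFinset_card']
  apply dvd_of_eq
  congr 1
  ext w
  simp

lemma ch4_ncard_ne_zero {F : Type*} [Field F] [Fintype F] :
    ({p : F × F | p ≠ 0}).ncard = Fintype.card F ^ 2 - 1 := by
  have h1 : ({p : F × F | p ≠ 0}) = ({0} : Set (F × F))ᶜ := by
    ext p
    simp
  rw [h1, Set.ncard_compl, Set.ncard_singleton, Nat.card_prod, Nat.card_eq_fintype_card, sq]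

/-- The arithmetic: `q² - 1 ∣ q^(2k+1) + (q-1) q^k - 1` forces `k` odd. -/
lemma ch4_arith (q : ℤ) (hq : 2 ≤ q) (k : ℕ)
    (h : (q ^ 2 - 1) ∣ q ^ (2 * k + 1) + (q - 1) * q ^ k - 1) : Odd k := by
  by_contra hk
  rw [Nat.not_odd_iff_even] at hk
  obtain ⟨j, rfl⟩ := hk
  have h1 : q ^ 2 ≡ 1 [ZMOD (q ^ 2 - 1)] := by
    rw [Int.modEq_iff_dvd]
    exact ⟨-1, by ring⟩
  have h2 : q ^ (2 * (j + j) + 1) + (q - 1) * q ^ (j + j) - 1 ≡ 2 * (q - 1) [ZMOD (q ^ 2 - 1)] := by
    have e1 : q ^ (2 * (j + j) + 1) + (q - 1) * q ^ (j + j) - 1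
        = (q ^ 2) ^ (j + j) * q + (q - 1) * (q ^ 2) ^ j - 1 := by ring
    rw [e1]
    have e2 : (2 : ℤ) * (q - 1) = 1 ^ (j + j) * q + (q - 1) * 1 ^ j - 1 := by ring
    rw [e2]
    exact ((((h1.pow _).mul_right _).add ((h1.pow _).mul_left _)).sub_right _)
  have h3 : (q ^ 2 - 1) ∣ 2 * (q - 1) := by
    have := (Int.modEq_zero_iff_dvd.mpr h)
    exact Int.modEq_zero_iff_dvd.mp (h2.symm.trans this)
  have h4 : (q + 1) * (q - 1) ∣ 2 * (q - 1) := by
    have e : (q + 1) * (q - 1) = q ^ 2 - 1 := by ring
    rw [e]; exact h3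
  have h5 : (q + 1) ∣ 2 := (mul_dvd_mul_iff_right (by omega : q - 1 ≠ 0)).mp h4
  have h6 := Int.le_of_dvd (by norm_num) h5
  omega

/-- a linear combination of `a x + b y` and `-b x + a y` -/
lemma ch4_comb {F V : Type*} [Field F] [AddCommGroup V] [Module F V] (a b c d : F) (x y : V) :
    c • (a • x + b • y) + d • ((-b) • x + a • y) = (c * a - d * b) • x + (c * b + d * a) • y := by
  module

variable {F : Type u} [Field F] [Fintype F] {V : Type u} [AddCommGroup V] [Module F V]
  [FiniteDimensional F V] {Q : V → F} {B : V → V → F}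

/-- CH4 -/
theorem cpx_typ_four (hf : QFacts F) (h2 : (2 : F) ≠ 0) (hns : ¬ IsSquare (-1 : F))
    (hQ : IsQuad Q B) (hnd : Nondeg B) (p : ℕ) [Fact p.Prime] [CharP F p]
    (g : Module.End F V) (hgQ : QI Q g) (hg : g * g = -1) (k : ℕ) (W : Submodule F V)
    (hW : SubTyp Q B W k 1) (hWg : W.map g ≤ W) : Odd k := by
  have hfinV : Finite V := Module.finite_of_finite F
  have hgg : ∀ x, g (g x) = -x := fun x => by
    have := congrArg (fun h : Module.End F V => h x) hg
    simpa using this
  have hB0 : ∀ v, B v (g v) = 0 := by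
    intro v
    have h1 : B (g v) (g (g v)) = B v (g v) := hQ.isometry hQ g hgQ v (g v)
    rw [hgg, hQ.form.neg_right, sym_comm hQ.form v (g v)] at h1
    have h3 : (2 : F) * B v (g v) = 0 := by linear_combination -h1
    exact (mul_eq_zero.mp h3).resolve_left h2
  have hQab : ∀ (a b : F) (v : V), Q (a • v + b • g v) = (a ^ 2 + b ^ 2) * Q v := by
    intro a b v
    rw [hQ.polar, hQ.smul, hQ.smul, hgQ v, hQ.form.smul_left, hQ.form.smul_right, hB0]
    simp only [RingHom.id_apply]
    ring
  have hsq : ∀ a b : F, a ^ 2 + b ^ 2 = 0 → a = 0 ∧ b = 0 := by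
    intro a b hab
    by_cases hb : b = 0
    · subst hb
      refine ⟨?_, rfl⟩
      have : a ^ 2 = 0 := by linear_combination hab
      exact pow_eq_zero_iff (two_ne_zero) |>.mp this
    · exfalso
      apply hns
      refine ⟨a / b, ?_⟩
      field_simp
      linear_combination -hab
  have hli : ∀ (a b : F) (v : V), v ≠ 0 → a • v + b • g v = 0 → a = 0 ∧ b = 0 := by
    intro a b v hv h0
    have h1 : a • g v - b • v = 0 := by
      have := congrArg g h0
      rw [map_add, map_smul, map_smul, hgg, map_zero, smul_neg] at this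
      rw [sub_eq_add_neg]; exact this
    have h3 : (a ^ 2 + b ^ 2) • v = 0 := by
      have : (a ^ 2 + b ^ 2) • v = a • (a • v + b • g v) - b • (a • g v - b • v) := by
        simp only [smul_add, smul_sub, smul_smul, add_smul, sq]
        rw [mul_comm b a]
        abel
      rw [this, h0, h1, smul_zero, smul_zero, sub_zero]
    rcases smul_eq_zero.mp h3 with h4 | h4
    · exact hsq a b h4
    · exact absurd h4 hv
  have hWg' : ∀ v ∈ W, g v ∈ W := fun v hv => hWg (Submodule.mem_map_of_mem hv)
  -- the nonzero singular vectors of `W`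
  set S : Set V := {v | v ∈ W ∧ Q v = 0 ∧ v ≠ 0} with hS
  have hdvd : (Fintype.card F ^ 2 - 1) ∣ S.ncard := by
    apply ch4_dvd_ncard S (fun v => Submodule.span F ({v, g v} : Set V))
    intro v hv
    obtain ⟨hvW, hv0, hvne⟩ := hv
    have himg : {w | w ∈ S ∧ Submodule.span F ({w, g w} : Set V) = Submodule.span F ({v, g v} : Set V)}
        = (fun p : F × F => p.1 • v + p.2 • g v) '' {p : F × F | p ≠ 0} := by
      ext w
      constructor
      · rintro ⟨⟨hwW, hw0, hwne⟩, hsp⟩
        have hw : w ∈ Submodule.span F ({v, g v} : Set V) := by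
          rw [← hsp]; exact Submodule.subset_span (by simp)
        obtain ⟨a, b, rfl⟩ := Submodule.mem_span_pair.mp hw
        refine ⟨(a, b), ?_, rfl⟩
        rintro hab
        apply hwne
        have ha : a = 0 := congrArg Prod.fst hab
        have hb : b = 0 := congrArg Prod.snd hab
        rw [ha, hb]; simp
      · rintro ⟨⟨a, b⟩, hab, rfl⟩
        have hab' : a ^ 2 + b ^ 2 ≠ 0 := by
          intro h0
          obtain ⟨ha, hb⟩ := hsq a b h0
          exact hab (by rw [ha, hb]; rfl)
        have hgw : g (a • v + b • g v) = (-b) • v + a • g v := by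
          rw [map_add, map_smul, map_smul, hgg, smul_neg, neg_smul]; abel
        refine ⟨⟨?_, ?_, ?_⟩, ?_⟩
        · exact W.add_mem (W.smul_mem _ hvW) (W.smul_mem _ (hWg' v hvW))
        · show Q (a • v + b • g v) = 0
          rw [hQab, hv0, mul_zero]
        · intro h0
          obtain ⟨ha, hb⟩ := hli a b v hvne h0
          exact hab (by rw [ha, hb]; rfl)
        · show Submodule.span F ({a • v + b • g v, g (a • v + b • g v)} : Set V)
            = Submodule.span F ({v, g v} : Set V)
          rw [hgw]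
          apply le_antisymm
          · rw [Submodule.span_le]
            rintro x hx
            rcases hx with rfl | rfl
            · exact Submodule.mem_span_pair.mpr ⟨a, b, rfl⟩
            · exact Submodule.mem_span_pair.mpr ⟨-b, a, rfl⟩
          · rw [Submodule.span_le]
            rintro x hx
            rcases hx with rfl | rfl
            · refine Submodule.mem_span_pair.mpr ⟨a / (a ^ 2 + b ^ 2), -b / (a ^ 2 + b ^ 2), ?_⟩
              rw [ch4_comb]
              have c1 : a / (a ^ 2 + b ^ 2) * a - -b / (a ^ 2 + b ^ 2) * b = 1 := by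
                field_simp
                ring
              have c2 : a / (a ^ 2 + b ^ 2) * b + -b / (a ^ 2 + b ^ 2) * a = 0 := by
                field_simp
                ring
              rw [c1, c2, one_smul, zero_smul, add_zero]
            · refine Submodule.mem_span_pair.mpr ⟨b / (a ^ 2 + b ^ 2), a / (a ^ 2 + b ^ 2), ?_⟩
              rw [ch4_comb]
              have c1 : b / (a ^ 2 + b ^ 2) * a - a / (a ^ 2 + b ^ 2) * b = 0 := by
                field_simp
                ring
              have c2 : b / (a ^ 2 + b ^ 2) * b + a / (a ^ 2 + b ^ 2) * a = 1 := by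
                field_simp
                ring
              rw [c1, c2, one_smul, zero_smul, zero_add]
    rw [himg, Set.ncard_image_of_injective, ch4_ncard_ne_zero]
    intro p₁ p₂ h12
    have h0 : (p₁.1 - p₂.1) • v + (p₁.2 - p₂.2) • g v = 0 := by
      have h12' : p₁.1 • v + p₁.2 • g v = p₂.1 • v + p₂.2 • g v := h12
      rw [sub_smul, sub_smul]
      rw [← sub_eq_zero] at h12'
      rw [← h12']; abel
    obtain ⟨ha, hb⟩ := hli _ _ v hvne h0
    exact Prod.ext (sub_eq_zero.mp ha) (sub_eq_zero.mp hb)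
  -- the count of singular vectors of `W`
  have hcount : Nat.card {w : W // Q (w : V) = 0} = S.ncard + 1 := by
    have e1 : Nat.card {w : W // Q (w : V) = 0} = ({v : V | v ∈ W ∧ Q v = 0}).ncard := by
      rw [← Nat.card_coe_set_eq]
      apply Nat.card_congr
      exact
        { toFun := fun w => ⟨(w.1 : V), w.1.2, w.2⟩
          invFun := fun v => ⟨⟨v.1, v.2.1⟩, v.2.2⟩
          left_inv := fun w => rfl
          right_inv := fun v => rfl }
    have e2 : {v : V | v ∈ W ∧ Q v = 0} = insert 0 S := by
      ext v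
      simp only [Set.mem_insert_iff, hS]
      constructor
      · rintro ⟨h1, h2'⟩
        by_cases hv : v = 0
        · exact Or.inl hv
        · exact Or.inr ⟨h1, h2', hv⟩
      · rintro (rfl | ⟨h1, h2', _⟩)
        · exact ⟨W.zero_mem, hQ.map_zero⟩
        · exact ⟨h1, h2'⟩
    rw [e1, e2, Set.ncard_insert_of_notMem]
    simp [hS]
  have htyp := hW.2.2.1
  rw [hcount] at htyp
  have hq : (2 : ℤ) ≤ (Fintype.card F : ℤ) := by exact_mod_cast Fintype.one_lt_card
  apply ch4_arith (Fintype.card F : ℤ) hq k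
  have hq2 : 1 ≤ Fintype.card F ^ 2 := Nat.one_le_pow _ _ Fintype.card_pos
  have hd : ((Fintype.card F ^ 2 - 1 : ℕ) : ℤ) ∣ (S.ncard : ℤ) := by exact_mod_cast hdvd
  rw [Nat.cast_sub hq2] at hd
  push_cast at hd htyp
  have e : (Fintype.card F : ℤ) ^ (2 * k + 1) + ((Fintype.card F : ℤ) - 1) * (Fintype.card F : ℤ) ^ k - 1
      = (S.ncard : ℤ) := by linarith
  rw [e]
  exact hd

end Cfsg.Agent.Lib.Helper98.H74
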