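import Cfsg.Agent.Lib.Helper98.H74Defs
import Cfsg.Agent.Lib.Helper24.H74SUM

/-!
# Project H74 (S5974), piece CSQ: `cpx_fix_sq`

`g² = -1` and `-1 = ι²`: eigenvectors `v` (for `ι`) and `w` (for `-ι`) of `g` are singular, and
when `B v w ≠ 0` they span an invariant hyperbolic plane.  Every nonzero invariant nondegenerate
subspace contains such a plane; peeling `k + 1` of them (with `subtyp_sup`) gives an invariant
nondegenerate subspace of dimension `2k + 2` and type `+`.
-/

set_option autoImplicit false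

namespace Cfsg.Agent.Lib.Helper98.H74

open Cfsg.Agent.Lib.Helper47 Cfsg.Agent.Lib.Helper98.T73 Module Polynomial

universe u

variable {F : Type u} [Field F] [Fintype F] {V : Type u} [AddCommGroup V] [Module F V]
  [FiniteDimensional F V] {Q : V → F} {B : V → V → F}

/-- eigenvectors of `g` for `κ`, `κ² = -1`, are singular -/
lemma csq_sing (h2 : (2 : F) ≠ 0) (hQ : IsQuad Q B) {g : Module.End F V} (hgQ : QI Q g)
    {κ : F} (hκ : κ * κ = -1) {v : V} (hv : g v = κ • v) : Q v = 0 := by
  have h1 := hgQ v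
  rw [hv, hQ.smul] at h1
  have h3 : (2 : F) * Q v = 0 := by linear_combination (-1 : F) * h1 + Q v * hκ
  exact (mul_eq_zero.mp h3).resolve_left h2

/-- eigenvectors for the same eigenvalue `κ`, `κ² = -1`, are orthogonal -/
lemma csq_perp (h2 : (2 : F) ≠ 0) (hQ : IsQuad Q B) {g : Module.End F V} (hgQ : QI Q g)
    {κ : F} (hκ : κ * κ = -1) {u v : V} (hu : g u = κ • u) (hv : g v = κ • v) : B u v = 0 := by
  have h1 : B (g u) (g v) = B u v := hQ.isometry hQ g hgQ u v
  rw [hu, hv, hQ.form.smul_left, hQ.form.smul_right] at h1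
  simp only [RingHom.id_apply] at h1
  have h3 : (2 : F) * B u v = 0 := by linear_combination (-1 : F) * h1 + B u v * hκ
  exact (mul_eq_zero.mp h3).resolve_left h2

/-- `y + κ g y` is an eigenvector for `-κ` -/
lemma csq_eig_minus {g : Module.End F V} (hgg : ∀ x, g (g x) = -x) {κ : F} (hκ : κ * κ = -1)
    (y : V) : g (y + κ • g y) = (-κ) • (y + κ • g y) := by
  rw [map_add, map_smul, hgg, smul_add, smul_smul]
  have e : (-κ) * κ = 1 := by linear_combination -hκ
  rw [e, one_smul, neg_smul, smul_neg]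
  abel

/-- `y - κ g y` is an eigenvector for `κ` -/
lemma csq_eig_plus {g : Module.End F V} (hgg : ∀ x, g (g x) = -x) {κ : F} (hκ : κ * κ = -1)
    (y : V) : g (y - κ • g y) = κ • (y - κ • g y) := by
  rw [map_sub, map_smul, hgg, smul_sub, smul_smul, hκ, neg_smul, one_smul, smul_neg]
  abel

/-- the plane spanned by eigenvectors `v` (for `κ`) and `w` (for `-κ`) with `B v w ≠ 0` -/
lemma csq_plane_aux (hf : QFacts F) (h2 : (2 : F) ≠ 0) (hQ : IsQuad Q B) {g : Module.End F V}
    (hgQ : QI Q g) {κ : F} (hκ : κ * κ = -1) (Y : Submodule F V) {v w : V} (hvY : v ∈ Y)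
    (hwY : w ∈ Y) (hv : g v = κ • v) (hw : g w = (-κ) • w) (hvw : B v w ≠ 0) :
    ∃ P : Submodule F V, P ≤ Y ∧ SubTyp Q B P 0 1 ∧ P.map g ≤ P := by
  classical
  have hκ' : (-κ) * (-κ) = -1 := by linear_combination hκ
  have hQv : Q v = 0 := csq_sing h2 hQ hgQ hκ hv
  have hQw : Q w = 0 := csq_sing h2 hQ hgQ hκ' hw
  have hBvv : B v v = 0 := by rw [hQ.self, hQv, mul_zero]
  have hBww : B w w = 0 := by rw [hQ.self, hQw, mul_zero]
  have hBwv : B w v = B v w := sym_comm hQ.form v w
  let P : Submodule F V := Submodule.span F {v, w}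
  have hmem : ∀ x : V, x ∈ P ↔ ∃ a b : F, a • v + b • w = x :=
    fun x => Submodule.mem_span_pair
  have hvP : v ∈ P := Submodule.subset_span (by simp)
  have hwP : w ∈ P := Submodule.subset_span (by simp)
  have hPY : P ≤ Y := by
    rw [Submodule.span_le]
    intro x hx
    rcases hx with rfl | rfl
    · exact hvY
    · exact hwY
  have hPg : P.map g ≤ P := by
    rw [Submodule.map_span, Submodule.span_le]
    rintro _ ⟨x, hx, rfl⟩
    rcases hx with rfl | rfl
    · rw [hv]; exact P.smul_mem _ hvP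
    · rw [hw]; exact P.smul_mem _ hwP
  have hBv : ∀ a b : F, B (a • v + b • w) v = b * B v w := by
    intro a b
    rw [hQ.form.add_left, hQ.form.smul_left, hQ.form.smul_left, hBvv, hBwv]; ring
  have hBw : ∀ a b : F, B (a • v + b • w) w = a * B v w := by
    intro a b
    rw [hQ.form.add_left, hQ.form.smul_left, hQ.form.smul_left, hBww]; ring
  have hnd : Nondeg (resForm B P) := by
    intro x hx
    obtain ⟨a, b, hab⟩ := (hmem x.1).mp x.2
    have h1 : B (x : V) v = 0 := hx ⟨v, hvP⟩
    have h1' : B (x : V) w = 0 := hx ⟨w, hwP⟩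
    rw [← hab, hBv] at h1
    rw [← hab, hBw] at h1'
    have hb : b = 0 := (mul_eq_zero.mp h1).resolve_right hvw
    have ha : a = 0 := (mul_eq_zero.mp h1').resolve_right hvw
    apply Subtype.ext
    rw [← hab, ha, hb, zero_smul, zero_smul, add_zero]
    rfl
  have hli : LinearIndependent F ![v, w] := by
    rw [LinearIndependent.pair_iff]
    intro a b hab
    have h1 := hBv a b
    have h1' := hBw a b
    rw [hab, hQ.form.zero_left] at h1 h1'
    exact ⟨(mul_eq_zero.mp h1'.symm).resolve_right hvw,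
      (mul_eq_zero.mp h1.symm).resolve_right hvw⟩
  have hfin : finrank F P = 2 := by
    have h1 := finrank_span_eq_card hli
    rw [Matrix.range_cons_cons_empty] at h1
    simpa using h1
  refine ⟨P, hPY, ⟨hnd, by rw [hfin], ?_⟩, hPg⟩
  rcases hf.typ_exists 0 P (fun w : P => Q (w : V)) (resForm B P) (hQ.res P) hnd
    (by rw [hfin]) with h | h
  · exact h
  · exfalso
    have hcard : (Nat.card {x : P // Q (x : V) = 0} : ℤ) = 1 := by
      rw [h.1]; ring
    have hcard' : Nat.card {x : P // Q (x : V) = 0} = 1 := by exact_mod_cast hcard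
    rw [Nat.card_eq_one_iff_unique] at hcard'
    obtain ⟨hsub, _⟩ := hcard'
    have h0 : (⟨⟨v, hvP⟩, hQv⟩ : {x : P // Q (x : V) = 0}) = ⟨0, hQ.map_zero⟩ :=
      Subsingleton.elim _ _
    have hv0 : v = 0 := congrArg (fun x : {x : P // Q (x : V) = 0} => ((x : P) : V)) h0
    apply hvw
    rw [hv0, hQ.form.zero_left]

/-- A nonzero invariant nondegenerate subspace contains an invariant hyperbolic plane. -/
lemma csq_plane (hf : QFacts F) (h2 : (2 : F) ≠ 0) (hQ : IsQuad Q B) {g : Module.End F V}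
    (hgQ : QI Q g) (hgg : ∀ x, g (g x) = -x) {ι : F} (hι : ι * ι = -1) (Y : Submodule F V)
    (hYg : Y.map g ≤ Y) (hYnd : Nondeg (resForm B Y)) (hY0 : Y ≠ ⊥) :
    ∃ P : Submodule F V, P ≤ Y ∧ SubTyp Q B P 0 1 ∧ P.map g ≤ P := by
  have hgY : ∀ y ∈ Y, g y ∈ Y := fun y hy => hYg (Submodule.mem_map_of_mem hy)
  have key : ∀ κ : F, κ * κ = -1 → ∀ v ∈ Y, v ≠ 0 → g v = κ • v →
      ∃ P : Submodule F V, P ≤ Y ∧ SubTyp Q B P 0 1 ∧ P.map g ≤ P := by
    intro κ hκ v hvY hv0 hv
    have hex : ∃ y ∈ Y, B v y ≠ 0 := by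
      by_contra hcon
      push Not at hcon
      apply hv0
      have h0 : (⟨v, hvY⟩ : Y) = 0 := hYnd _ (fun y => hcon y.1 y.2)
      exact congrArg Subtype.val h0
    obtain ⟨y, hyY, hy⟩ := hex
    have hw := csq_eig_minus hgg hκ y
    have hu := csq_eig_plus hgg hκ y
    have hB : B v (y + κ • g y) ≠ 0 := by
      have h0 : B v (y - κ • g y) = 0 := csq_perp h2 hQ hgQ hκ hv hu
      intro hc
      apply hy
      have h1 : B v ((y + κ • g y) + (y - κ • g y)) = 0 := by
        rw [hQ.form.add_right, hc, h0, add_zero]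
      have h2' : (y + κ • g y) + (y - κ • g y) = (2 : F) • y := by rw [two_smul]; abel
      rw [h2', hQ.form.smul_right] at h1
      simp only [RingHom.id_apply] at h1
      exact (mul_eq_zero.mp h1).resolve_left h2
    exact csq_plane_aux hf h2 hQ hgQ hκ Y hvY
      (Y.add_mem hyY (Y.smul_mem _ (hgY y hyY))) hv hw hB
  obtain ⟨y, hyY, hy0⟩ := (Submodule.ne_bot_iff Y).mp hY0
  by_cases h1 : y - ι • g y = 0
  · have hne : y + ι • g y ≠ 0 := by
      intro hc
      apply hy0
      have h3 : (2 : F) • y = 0 := by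
        have h4 : (y + ι • g y) + (y - ι • g y) = (2 : F) • y := by rw [two_smul]; abel
        rw [← h4, hc, h1, add_zero]
      exact (smul_eq_zero.mp h3).resolve_left h2
    exact key (-ι) (by linear_combination hι) _ (Y.add_mem hyY (Y.smul_mem _ (hgY y hyY))) hne
      (csq_eig_minus hgg hι y)
  · exact key ι hι _ (Y.sub_mem hyY (Y.smul_mem _ (hgY y hyY))) h1 (csq_eig_plus hgg hι y)

/-- CSQ -/
theorem cpx_fix_sq (hf : QFacts F) (h2 : (2 : F) ≠ 0) (hsq : IsSquare (-1 : F))
    (hQ : IsQuad Q B) (hnd : Nondeg B) (d : ℕ) (hdim : finrank F V = 2 * d) (p : ℕ)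
    [Fact p.Prime] [CharP F p] (g : Module.End F V) (hgQ : QI Q g) (hg : g * g = -1) (k : ℕ)
    (hk : 2 * k + 2 < d) :
    ∃ W : Submodule F V, SubTyp Q B W k 1 ∧ W.map g ≤ W := by
  obtain ⟨ι, hι0⟩ := hsq
  have hι : ι * ι = -1 := hι0.symm
  have hgg : ∀ x, g (g x) = -x := fun x => by
    have h := congrArg (fun f : Module.End F V => f x) hg
    simpa using h
  have key : ∀ j : ℕ, j + 1 ≤ d →
      ∃ W : Submodule F V, SubTyp Q B W j 1 ∧ W.map g ≤ W := by
    intro j
    induction j with
    | zero =>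
      intro hj
      have htop : (⊤ : Submodule F V) ≠ ⊥ := by
        intro h
        have h1 : finrank F (⊤ : Submodule F V) = 0 := by rw [h]; exact finrank_bot F V
        rw [finrank_top, hdim] at h1
        omega
      have hndtop : Nondeg (resForm B (⊤ : Submodule F V)) := by
        intro x hx
        apply Subtype.ext
        exact hnd x.1 (fun y => hx ⟨y, Submodule.mem_top⟩)
      obtain ⟨P, -, hP, hPg⟩ := csq_plane hf h2 hQ hgQ hgg hι ⊤ le_top hndtop htop
      exact ⟨P, hP, hPg⟩
    | succ j ih =>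
      intro hj
      obtain ⟨W, hW, hWg⟩ := ih (by omega)
      have hc : IsCompl W (hQ.form.orth W) := isCompl_orth hQ.form hW.1
      have hYnd : Nondeg (resForm B (hQ.form.orth W)) := nondeg_orth hQ.form hnd hc
      have hY0 : hQ.form.orth W ≠ ⊥ := by
        intro h
        rw [h] at hc
        have hWtop : W = ⊤ := eq_top_of_isCompl_bot hc
        have h1 := hW.2.1
        rw [hWtop, finrank_top, hdim] at h1
        omega
      have hYg : (hQ.form.orth W).map g ≤ hQ.form.orth W := by
        rintro _ ⟨y, hy, rfl⟩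
        intro x hx
        have hx' : -(g x) ∈ W := W.neg_mem (hWg (Submodule.mem_map_of_mem hx))
        have h1 : B (g (-(g x))) (g y) = B (-(g x)) y := hQ.isometry hQ g hgQ _ _
        rw [map_neg, hgg, neg_neg] at h1
        rw [h1]
        exact hy _ hx'
      obtain ⟨P, hPY, hP, hPg⟩ := csq_plane hf h2 hQ hgQ hgg hι _ hYg hYnd hY0
      have hsum := subtyp_sup hf hQ W P (fun x hx y hy => hPY hy x hx) j 0 1 1 hW hP
      refine ⟨W ⊔ P, ?_, ?_⟩
      · have e1 : j + 0 + 1 = j + 1 := by omega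
        have e2 : (1 : ℤ) * 1 = 1 := by norm_num
        rw [e1, e2] at hsum
        exact hsum
      · rw [Submodule.map_sup]
        exact sup_le_sup hWg hPg
  exact key k (by omega)

end Cfsg.Agent.Lib.Helper98.H74
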