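import Cfsg.Agent.Lib.Helper98.H90Defs

/-!
# Project H74, batch 2 (S5990), piece AR90EF: the arithmetic for `i` even, forward direction
(test the model at `A = ⌊2d / i⌋`)
-/

set_option autoImplicit false

namespace Cfsg.Agent.Lib.Helper98.H74

open Cfsg.Agent.Lib.Helper47 Cfsg.Agent.Lib.Helper98.T73 Module Polynomial

/-- AR90EF -/
theorem ar90_even_fwd (i d m : ℕ) (hi : 1 ≤ i) (heven : Even i) (hd : 4 ≤ d) (hm : 2 ≤ m)
    (hme : Even m) (hmd : m + 2 ≤ 2 * d) (him : i ≤ m) (hM : ModelH (-1) (-1) i d m) :
    Cond90 i d m := by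
  have hsgn : ∀ A, sgn i A = (-1) ^ A := fun A => by
    unfold sgn
    rw [if_pos heven]
  have hi0 : 0 < i := hi
  unfold Cond90
  rw [if_pos heven]
  have hdm := Nat.div_add_mod (2 * d) i
  have hRlt : (2 * d) % i < i := Nat.mod_lt _ hi0
  have hQ1 : 1 ≤ (2 * d) / i := by
    rw [Nat.le_div_iff_mul_le hi0]
    omega
  have hget : Valid (-1) i d ((2 * d) / i) → ∃ j w, j ≤ (2 * d) / i ∧ m = i * j + w ∧
      w ≤ (2 * d) % i ∧ (w = 0 → Odd j) ∧
      (0 < w → w = (2 * d) % i → (Even j ↔ Even ((2 * d) / i))) := by
    intro hV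
    have hM' := hM _ hV
    unfold MC at hM'
    obtain ⟨j, w, hjA, -, hmjw, hw, hw0, hwR⟩ := hM'
    refine ⟨j, w, hjA, hmjw, by omega, ?_, ?_⟩
    · intro h0
      have h5 := hw0 h0
      rw [hsgn] at h5
      by_contra hj
      rw [Nat.not_odd_iff_even] at hj
      rw [hj.neg_one_pow] at h5
      norm_num at h5
    · intro hpos hweq
      have h5 := hwR hpos (by omega)
      rw [hsgn, hsgn] at h5
      rcases Nat.even_or_odd j with hj | hj <;>
        rcases Nat.even_or_odd ((2 * d) / i) with hq | hq
      · exact ⟨fun _ => hq, fun _ => hj⟩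
      · exfalso
        rw [hj.neg_one_pow, hq.neg_one_pow] at h5
        norm_num at h5
      · exfalso
        rw [hj.neg_one_pow, hq.neg_one_pow] at h5
        norm_num at h5
      · exact ⟨fun h => absurd h (Nat.not_even_iff_odd.mpr hj),
          fun h => absurd h (Nat.not_even_iff_odd.mpr hq)⟩
  by_cases hR : (2 * d) % i = 0
  · left
    refine ⟨hR, ?_⟩
    rcases Nat.even_or_odd ((2 * d) / i) with hq | hq
    · exact Or.inl hq
    · right
      have hV : Valid (-1) i d ((2 * d) / i) := by
        unfold Valid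
        refine ⟨hQ1, by omega, fun h => absurd heven (Nat.not_even_iff_odd.mpr h), fun _ => ?_⟩
        rw [hsgn, hq.neg_one_pow]
      obtain ⟨j, w, hjA, hmjw, hw, hw0, -⟩ := hget hV
      have hw' : w = 0 := by omega
      have hj := hw0 hw'
      have hmj : m = i * j := by omega
      have h1 : m % i = 0 := by
        rw [hmj]
        exact Nat.mul_mod_right i j
      have h2 : m / i = j := by
        rw [hmj]
        exact Nat.mul_div_cancel_left j hi0
      exact ⟨h1, by rw [h2]; exact hj⟩
  · right
    refine ⟨by omega, him, ?_⟩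
    have hV : Valid (-1) i d ((2 * d) / i) := by
      unfold Valid
      refine ⟨hQ1, by omega, fun h => absurd heven (Nat.not_even_iff_odd.mpr h), fun h => ?_⟩
      exfalso
      omega
    obtain ⟨j, w, hjA, hmjw, hw, hw0, hwR⟩ := hget hV
    have hwlt : w < i := by omega
    have h1 : m % i = w := by
      rw [hmjw, Nat.mul_add_mod_self_left]
      exact Nat.mod_eq_of_lt hwlt
    have h2 : m / i = j := by
      rw [hmjw, Nat.mul_add_div hi0, Nat.div_eq_of_lt hwlt, add_zero]
    rw [h1, h2]
    by_cases hw0' : w = 0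
    · right; left
      exact ⟨hw0', hw0 hw0'⟩
    · by_cases hwR' : w = (2 * d) % i
      · right; right
        refine ⟨hwR', ?_⟩
        have hpar := hwR (by omega) hwR'
        have h3 : (2 * d + m - 2 * ((2 * d) % i)) = i * ((2 * d) / i + j) := by
          have h4 : i * ((2 * d) / i + j) = i * ((2 * d) / i) + i * j := by ring
          omega
        rw [h3, Nat.mul_div_cancel_left _ hi0]
        rcases Nat.even_or_odd j with hj | hj
        · exact (hpar.mp hj).add hj
        · have hq : Odd ((2 * d) / i) := by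
            rw [← Nat.not_even_iff_odd]
            intro hq
            exact (Nat.not_even_iff_odd.mpr hj) (hpar.mpr hq)
          exact hq.add_odd hj
      · left
        omega

end Cfsg.Agent.Lib.Helper98.H74
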