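import Mathlib
import Cfsg.Agent.Lib.Helper22.HPDefs
import Cfsg.Agent.Lib.Helper83.IrrBasic
import Cfsg.Agent.Lib.Helper83.Quot
import Cfsg.Agent.Lib.Helper20.CliffordRel
import Cfsg.Agent.Lib.Helper4.CharClosure
import Cfsg.Agent.Lib.Helper68.BFPDEC

/-!
# S4504 (helper22's HP project), piece NOLIN (helper87)

A linear character `μ` with `(χ χ̄, μ) ≠ 0` is trivial.
-/

set_option autoImplicit false

namespace Cfsg.Agent.Lib.Helper87.HPT

open Cfsg Cfsg.Agent.Lib.Helper22.BFD Cfsg.Agent.Lib.Helper22.HPD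
open scoped ComplexConjugate

universe u

/-- `(χ χ̄, μ) ≠ 0` for a linear `μ` forces `χ μ = χ`. -/
theorem nolin_eq {G : Type u} [Group G] [Fintype G] (χ μ : IrrCharacter G) (hμ1 : μ.1 1 = 1)
    (hne : classInner (fun g => χ.1 g * conj (χ.1 g)) μ.1 ≠ 0) :
    ∀ g : G, χ.1 g * μ.1 g = χ.1 g := by
  have hirr : IsIrrCharacter G (μ.1 * χ.1) :=
    Cfsg.Agent.Lib.Helper20.irr_linear_mul_irr μ.2 hμ1 χ.2
  have h1 : classInner (fun g => χ.1 g * conj (χ.1 g)) μ.1 =
      classInner χ.1 (⟨μ.1 * χ.1, hirr⟩ : IrrCharacter G).1 := by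
    unfold classInner
    congr 1
    apply Finset.sum_congr rfl
    intro g _
    show χ.1 g * conj (χ.1 g) * conj (μ.1 g) = χ.1 g * conj (μ.1 g * χ.1 g)
    rw [map_mul]; ring
  rw [h1, Cfsg.Agent.Lib.Helper83.irr_orthonormal χ ⟨μ.1 * χ.1, hirr⟩] at hne
  have hχψ : χ = ⟨μ.1 * χ.1, hirr⟩ := by
    by_contra h
    exact hne (if_neg h)
  intro g
  have h2 : χ.1 g = (μ.1 * χ.1) g := congrArg (fun f : IrrCharacter G => f.1 g) hχψ
  rw [Pi.mul_apply] at h2
  rw [mul_comm]; exact h2.symm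

/-- In a group `H` with `p² ∤ |H|` and a normal subgroup `L` of order `p`, every element with
`y ^ p = 1` lies in `L`. -/
theorem nolin_mem_of_pow {H : Type*} [Group H] [Finite H] (p : ℕ) [Fact p.Prime]
    (hsq : ¬ p ^ 2 ∣ Nat.card H) (L : Subgroup H) [L.Normal] (hL : Nat.card L = p) (y : H)
    (hy : y ^ p = 1) : y ∈ L := by
  have hp : p.Prime := Fact.out
  rw [← QuotientGroup.eq_one_iff]
  have h1 : orderOf (y : H ⧸ L) ∣ p := by
    apply orderOf_dvd_of_pow_eq_one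
    rw [← QuotientGroup.mk_pow, hy]; rfl
  rcases (Nat.dvd_prime hp).mp h1 with h | h
  · exact orderOf_eq_one_iff.mp h
  · exfalso
    have h2 : p ∣ Nat.card (H ⧸ L) := h ▸ orderOf_dvd_natCard _
    have h3 : Nat.card H = Nat.card (H ⧸ L) * Nat.card L :=
      Subgroup.card_eq_card_quotient_mul_card_subgroup L
    apply hsq
    rw [h3, hL, pow_two]
    exact Nat.mul_dvd_mul_right h2 p

/-- PIECE NOLIN (no non-trivial linear constituent in `χ χ̄`) -/
theorem hp_nolin {G : Type u} [Group G] [Fintype G] (p : ℕ) [Fact p.Prime]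
    (hirr : ∀ (H : Type u) [Group H] [Finite H], p ∣ Nat.card H → ¬ p ^ 2 ∣ Nat.card H →
      (∀ L : Subgroup H, L.Normal → Nat.card L ≠ p) → ∀ ψ : H → ℂ, IsCharacter H ψ →
      (∀ g : H, ψ g = ψ 1 → g = 1) → 2 * charDegree ψ + 1 = p → IsIrrCharacter H ψ)
    (hdiv : p ∣ Nat.card G) (hsq : ¬ p ^ 2 ∣ Nat.card G)
    (hnn : ∀ H : Subgroup G, H.Normal → Nat.card H ≠ p)
    (χ : IrrCharacter G) (hfaith : ∀ g : G, χ.1 g = χ.1 1 → g = 1)
    (hdeg : 2 * charDegree χ.1 + 1 = p) (μ : IrrCharacter G) (hμ : charDegree μ.1 = 1)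
    (hne : classInner (fun g => χ.1 g * conj (χ.1 g)) μ.1 ≠ 0) : μ.1 = fun _ => 1 := by
  classical
  have hp : p.Prime := Fact.out
  have hμ1 : μ.1 1 = 1 := (Cfsg.Agent.Lib.Helper83.irr_charDegree_eq_one_iff μ.2).mp hμ
  have hmul := nolin_eq χ μ hμ1 hne
  have hvan : ∀ g, μ.1 g ≠ 1 → χ.1 g = 0 := by
    intro g hg
    have h1 : χ.1 g * (μ.1 g - 1) = 0 := by rw [mul_sub, hmul g, mul_one, sub_self]
    rcases mul_eq_zero.mp h1 with h | h
    · exact h
    · exact absurd (sub_eq_zero.mp h) hg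
  by_contra hcon
  have hmem : ∀ g, g ∈ Cfsg.Agent.Lib.Helper83.irrKer μ ↔ μ.1 g = 1 := by
    intro g; rw [Cfsg.Agent.Lib.Helper83.mem_irrKer, hμ1]
  have hMtop : Cfsg.Agent.Lib.Helper83.irrKer μ ≠ ⊤ := by
    intro h
    apply hcon
    funext g
    exact (hmem g).mp (h ▸ Subgroup.mem_top g)
  have hcardG : (Nat.card G : ℂ) ≠ 0 := by exact_mod_cast Nat.card_pos.ne'
  have hnorm : ∑ g : G, χ.1 g * conj (χ.1 g) = (Nat.card G : ℂ) := by
    have h1 := Cfsg.Agent.Lib.Helper83.irr_orthonormal χ χ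
    rw [if_pos rfl] at h1
    unfold classInner at h1
    calc ∑ g : G, χ.1 g * conj (χ.1 g)
        = (Nat.card G : ℂ) * ((Nat.card G : ℂ)⁻¹ * ∑ g : G, χ.1 g * conj (χ.1 g)) := by
          rw [← mul_assoc, mul_inv_cancel₀ hcardG, one_mul]
      _ = (Nat.card G : ℂ) := by rw [h1, mul_one]
  have : Fintype ↥(Cfsg.Agent.Lib.Helper83.irrKer μ) := Fintype.ofFinite _
  have hsumM : ∑ h : ↥(Cfsg.Agent.Lib.Helper83.irrKer μ), χ.1 h * conj (χ.1 h) =
      (Nat.card G : ℂ) := by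
    rw [← hnorm]
    rw [← Finset.sum_subtype (Finset.univ.filter
      (fun g : G => g ∈ Cfsg.Agent.Lib.Helper83.irrKer μ)) (by simp)
      (fun g => χ.1 g * conj (χ.1 g))]
    rw [Finset.sum_filter]
    apply Finset.sum_congr rfl
    intro g _
    split_ifs with h
    · rfl
    · rw [hvan g (fun h' => h ((hmem g).mpr h'))]; simp
  by_cases hpM : p ∣ Nat.card ↥(Cfsg.Agent.Lib.Helper83.irrKer μ)
  · have hsqM : ¬ p ^ 2 ∣ Nat.card ↥(Cfsg.Agent.Lib.Helper83.irrKer μ) :=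
      fun h => hsq (h.trans (Subgroup.card_subgroup_dvd_card _))
    have hnnM : ∀ L : Subgroup ↥(Cfsg.Agent.Lib.Helper83.irrKer μ), L.Normal →
        Nat.card L ≠ p := by
      intro L hLn hLc
      have hcard' : Nat.card (L.map (Cfsg.Agent.Lib.Helper83.irrKer μ).subtype) = p :=
        (Subgroup.card_map_of_injective
          (Subgroup.subtype_injective (Cfsg.Agent.Lib.Helper83.irrKer μ))).trans hLc
      refine hnn (L.map (Cfsg.Agent.Lib.Helper83.irrKer μ).subtype) ⟨?_⟩ hcard'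
      rintro n ⟨x, hx, rfl⟩ g
      have hxp : x ^ p = 1 := by
        have h1 : (⟨x, hx⟩ : ↥L) ^ Nat.card ↥L = 1 := pow_card_eq_one'
        rw [hLc] at h1
        have h2 := congrArg Subtype.val h1
        simpa using h2
      have hxpG : (x : G) ^ p = 1 := by
        have h2 := congrArg Subtype.val hxp
        simpa using h2
      have hgM : g * (x : G) * g⁻¹ ∈ Cfsg.Agent.Lib.Helper83.irrKer μ :=
        (Cfsg.Agent.Lib.Helper83.irrKer_normal μ).conj_mem _ x.2 g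
      have hyp : (⟨g * (x : G) * g⁻¹, hgM⟩ : ↥(Cfsg.Agent.Lib.Helper83.irrKer μ)) ^ p = 1 := by
        apply Subtype.ext
        simp only [Subgroup.coe_pow, Subgroup.coe_one]
        rw [conj_pow, hxpG]; group
      have hyL := nolin_mem_of_pow p hsqM L hLc _ hyp
      exact ⟨_, hyL, rfl⟩
    have hψc : IsCharacter ↥(Cfsg.Agent.Lib.Helper83.irrKer μ)
        (fun h : ↥(Cfsg.Agent.Lib.Helper83.irrKer μ) => χ.1 h) :=
      Cfsg.Agent.Lib.Helper4.isCharacter_restrict _ χ.1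
        (Cfsg.Agent.Lib.Helper4.isCharacter_of_irr χ)
    have hψf : ∀ g : ↥(Cfsg.Agent.Lib.Helper83.irrKer μ),
        (fun h : ↥(Cfsg.Agent.Lib.Helper83.irrKer μ) => χ.1 h) g =
          (fun h : ↥(Cfsg.Agent.Lib.Helper83.irrKer μ) => χ.1 h) 1 → g = 1 := by
      intro g hg
      apply Subtype.ext
      exact hfaith g (by simpa using hg)
    have hψd : 2 * charDegree (fun h : ↥(Cfsg.Agent.Lib.Helper83.irrKer μ) => χ.1 h) + 1 = p := by
      have h1 : charDegree (fun h : ↥(Cfsg.Agent.Lib.Helper83.irrKer μ) => χ.1 h) =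
          charDegree χ.1 := by
        unfold charDegree; simp
      rw [h1]; exact hdeg
    have hψirr := hirr ↥(Cfsg.Agent.Lib.Helper83.irrKer μ) hpM hsqM hnnM _ hψc hψf hψd
    have h1 := Cfsg.Agent.Lib.Helper83.irr_orthonormal
      (⟨_, hψirr⟩ : IrrCharacter ↥(Cfsg.Agent.Lib.Helper83.irrKer μ)) ⟨_, hψirr⟩
    rw [if_pos rfl] at h1
    unfold classInner at h1
    simp only at h1
    rw [hsumM] at h1
    have hcardM : (Nat.card ↥(Cfsg.Agent.Lib.Helper83.irrKer μ) : ℂ) ≠ 0 := by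
      exact_mod_cast Nat.card_pos.ne'
    have h2 : (Nat.card G : ℂ) = (Nat.card ↥(Cfsg.Agent.Lib.Helper83.irrKer μ) : ℂ) := by
      calc (Nat.card G : ℂ)
          = (Nat.card ↥(Cfsg.Agent.Lib.Helper83.irrKer μ) : ℂ) *
              ((Nat.card ↥(Cfsg.Agent.Lib.Helper83.irrKer μ) : ℂ)⁻¹ * (Nat.card G : ℂ)) := by
            rw [← mul_assoc, mul_inv_cancel₀ hcardM, one_mul]
        _ = (Nat.card ↥(Cfsg.Agent.Lib.Helper83.irrKer μ) : ℂ) := by rw [h1, mul_one]
    have h3 : Nat.card G = Nat.card ↥(Cfsg.Agent.Lib.Helper83.irrKer μ) := by exact_mod_cast h2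
    exact hMtop ((Subgroup.card_eq_iff_eq_top _).mp h3.symm)
  · obtain ⟨z, hz⟩ := exists_prime_orderOf_dvd_card' p hdiv
    have hzp : z ^ p = 1 := hz ▸ pow_orderOf_eq_one z
    have hχz : ∀ t : ZMod p, t ≠ 0 → χ.1 (z ^ t.val) = 0 := by
      intro t ht
      apply hvan
      intro hμz
      have hzM : z ^ t.val ∈ Cfsg.Agent.Lib.Helper83.irrKer μ := (hmem _).mpr hμz
      have hne1 : z ^ t.val ≠ 1 := by
        intro h
        have h1 : orderOf z ∣ t.val := orderOf_dvd_of_pow_eq_one h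
        rw [hz] at h1
        have h2 : t.val < p := ZMod.val_lt t
        have h3 : t.val = 0 := Nat.eq_zero_of_dvd_of_lt h1 h2
        exact ht ((ZMod.val_eq_zero t).mp h3)
      have hord : orderOf (z ^ t.val) = p :=
        orderOf_eq_prime (by rw [← pow_mul, mul_comm, pow_mul, hzp, one_pow]) hne1
      apply hpM
      have h4 : Subgroup.zpowers (z ^ t.val) ≤ Cfsg.Agent.Lib.Helper83.irrKer μ :=
        (Subgroup.zpowers_le).mpr hzM
      have h5 := Subgroup.card_dvd_of_le h4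
      rwa [Nat.card_zpowers, hord] at h5
    obtain ⟨ζ, hζ⟩ : ∃ ζ : ℂ, IsPrimitiveRoot ζ p :=
      ⟨_, Complex.isPrimitiveRoot_exp p hp.ne_zero⟩
    obtain ⟨a, ha⟩ := Cfsg.Agent.Lib.Helper68.BFT.pdec p ζ hζ χ.1
      (Cfsg.Agent.Lib.Helper4.isCharacter_of_irr χ) z hzp
    have hsum0 : ∀ u : ZMod p, ∑ t : ZMod p, ζ ^ (u * t).val = if u = 0 then (p : ℂ) else 0 := by
      intro u
      have h1 : ∀ t : ZMod p, ζ ^ (u * t).val =
          (AddChar.zmodChar p hζ.pow_eq_one) (t * u) := by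
        intro t
        rw [AddChar.zmodChar_apply, mul_comm]
      rw [Finset.sum_congr rfl (fun t _ => h1 t),
        AddChar.sum_mulShift u (AddChar.zmodChar_primitive_of_primitive_root p hζ), ZMod.card]
      split_ifs <;> simp
    have hS : ∑ t : ZMod p, χ.1 (z ^ t.val) = ((p * a 0 : ℕ) : ℂ) := by
      rw [Finset.sum_congr rfl (fun t _ => ha t), Finset.sum_comm]
      simp_rw [← Finset.mul_sum, hsum0]
      simp [mul_comm]
    have hS2 : ∑ t : ZMod p, χ.1 (z ^ t.val) = χ.1 1 := by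
      rw [Finset.sum_eq_single (0 : ZMod p)]
      · simp
      · intro t _ ht; exact hχz t ht
      · intro h; exact absurd (Finset.mem_univ _) h
    obtain ⟨hpos, hdeg1⟩ := Cfsg.Agent.Lib.Helper83.irr_degree χ.2
    rw [hS2, hdeg1] at hS
    have hS' : charDegree χ.1 = p * a 0 := by exact_mod_cast hS
    rcases Nat.eq_zero_or_pos (a 0) with h0 | h0
    · rw [h0, mul_zero] at hS'; omega
    · have h6 : p ≤ charDegree χ.1 := by rw [hS']; exact Nat.le_mul_of_pos_right p h0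
      omega

end Cfsg.Agent.Lib.Helper87.HPT
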