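import Cfsg.Agent.Lib.Helper78.HarDefs

/-!
# Piece B5I of project HAR (S1235, helper78): no elementary abelian subgroup of order 32
-/

set_option autoImplicit false

namespace Cfsg.Agent.Lib.Helper87.Har

open Cfsg.Agent.Lib.Helper78.Har

private theorem eq_of_le_card_le {X : Type*} [Group X] [Finite X] (E T : Subgroup X)
    (hET : E ≤ T) (hcard : Nat.card T ≤ Nat.card E) : E = T := by
  have h1 : (E : Set X) = (T : Set X) := by
    apply Set.eq_of_subset_of_ncard_le hET _ (Set.toFinite _)
    rw [← Nat.card_coe_set_eq, ← Nat.card_coe_set_eq]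
    exact hcard
  exact SetLike.coe_injective h1

theorem no_elem32 {X : Type*} [Group X] [Finite X] (T T' N : Subgroup X) (g : X)
    (hc : Conf X T T' N g) (h128 : Nat.card X = 128)
    (hE : ∀ E : Subgroup X, E ≤ N → (∀ e ∈ E, e ^ 2 = 1) → E ≤ T ∨ E ≤ T')
    (P : Subgroup X) (hsq : ∀ x ∈ P, x ^ 2 = 1) (hP : Nat.card P = 32) : False := by
  obtain ⟨hN1, hN2, hg, hT', hTN, hT'N, hN64, hT16, hT'16, hT2, hT'2, hW, hprod, hf1, hf2,
    hcT, hcT'⟩ := hc
  -- indices
  have hNi : N.index = 2 := by
    have := N.card_mul_index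
    rw [hN64, h128] at this
    omega
  have hPi : P.index = 4 := by
    have := P.card_mul_index
    rw [hP, h128] at this
    omega
  have hEi : (P ⊓ N).index ≤ 8 := by
    have := Subgroup.index_inf_le (H := P) (K := N)
    rw [hNi, hPi] at this
    exact this
  have hEi0 : (P ⊓ N).index ≠ 0 := Subgroup.index_ne_zero_of_finite
  have hEc : 16 ≤ Nat.card ↥(P ⊓ N) := by
    have h1 := (P ⊓ N).card_mul_index
    rw [h128] at h1
    by_contra hlt
    push Not at hlt
    have h2 : Nat.card ↥(P ⊓ N) * (P ⊓ N).index ≤ 15 * 8 :=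
      Nat.mul_le_mul (by omega) hEi
    omega
  -- P is not contained in N
  have hPN : ¬ P ≤ N := by
    intro hPN
    rcases hE P hPN hsq with h | h
    · have := Subgroup.card_le_of_le h
      omega
    · have := Subgroup.card_le_of_le h
      omega
  obtain ⟨e, heP, heN⟩ := SetLike.not_le_iff_exists.mp hPN
  rcases hE (P ⊓ N) inf_le_right (fun x hx => hsq x hx.1) with h | h
  · have hEq : P ⊓ N = T := eq_of_le_card_le _ _ h (by omega)
    have hTP : T ≤ P := by rw [← hEq]; exact inf_le_left
    have heT : e ∈ Subgroup.centralizer (T : Set X) := by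
      rw [Subgroup.mem_centralizer_iff]
      intro t ht
      exact comm_of_sq P hsq (hTP ht) heP
    exact heN (hTN (hcT heT))
  · have hEq : P ⊓ N = T' := eq_of_le_card_le _ _ h (by omega)
    have hTP : T' ≤ P := by rw [← hEq]; exact inf_le_left
    have heT : e ∈ Subgroup.centralizer (T' : Set X) := by
      rw [Subgroup.mem_centralizer_iff]
      intro t ht
      exact comm_of_sq P hsq (hTP ht) heP
    exact heN (hT'N (hcT' heT))

end Cfsg.Agent.Lib.Helper87.Har
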