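import Mathlib
import Cfsg.Agent.Lib.Helper58.JEDefs
import Cfsg.Agent.Lib.Helper94.JcTH

/-!
# S2948 project JE (helper58), piece Y1

Proved by helper87: from `Data`, an element `y ∈ D ∖ C` with `y ^ 3 = 1` inverted by `b`.
-/

set_option autoImplicit false

namespace Cfsg.Agent.Lib.Helper87.JE

open Cfsg.Agent.Lib.Helper58.JE Cfsg.Agent.Lib.Helper72.JL Cfsg.Agent.Lib.Helper72.SC
  Cfsg.Agent.Lib.Helper78.Jc

universe u

/-- a subgroup `C` of index 3 in `D`, normalized by `D`: cubes of elements of `D` lie in `C` -/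
theorem y1_cube {G : Type u} [Group G] (C D : Subgroup G) (hCD : C ≤ D)
    (hn : D ≤ Subgroup.normalizer (C : Set G)) (h3 : C.relIndex D = 3) (x : G) (hx : x ∈ D) :
    x ^ 3 ∈ C := by
  have hnorm : (C.subgroupOf D).Normal := (Subgroup.normal_subgroupOf_iff_le_normalizer hCD).mpr hn
  have h := Subgroup.pow_index_mem (C.subgroupOf D) (⟨x, hx⟩ : D)
  have h' : (C.subgroupOf D).index = 3 := h3
  rw [h'] at h
  exact Subgroup.mem_subgroupOf.mp h

theorem y1 : Y1Stmt.{u} := by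
  intro G _ _ T L Q C V D A b hD
  have hbT : b ∈ T := hD.hA.1 hD.hbA
  have hbb : b * b = 1 := hD.hA.2.2.1 b hD.hbA
  have hbinv : b⁻¹ = b := inv_eq_of_mul_eq_one_left hbb
  have hbN : b ∈ Subgroup.normalizer (D : Set G) :=
    hD.hDJ (Cfsg.Agent.Lib.Helper94.Jc.th_le T A hD.hA hD.hbA)
  have hDn : D ≤ Subgroup.normalizer (C : Set G) := hD.hDL.trans hD.hCn
  have hcube : ∀ x ∈ D, x ^ 3 ∈ C := fun x hx => y1_cube C D hD.hCD hDn hD.hDC x hx
  -- an element of `D` outside `C`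
  obtain ⟨g, hgD, hgC⟩ : ∃ g ∈ D, g ∉ C := by
    by_contra hcon
    push Not at hcon
    have hle : D ≤ C := hcon
    have h1 := Subgroup.relIndex_eq_one.mpr hle
    rw [hD.hDC] at h1
    omega
  -- the commutator `d = [b, g]`
  obtain ⟨d, hd⟩ : ∃ d, d = b * g * b⁻¹ * g⁻¹ := ⟨_, rfl⟩
  have hbgD : b * g * b⁻¹ ∈ D := (Subgroup.mem_normalizer_iff.mp hbN g).mp hgD
  have hdD : d ∈ D := by
    rw [hd]
    exact D.mul_mem hbgD (D.inv_mem hgD)
  have hdC : d ∉ C := by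
    intro hdC
    have h1 := hD.hbD g hgD
    have h2 : g * g ∈ C := by
      have e : g * g = d⁻¹ * (b * g * b⁻¹ * g) := by
        rw [hd]
        group
      rw [e]
      exact C.mul_mem (C.inv_mem hdC) h1
    have h3 := hcube g hgD
    have e : g = g ^ 3 * (g * g)⁻¹ := by group
    apply hgC
    rw [e]
    exact C.mul_mem h3 (C.inv_mem h2)
  have hbd : b * d * b⁻¹ = d⁻¹ := by
    rw [hd, hbinv]
    have e1 : (b * g * b * g⁻¹)⁻¹ = g * b⁻¹ * g⁻¹ * b⁻¹ := by group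
    rw [e1, hbinv]
    calc b * (b * g * b * g⁻¹) * b = (b * b) * g * b * g⁻¹ * b := by group
      _ = g * b * g⁻¹ * b := by rw [hbb, one_mul]
  -- the `3`-part of `d`
  have hn0 : orderOf d ≠ 0 := (orderOf_pos d).ne'
  obtain ⟨a, ha⟩ : ∃ a : ℕ, a = (orderOf d).factorization 3 := ⟨_, rfl⟩
  obtain ⟨m, hm⟩ : ∃ m : ℕ, m = orderOf d / 3 ^ (orderOf d).factorization 3 := ⟨_, rfl⟩
  have hsplit : 3 ^ a * m = orderOf d := by
    rw [ha, hm]
    exact Nat.ordProj_mul_ordCompl_eq_self (orderOf d) 3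
  have hm3 : ¬ 3 ∣ m := by
    rw [hm]
    exact Nat.not_dvd_ordCompl Nat.prime_three hn0
  obtain ⟨y, hy⟩ : ∃ y, y = d ^ m := ⟨_, rfl⟩
  have hyD : y ∈ D := by
    rw [hy]
    exact D.pow_mem hdD m
  have hy3a : y ^ 3 ^ a = 1 := by
    rw [hy, ← pow_mul, mul_comm, hsplit]
    exact pow_orderOf_eq_one d
  have hby : b * y * b⁻¹ = y⁻¹ := by
    rw [hy, ← conj_pow, hbd, inv_pow]
  have hyC : y ∉ C := by
    intro hyC
    have hd3 : d ^ 3 ∈ C := hcube d hdD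
    have e : d ^ (m % 3) = (d ^ m) * ((d ^ 3) ^ (m / 3))⁻¹ := by
      rw [eq_mul_inv_iff_mul_eq, ← pow_mul, ← pow_add, Nat.mod_add_div]
    have h1 : d ^ (m % 3) ∈ C := by
      rw [e, ← hy]
      exact C.mul_mem hyC (C.inv_mem (C.pow_mem hd3 _))
    have hcases : m % 3 = 1 ∨ m % 3 = 2 := by
      have : m % 3 ≠ 0 := fun h => hm3 (Nat.dvd_of_mod_eq_zero h)
      omega
    rcases hcases with h | h
    · rw [h, pow_one] at h1
      exact hdC h1
    · rw [h] at h1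
      have e2 : d = d ^ 3 * (d ^ 2)⁻¹ := by group
      apply hdC
      rw [e2]
      exact C.mul_mem hd3 (C.inv_mem h1)
  -- `u = y ^ 3` is trivial
  have hu1 : y ^ 3 = 1 := by
    obtain ⟨u, hu⟩ : ∃ u, u = y ^ 3 := ⟨_, rfl⟩
    have huC : u ∈ C := by
      rw [hu]
      exact hcube y hyD
    have hbu : b * u⁻¹ * b⁻¹ = u := by
      rw [hu, ← inv_pow, ← conj_pow]
      have e : b * y⁻¹ * b⁻¹ = (b * y * b⁻¹)⁻¹ := by group
      rw [e, hby, inv_inv]
    have huT : u * u ∈ T := by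
      have h1 : u * b * u⁻¹ ∈ T := (Subgroup.mem_normalizer_iff.mp (hD.hCT huC) b).mp hbT
      have h2 : u * b * u⁻¹ * b⁻¹ ∈ T := T.mul_mem h1 (T.inv_mem hbT)
      have e : u * b * u⁻¹ * b⁻¹ = u * (b * u⁻¹ * b⁻¹) := by group
      rw [e, hbu] at h2
      exact h2
    obtain ⟨k, hk⟩ := hD.hT2 ⟨u * u, huT⟩
    have hk' : (u * u) ^ 2 ^ k = 1 := by
      have := congrArg (fun z : ↥T => (z : G)) hk
      simpa using this
    have h2 : u ^ 2 ^ (k + 1) = 1 := by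
      rw [pow_succ, mul_comm, pow_mul, pow_two]
      exact hk'
    have h3 : u ^ 3 ^ a = 1 := by
      rw [hu, ← pow_mul, mul_comm, pow_mul, hy3a, one_pow]
    have hd1 : orderOf u ∣ 2 ^ (k + 1) := orderOf_dvd_of_pow_eq_one h2
    have hd2 : orderOf u ∣ 3 ^ a := orderOf_dvd_of_pow_eq_one h3
    have hcop : Nat.Coprime (2 ^ (k + 1)) (3 ^ a) := Nat.Coprime.pow _ _ (by norm_num)
    have hd3 : orderOf u ∣ 1 := by
      have := Nat.dvd_gcd hd1 hd2
      rwa [hcop.gcd_eq_one] at this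
    have hu1 : u = 1 := orderOf_eq_one_iff.mp (Nat.dvd_one.mp hd3)
    rw [← hu]
    exact hu1
  exact ⟨y, hyD, hyC, hu1, hby⟩

end Cfsg.Agent.Lib.Helper87.JE
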