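import Mathlib
import Cfsg.Prelude.Def_LieTypeChar
import Cfsg.Agent.Lib.Lead.LTBCore
import Cfsg.Agent.Lib.Lead.LTBDefs

/-! S2363 project (lead), piece LTB-OODD: `oodd_stmt` (helper87). -/

set_option autoImplicit false

namespace Cfsg.Agent.Lib.Lead.LTB

open Cfsg

theorem ltboodd_prod_le (q : ℕ) (k : ℕ) :
    ∏ i ∈ Finset.range k, (q ^ (2 * (i + 1)) - 1) ≤ q ^ (k * (k + 1)) := by
  induction k with
  | zero => simp
  | succ k ih =>
    rw [Finset.prod_range_succ]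
    calc (∏ i ∈ Finset.range k, (q ^ (2 * (i + 1)) - 1)) * (q ^ (2 * (k + 1)) - 1)
        ≤ q ^ (k * (k + 1)) * q ^ (2 * (k + 1)) :=
          Nat.mul_le_mul ih (Nat.sub_le _ _)
      _ = q ^ ((k + 1) * (k + 1 + 1)) := by
          rw [← pow_add]
          congr 1
          ring

theorem ltboodd_prod_lt (q : ℕ) (hq : 1 ≤ q) (k : ℕ) :
    ∏ i ∈ Finset.range (k + 1), (q ^ (2 * (i + 1)) - 1) < q ^ ((k + 1) * (k + 1 + 1)) := by
  rw [Finset.prod_range_succ]
  have h1 : 0 < q ^ (2 * (k + 1)) := Nat.pos_of_ne_zero (pow_ne_zero _ (by omega))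
  have h2 : 0 < q ^ (k * (k + 1)) := Nat.pos_of_ne_zero (pow_ne_zero _ (by omega))
  calc (∏ i ∈ Finset.range k, (q ^ (2 * (i + 1)) - 1)) * (q ^ (2 * (k + 1)) - 1)
      < q ^ (k * (k + 1)) * q ^ (2 * (k + 1)) :=
        Nat.mul_lt_mul_of_le_of_lt (ltboodd_prod_le q k) (by omega) h2
    _ = q ^ ((k + 1) * (k + 1 + 1)) := by
        rw [← pow_add]
        congr 1
        ring

theorem oodd_stmt : OmegaOddStmt := by
  intro p hp F _ _ _ m hm hodd heq
  obtain ⟨f, _, hq⟩ := FiniteField.card F p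
  rw [hq] at heq hodd
  have hq2 : 2 ≤ p ^ (f : ℕ) := by
    calc 2 ≤ p := hp.two_le
      _ = p ^ 1 := (pow_one p).symm
      _ ≤ p ^ (f : ℕ) := Nat.pow_le_pow_right hp.pos f.pos
  have hd : ¬ p ∣ 2 := by
    intro h
    have hp2 : p = 2 := (Nat.prime_dvd_prime_iff_eq hp Nat.prime_two).mp h
    rw [hp2] at hodd
    have heven : Even (2 ^ (f : ℕ)) := (Nat.even_pow' f.pos.ne').mpr even_two
    exact (Nat.not_even_iff_odd.mpr hodd) heven
  set q : ℕ := p ^ (f : ℕ) with hqdef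
  have hqpos : 0 < q := by omega
  have hprodpos : 0 < ∏ i ∈ Finset.range m, (q ^ (2 * (i + 1)) - 1) := by
    apply Finset.prod_pos
    intro i _
    have : 2 ≤ q ^ (2 * (i + 1)) := by
      calc 2 ≤ q := hq2
        _ = q ^ 1 := (pow_one q).symm
        _ ≤ q ^ (2 * (i + 1)) := Nat.pow_le_pow_right hqpos (by omega)
    omega
  have hMpos : 0 < q ^ (m ^ 2) * ∏ i ∈ Finset.range m, (q ^ (2 * (i + 1)) - 1) := by
    positivity
  have hcard : Nat.card (POmega F (quadFormOdd m F)) ≠ 0 := by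
    intro h0
    rw [h0, mul_zero] at heq
    omega
  have : Finite (POmega F (quadFormOdd m F)) := Nat.finite_of_card_ne_zero hcard
  have hM : ∏ i ∈ Finset.range m, (q ^ (2 * (i + 1)) - 1) < q ^ (m * (m + 1)) := by
    obtain ⟨k, rfl⟩ : ∃ k, m = k + 1 := ⟨m - 1, by omega⟩
    exact ltboodd_prod_lt q (by omega) k
  have hD : 3 * (m ^ 2 + m * (m + 1)) ≤ 8 * m ^ 2 := by
    nlinarith [hm]
  exact goal_of_q_mul_bounds p hp f (m ^ 2) (m * (m + 1)) 2
    (∏ i ∈ Finset.range m, (q ^ (2 * (i + 1)) - 1)) hd heq hM hD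

end Cfsg.Agent.Lib.Lead.LTB
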