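import Mathlib
import Cfsg.Agent.Lib.Helper14.OSDefs

/-!
# Piece OS-N of S3421 (helper14): no normal subgroup of order `q + 1`
-/

set_option autoImplicit false

namespace Cfsg.Agent.Lib.Helper14.OS

/-- An element whose order is coprime to the index of a normal subgroup lies in it. -/
theorem osn_mem_of_coprime {G : Type*} [Group G] (M : Subgroup G) [M.Normal] (g : G)
    (h : Nat.Coprime (orderOf g) M.index) : g ∈ M := by
  have h1 : g ^ M.index ∈ M := Subgroup.pow_index_mem M g
  have h2 : (1 : ℤ) = (orderOf g : ℤ) * Nat.gcdA (orderOf g) M.index +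
      (M.index : ℤ) * Nat.gcdB (orderOf g) M.index := by
    have := Nat.gcd_eq_gcd_ab (orderOf g) M.index
    rw [h] at this
    exact_mod_cast this
  have h3 : g = (g ^ M.index) ^ (Nat.gcdB (orderOf g) M.index) := by
    conv_lhs => rw [← zpow_one g, h2]
    rw [zpow_add, zpow_mul, zpow_mul, zpow_natCast, zpow_natCast, pow_orderOf_eq_one, one_zpow,
      one_mul]
  rw [h3]
  exact M.zpow_mem h1 _

theorem osn_coprime (n : ℕ) : Nat.Coprime (n + 1) ((2 * n + 1) * n) := by
  rw [← Nat.isCoprime_iff_coprime]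
  refine ⟨-(2 * (n : ℤ) - 1), 1, ?_⟩
  push_cast
  ring

/-- The counting core: a normal subgroup of order `2 (n + 1)` in a group of order
`2 (n + 1) (2 n + 1) n` contains all elements of order dividing `n + 1`. -/
theorem osn_count {G : Type*} [Group G] [Finite G] (n : ℕ) (M : Subgroup G) (hM : M.Normal)
    (hcM : Nat.card M = 2 * (n + 1)) (hcG : Nat.card G = 2 * (n + 1) * ((2 * n + 1) * n)) :
    Nat.card (X G (n + 1)) ≤ 2 * n + 1 := by
  have hidx : M.index = (2 * n + 1) * n := by
    have h1 := M.card_mul_index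
    rw [hcM, hcG] at h1
    exact Nat.eq_of_mul_eq_mul_left (by omega) h1
  have hsub : X G (n + 1) ⊆ (M : Set G) \ {1} := by
    intro g hg
    refine ⟨?_, hg.1⟩
    apply osn_mem_of_coprime M g
    rw [hidx]
    exact Nat.Coprime.coprime_dvd_left hg.2 (osn_coprime n)
  have h2 : (X G (n + 1)).ncard ≤ ((M : Set G) \ {1}).ncard :=
    Set.ncard_le_ncard hsub (Set.toFinite _)
  have h3 : ((M : Set G) \ {1}).ncard = (M : Set G).ncard - 1 :=
    Set.ncard_sdiff_singleton_of_mem M.one_mem
  have h4 : (M : Set G).ncard = 2 * (n + 1) := by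
    rw [← hcM]; exact (Nat.card_coe_set_eq _).symm
  have h5 : Nat.card (X G (n + 1)) = (X G (n + 1)).ncard := Nat.card_coe_set_eq _
  omega

theorem no_normal_card {G : Type*} [Group G] [Finite G] {q a b : ℕ} (H : Hyp G q a b)
    (hNa : Nat.card (X G a) = (a - 1) * q * b) (hNb : Nat.card (X G b) = q * a * (b - 1))
    (M : Subgroup G) (hM : M.Normal) : Nat.card M ≠ q + 1 := by
  intro hcM
  have hab := H.hab
  have hb := H.hb
  have hcard := H.hcard
  rcases H.hdiff with hd | hd
  · -- a = b + 1, q = 2 b + 1, |M| = 2 a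
    subst hd
    have hq : q = 2 * b + 1 := by omega
    subst hq
    have h1 := osn_count b M hM (by omega) (by rw [hcard]; ring)
    rw [hNa] at h1
    have h2 : b + 1 - 1 = b := by omega
    rw [h2] at h1
    have h3 : 3 * (2 * b + 1) * 3 ≤ b * (2 * b + 1) * b :=
      Nat.mul_le_mul (Nat.mul_le_mul hb le_rfl) hb
    omega
  · -- b = a + 1, q = 2 a + 1, |M| = 2 b
    subst hd
    have hq : q = 2 * a + 1 := by omega
    subst hq
    have ha2 : 2 ≤ a := by
      obtain ⟨k, hk⟩ := H.ha
      omega
    have h1 := osn_count a M hM (by omega) (by rw [hcard]; ring)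
    rw [hNb] at h1
    have h2 : a + 1 - 1 = a := by omega
    rw [h2] at h1
    have h3 : (2 * a + 1) * 2 * 2 ≤ (2 * a + 1) * a * a :=
      Nat.mul_le_mul (Nat.mul_le_mul le_rfl ha2) ha2
    omega

end Cfsg.Agent.Lib.Helper14.OS
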