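import Cfsg.Agent.Lib.Helper47.OmcDefs

/-!
# OMC piece FIBERCOUNT (for helper47, S2683–S2685)
-/

set_option autoImplicit false

namespace Cfsg.Agent.Lib.Helper87.Omc

open Cfsg.Agent.Lib.Helper47 Matrix

theorem card_eq_card_mul_range {G : Type*} [Group G] [Finite G] (H : Subgroup G) {X : Type*}
    (α : G → X) (hα : ∀ g g' : G, α g = α g' ↔ g' * g⁻¹ ∈ H) :
    Nat.card G = Nat.card H * Nat.card (Set.range α) := by
  classical
  let f : G ⧸ H → Set.range α :=
    Quotient.lift (fun g : G => (⟨α g⁻¹, g⁻¹, rfl⟩ : Set.range α)) (by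
      intro a b hab
      have hab' : a⁻¹ * b ∈ H := QuotientGroup.leftRel_apply.mp hab
      apply Subtype.ext
      show α a⁻¹ = α b⁻¹
      rw [hα]
      simpa using H.inv_mem hab')
  have hf : Function.Bijective f := by
    constructor
    · intro x y
      induction x using QuotientGroup.induction_on with
      | H x =>
      induction y using QuotientGroup.induction_on with
      | H y =>
      intro h
      have h' : α x⁻¹ = α y⁻¹ := congrArg Subtype.val h
      rw [hα] at h'
      apply QuotientGroup.eq.mpr
      simpa using H.inv_mem h'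
    · rintro ⟨_, g, rfl⟩
      refine ⟨((g⁻¹ : G) : G ⧸ H), ?_⟩
      apply Subtype.ext
      show α (g⁻¹)⁻¹ = α g
      rw [inv_inv]
  rw [← Subgroup.card_mul_index H, Subgroup.index, Nat.card_congr (Equiv.ofBijective f hf)]

end Cfsg.Agent.Lib.Helper87.Omc
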