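import Cfsg.Agent.Lib.Helper47.OmcDefs

/-!
# OMC piece IMGFIX (for helper47, S2683–S2685)
-/

set_option autoImplicit false

namespace Cfsg.Agent.Lib.Helper87.Omc

open Cfsg.Agent.Lib.Helper47 Matrix

variable {F : Type*} [Field F]

theorem alpha_fixed [CharP F 2] (m : ℕ) (M A : Matrix (Fin m ⊕ Fin m) (Fin m ⊕ Fin m) F)
    (hMQ : ∀ v, Cfsg.quadFormPlus m F (M *ᵥ v) = Cfsg.quadFormPlus m F v) (hM2 : M * M = 1)
    (hAM : A * M = M * A) (a : Fin m ⊕ Fin m → F)
    (ha : ∀ v, Cfsg.quadFormPlus m F (A *ᵥ v)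
      = Cfsg.quadFormPlus m F v + (spForm (Fin m) F a v) ^ 2) : M *ᵥ a = a := by
  have hS := spForm_isSForm (F := F) (l := Fin m)
  have key : ∀ v, spForm (Fin m) F (M *ᵥ a) v = spForm (Fin m) F a v := by
    intro v
    have h1 := ha (M *ᵥ v)
    rw [Matrix.mulVec_mulVec, hAM, ← Matrix.mulVec_mulVec, hMQ, hMQ, ha] at h1
    have h2 : spForm (Fin m) F a (M *ᵥ v) = spForm (Fin m) F (M *ᵥ a) v := by
      have h := spForm_of_qplus m M hMQ (M *ᵥ a) v
      rw [Matrix.mulVec_mulVec, hM2, Matrix.one_mulVec] at h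
      exact h
    rw [← h2]
    have h3 : (spForm (Fin m) F a (M *ᵥ v) - spForm (Fin m) F a v) ^ 2 = 0 := by
      have h2' : (2 : F) = 0 := CharTwo.two_eq_zero
      linear_combination (-1 : F) * h1 + (spForm (Fin m) F a v ^ 2
        - spForm (Fin m) F a (M *ᵥ v) * spForm (Fin m) F a v) * h2'
    exact sub_eq_zero.mp ((pow_eq_zero_iff (two_ne_zero)).mp h3)
  have hz : M *ᵥ a - a = 0 := by
    apply spForm_nondeg (l := Fin m) (F := F)
    intro y
    have e : M *ᵥ a - a = M *ᵥ a + (-1 : F) • a := by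
      rw [neg_one_smul, sub_eq_add_neg]
    rw [e, hS.add_left, hS.smul_left, key]
    ring
  exact sub_eq_zero.mp hz

end Cfsg.Agent.Lib.Helper87.Omc
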