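import Mathlib
import Cfsg.Prelude.Def_FusionSystem
import Cfsg.Agent.Lib.Helper90.Basic
import Cfsg.Agent.Lib.Helper91.KLBasic
import Cfsg.Agent.Lib.Helper91.Sat2
import Cfsg.Agent.Lib.Helper87.Fusion10

set_option autoImplicit false

/-!
# Subsystems of `p`-power index: generic lemmas on `O^p` of automorphism groups

Transport of elements of `O^p(A)` along semiconjugacies and along extensions, and the
decomposition `Aut_F(P) = Aut_S(P) O^p(Aut_F(P))` for a fully automized subgroup.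
-/

namespace Cfsg.Agent.Lib.Helper87

open Cfsg Cfsg.FusionSystem Cfsg.Agent.Lib.Helper90 Cfsg.Agent.Lib.Helper91

variable {Ω : Type*} [Group Ω]

/-- Elements of `O^p(A)` can be transported along an injective semiconjugacy `j`. -/
theorem pp_semiconj {P R : Subgroup Ω} (p : ℕ) (A : Subgroup (MulAut P)) (B : Subgroup (MulAut R))
    (j : Ω → Ω) (hj : ∀ x ∈ R, j x ∈ P) (hinj : ∀ x ∈ R, ∀ y ∈ R, j x = j y → x = y)
    (hex : ∀ γ ∈ A, ∃ δ ∈ B, ∀ x : R, j ((δ x : R) : Ω) = ((γ ⟨j x, hj x x.2⟩ : P) : Ω))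
    (n : A) (hn : n ∈ Cfsg.pResidual p A) :
    ∃ n' : B, n' ∈ Cfsg.pResidual p B ∧
      ∀ x : R, j ((((n' : MulAut R) x : R)) : Ω) = (((n : MulAut P) ⟨j x, hj x x.2⟩ : P) : Ω) := by
  refine Subgroup.closure_induction (p := fun (n : A) _ => ∃ n' : B, n' ∈ Cfsg.pResidual p B ∧
      ∀ x : R, j ((((n' : MulAut R) x : R)) : Ω) = (((n : MulAut P) ⟨j x, hj x x.2⟩ : P) : Ω))
    ?_ ?_ ?_ ?_ hn
  · intro γ hγ
    obtain ⟨δ, hδ, hδj⟩ := hex γ γ.2
    have hpow : ∀ k : ℕ, ∀ x : R,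
        j (((δ ^ k) x : R) : Ω) = ((((γ : MulAut P) ^ k) ⟨j x, hj x x.2⟩ : P) : Ω) := by
      intro k
      induction k with
      | zero => intro x; rfl
      | succ k ih =>
        intro x
        rw [pow_succ, pow_succ, MulAut.mul_apply, MulAut.mul_apply, ih]
        have h1 : (⟨j ((δ x : R) : Ω), hj _ (δ x).2⟩ : P) = (γ : MulAut P) ⟨j x, hj x x.2⟩ :=
          Subtype.ext (hδj x)
        rw [h1]
    have h1 : (⟨δ, hδ⟩ : B) ^ orderOf γ = 1 := by
      apply Subtype.ext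
      apply MulEquiv.ext
      intro x
      apply Subtype.ext
      apply hinj _ (Subtype.property _) _ x.2
      have h2 : (γ : MulAut P) ^ orderOf γ = 1 := by
        rw [← Subgroup.coe_pow, pow_orderOf_eq_one]
        rfl
      have h3 := hpow (orderOf γ) x
      rw [h2] at h3
      exact h3
    refine ⟨⟨δ, hδ⟩, Subgroup.subset_closure ?_, hδj⟩
    show Nat.Coprime (orderOf (⟨δ, hδ⟩ : B)) p
    exact Nat.Coprime.coprime_dvd_left (orderOf_dvd_of_pow_eq_one h1) hγ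
  · exact ⟨1, Subgroup.one_mem _, fun x => rfl⟩
  · rintro n₁ n₂ - - ⟨m₁, hm₁, h₁⟩ ⟨m₂, hm₂, h₂⟩
    refine ⟨m₁ * m₂, Subgroup.mul_mem _ hm₁ hm₂, fun x => ?_⟩
    have h3 := h₁ ((m₂ : MulAut R) x)
    have h4 : (⟨j ((((m₂ : MulAut R) x : R)) : Ω), hj _ (Subtype.property _)⟩ : P) =
        (n₂ : MulAut P) ⟨j x, hj x x.2⟩ := Subtype.ext (h₂ x)
    rw [h4] at h3
    exact h3
  · rintro n₁ - ⟨m, hm, h⟩
    refine ⟨m⁻¹, Subgroup.inv_mem _ hm, fun x => ?_⟩
    have h3 := h (((m⁻¹ : B) : MulAut R) x)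
    have h4 : (m : MulAut R) (((m⁻¹ : B) : MulAut R) x) = x := by
      show ((m : MulAut R) * ((m⁻¹ : B) : MulAut R)) x = x
      rw [← Subgroup.coe_mul, mul_inv_cancel]
      rfl
    rw [h4] at h3
    have h5 : (n₁ : MulAut P) ⟨j ((((m⁻¹ : B) : MulAut R) x : R) : Ω), hj _ (Subtype.property _)⟩ =
        ⟨j x, hj x x.2⟩ := Subtype.ext h3.symm
    have h6 : (⟨j ((((m⁻¹ : B) : MulAut R) x : R) : Ω), hj _ (Subtype.property _)⟩ : P) =
        ((n₁⁻¹ : A) : MulAut P) ⟨j x, hj x x.2⟩ := by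
      rw [← h5]
      show _ = (((n₁⁻¹ : A) : MulAut P) * (n₁ : MulAut P)) _
      rw [← Subgroup.coe_mul, inv_mul_cancel]
      rfl
    exact congrArg Subtype.val h6

/-- Elements of `O^p(A)` can be extended to elements of `O^p(B)` as soon as every element of
`A` extends to an element of `B`. -/
theorem pp_extend (p : ℕ) [Fact p.Prime] {P X : Subgroup Ω} [Finite X] (hPX : P ≤ X)
    (A : Subgroup (MulAut P)) (B : Subgroup (MulAut X))
    (hex : ∀ γ ∈ A, ∃ δ ∈ B,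
      ∀ x : P, ((δ (Subgroup.inclusion hPX x) : X) : Ω) = ((γ x : P) : Ω))
    (n : A) (hn : n ∈ Cfsg.pResidual p A) :
    ∃ n' : B, n' ∈ Cfsg.pResidual p B ∧
      ∀ x : P, (((n' : MulAut X) (Subgroup.inclusion hPX x) : X) : Ω) =
        (((n : MulAut P) x : P) : Ω) := by
  have hp : p.Prime := Fact.out
  refine Subgroup.closure_induction (p := fun (n : A) _ => ∃ n' : B, n' ∈ Cfsg.pResidual p B ∧
      ∀ x : P, (((n' : MulAut X) (Subgroup.inclusion hPX x) : X) : Ω) =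
        (((n : MulAut P) x : P) : Ω)) ?_ ?_ ?_ ?_ hn
  · intro γ hγ
    obtain ⟨δ, hδ, hδγ⟩ := hex γ γ.2
    have hδ' : ∀ x : P, δ (Subgroup.inclusion hPX x) = Subgroup.inclusion hPX ((γ : MulAut P) x) :=
      fun x => Subtype.ext (hδγ x)
    have hpow : ∀ k : ℕ, ∀ x : P,
        (δ ^ k) (Subgroup.inclusion hPX x) = Subgroup.inclusion hPX (((γ : MulAut P) ^ k) x) := by
      intro k
      induction k with
      | zero => intro x; rfl
      | succ k ih =>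
        intro x
        rw [pow_succ, pow_succ, MulAut.mul_apply, MulAut.mul_apply, hδ', ih]
    have hfin : Finite (MulAut X) := inferInstance
    have h0 : orderOf (⟨δ, hδ⟩ : B) ≠ 0 := (orderOf_pos _).ne'
    obtain ⟨e, m, hm, hem⟩ := Nat.exists_eq_pow_mul_and_not_dvd h0 p hp.ne_one
    have hco : Nat.Coprime (orderOf γ) (p ^ e) := Nat.Coprime.pow_right e hγ
    obtain ⟨N, hN1, hN0⟩ := Nat.chineseRemainder hco 1 0
    have hN0' : p ^ e ∣ N := (Nat.modEq_zero_iff_dvd).1 hN0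
    have hγN : γ ^ N = γ := by
      have := (pow_eq_pow_iff_modEq (x := γ) (n := N) (m := 1)).2 hN1
      rwa [pow_one] at this
    have h1 : ((⟨δ, hδ⟩ : B) ^ N) ^ m = 1 := by
      rw [← pow_mul]
      apply orderOf_dvd_iff_pow_eq_one.1
      rw [hem]
      exact Nat.mul_dvd_mul_right hN0' m
    have hm' : Nat.Coprime m p := by
      rw [Nat.coprime_comm]
      exact (Nat.Prime.coprime_iff_not_dvd hp).2 hm
    refine ⟨(⟨δ, hδ⟩ : B) ^ N, Subgroup.subset_closure ?_, fun x => ?_⟩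
    · show Nat.Coprime (orderOf ((⟨δ, hδ⟩ : B) ^ N)) p
      exact Nat.Coprime.coprime_dvd_left (orderOf_dvd_of_pow_eq_one h1) hm'
    · have h2 : (((⟨δ, hδ⟩ : B) ^ N : B) : MulAut X) = δ ^ N := rfl
      rw [h2, hpow N x]
      have h3 : (γ : MulAut P) ^ N = (γ : MulAut P) := by
        rw [← Subgroup.coe_pow, hγN]
      rw [h3]
      rfl
  · exact ⟨1, Subgroup.one_mem _, fun x => rfl⟩
  · rintro n₁ n₂ - - ⟨m₁, hm₁, h₁⟩ ⟨m₂, hm₂, h₂⟩
    refine ⟨m₁ * m₂, Subgroup.mul_mem _ hm₁ hm₂, fun x => ?_⟩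
    have h3 : (m₂ : MulAut X) (Subgroup.inclusion hPX x) =
        Subgroup.inclusion hPX ((n₂ : MulAut P) x) := Subtype.ext (h₂ x)
    show (((m₁ : MulAut X) ((m₂ : MulAut X) (Subgroup.inclusion hPX x)) : X) : Ω) = _
    rw [h3, h₁]
    rfl
  · rintro n₁ - ⟨m, hm, h⟩
    refine ⟨m⁻¹, Subgroup.inv_mem _ hm, fun x => ?_⟩
    have h3 : (m : MulAut X) (Subgroup.inclusion hPX (((n₁⁻¹ : A) : MulAut P) x)) =
        Subgroup.inclusion hPX x := by
      apply Subtype.ext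
      rw [h]
      show ((((n₁ : MulAut P) * ((n₁⁻¹ : A) : MulAut P)) x : P) : Ω) = _
      rw [← Subgroup.coe_mul, mul_inv_cancel]
      rfl
    have h4 : ((m⁻¹ : B) : MulAut X) (Subgroup.inclusion hPX x) =
        Subgroup.inclusion hPX (((n₁⁻¹ : A) : MulAut P) x) := by
      rw [← h3]
      show ((((m⁻¹ : B) : MulAut X) * (m : MulAut X)) _) = _
      rw [← Subgroup.coe_mul, inv_mul_cancel]
      rfl
    rw [h4]
    rfl

variable {S : Subgroup Ω}

/-- For a fully automized subgroup, `Aut_F(P) = Aut_S(P) O^p(Aut_F(P))`. -/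
theorem pp_decomp [Finite S] (p : ℕ) [Fact p.Prime] (F : FusionSystem S) {P : Subgroup Ω}
    (hfa : F.IsFullyAutomized p P) (α : MulAut P) (hα : α ∈ F.autGroup P) :
    ∃ g ∈ S, ∃ n : F.autGroup P, n ∈ Cfsg.pResidual p (F.autGroup P) ∧
      ∀ x : P, ((α x : P) : Ω) = g * (((n : MulAut P) x : P) : Ω) * g⁻¹ := by
  obtain ⟨hPS, R, hR⟩ := hfa
  have : Finite P := Cfsg.Agent.Lib.Helper90.finite_of_le hPS
  have hfin : Finite (F.autGroup P) := inferInstance
  have htop : (⟨α, hα⟩ : F.autGroup P) ∈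
      (R : Subgroup (F.autGroup P)) ⊔ Cfsg.pResidual p (F.autGroup P) := by
    rw [sup_comm, pResidual_sup_sylow p R]
    exact Subgroup.mem_top _
  have hNn : (Cfsg.pResidual p (F.autGroup P)).Normal := pResidual_normal p
  obtain ⟨r, hr, n, hn, hrn⟩ := exists_mul_of_mem_sup
    (fun u _ q hq => hNn.conj_mem q hq u) htop
  have hr' : (r : MulAut P) ∈ Cfsg.autInducedBy S P := by
    rw [hR] at hr
    exact hr
  obtain ⟨g, hgS, hg⟩ := (Cfsg.Agent.Lib.Helper90.mem_autInducedBy_iff S P _).1 hr'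
  have hα2 : α = (r : MulAut P) * (n : MulAut P) := congrArg Subtype.val hrn
  refine ⟨g, hgS, n, hn, fun x => ?_⟩
  rw [hα2, MulAut.mul_apply, hg]

/-- Function-level form of `pp_decomp`. -/
theorem pp_mor_decomp [Finite S] (p : ℕ) [Fact p.Prime] (F : FusionSystem S) {P : Subgroup Ω}
    (hfa : F.IsFullyAutomized p P) {f : Ω → Ω} (hf : Mor F P f) (hfP : ∀ x ∈ P, f x ∈ P) :
    ∃ g ∈ S, ∃ n : F.autGroup P, n ∈ Cfsg.pResidual p (F.autGroup P) ∧
      ∀ x : P, f x = g * (((n : MulAut P) x : P) : Ω) * g⁻¹ := by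
  have : Finite P := Cfsg.Agent.Lib.Helper90.finite_of_le hfa.1
  obtain ⟨α, hα, hαf⟩ := exists_aut_of_mor hf hfP
  obtain ⟨g, hg, n, hn, h⟩ := pp_decomp p F hfa α hα
  exact ⟨g, hg, n, hn, fun x => by rw [← hαf, h]⟩

/-- Conjugation by elements of `S` preserves a subgroup normal in `S`. -/
theorem pp_conj_mem {T : Subgroup Ω} (hTS : T ≤ S) (hTn : (T.subgroupOf S).Normal)
    {g : Ω} (hg : g ∈ S) {y : Ω} (hy : y ∈ T) : g * y * g⁻¹ ∈ T := by
  have h1 := hTn.conj_mem ⟨y, hTS hy⟩ (Subgroup.mem_subgroupOf.2 hy) ⟨g, hg⟩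
  exact Subgroup.mem_subgroupOf.1 h1

theorem pp_conj_mem_iff {T : Subgroup Ω} (hTS : T ≤ S) (hTn : (T.subgroupOf S).Normal)
    {g : Ω} (hg : g ∈ S) {y : Ω} : g * y * g⁻¹ ∈ T ↔ y ∈ T := by
  constructor
  · intro h
    have h1 := pp_conj_mem hTS hTn (S.inv_mem hg) h
    have h2 : g⁻¹ * (g * y * g⁻¹) * g⁻¹⁻¹ = y := by group
    rwa [h2] at h1
  · exact pp_conj_mem hTS hTn hg

end Cfsg.Agent.Lib.Helper87
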