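import Cfsg.Agent.Lib.Helper87.PPowA

set_option autoImplicit false

/-!
# Subsystems of `p`-power index: strong closure, invariance and the Frattini condition

Let `F` be a saturated fusion system over `S`, `T` a normal subgroup of `S` containing the
hyperfocal subgroup, and `E` a saturated subsystem over `T` of `p`-power index. Then `T` is
strongly closed, `E` is invariant under `Aut_F(T)`, and every map of `F` between subgroups of
`T` is a map of `E` followed by an element of `Aut_F(T)`.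
-/

namespace Cfsg.Agent.Lib.Helper87

open Cfsg Cfsg.FusionSystem Cfsg.Agent.Lib.Helper90 Cfsg.Agent.Lib.Helper91

variable {Ω : Type*} [Group Ω] {S : Subgroup Ω}

theorem pp_mem_hyp {F : FusionSystem S} {p : ℕ} {P : Subgroup Ω} (hPS : P ≤ S)
    (n : F.autGroup P) (hn : n ∈ Cfsg.pResidual p (F.autGroup P)) (x : P) :
    (x : Ω)⁻¹ * (((n : MulAut P) x : P) : Ω) ∈ F.hyperfocalSubgroup p :=
  Subgroup.subset_closure ⟨P, n, x, hPS, hn, rfl⟩

theorem pp_sub {T : Subgroup Ω} {E : FusionSystem T} {F : FusionSystem S}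
    (hsub : E.IsSubsystemOf F) {P : Subgroup Ω} {f : Ω → Ω} (h : Mor E P f) : Mor F P f := by
  obtain ⟨φ, hφ, hf⟩ := h
  exact ⟨φ, hsub P hφ, hf⟩

/-- `T` is strongly closed (in a two-sided form). -/
theorem pp_sc [Finite S] (p : ℕ) [Fact p.Prime] (hS : IsPGroup p S) (F : FusionSystem S)
    (hF : F.IsSaturated p) (T : Subgroup Ω) (hTS : T ≤ S) (hTn : (T.subgroupOf S).Normal)
    (hT : F.hyperfocalSubgroup p ≤ T) :
    ∀ (P : Subgroup Ω) (f : Ω → Ω), Mor F P f → ∀ x ∈ P, (x ∈ T ↔ f x ∈ T) := by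
  refine alperin_induction hS hF (fun P f => ∀ x ∈ P, (x ∈ T ↔ f x ∈ T)) ?_ ?_ ?_ ?_ ?_
  · intro P f g hgood hfg x hx
    rw [← hfg x hx]
    exact hgood x hx
  · intro P P₀ f _ hgood h0 x hx
    exact hgood x (h0 hx)
  · intro P Q f g _ _ hPQ hf hg x hx
    exact (hf x hx).trans (hg (f x) (hPQ x hx))
  · intro P f hf hgood y hy
    obtain ⟨x, hx, rfl⟩ := hf.mem_img.mp hy
    rw [hf.invFn_apply hx]
    exact (hgood x hx).symm
  · intro P hfa _ _ f hf hfP x hx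
    obtain ⟨g, hg, n, hn, hfn⟩ := pp_mor_decomp p F hfa hf hfP
    rw [hfn ⟨x, hx⟩, pp_conj_mem_iff hTS hTn hg]
    have h1 := hT (pp_mem_hyp hfa.1 n hn ⟨x, hx⟩)
    constructor
    · intro hxT
      have h2 := T.mul_mem hxT h1
      rwa [mul_inv_cancel_left] at h2
    · intro hnT
      have h2 := T.mul_mem hnT (T.inv_mem h1)
      have h3 : ((((n : MulAut P) ⟨x, hx⟩ : P)) : Ω) *
          (x⁻¹ * ((((n : MulAut P) ⟨x, hx⟩ : P)) : Ω))⁻¹ = x := by group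
      rwa [h3] at h2

/-- A pair of mutually inverse automorphisms of `T` in `F`, at the level of functions. -/
structure PPAutPair (F : FusionSystem S) (T : Subgroup Ω) (a b : Ω → Ω) : Prop where
  ma : Mor F T a
  mb : Mor F T b
  ha : ∀ x ∈ T, a x ∈ T
  hb : ∀ x ∈ T, b x ∈ T
  hba : ∀ x ∈ T, b (a x) = x
  hab : ∀ x ∈ T, a (b x) = x

theorem PPAutPair.symm {F : FusionSystem S} {T : Subgroup Ω} {a b : Ω → Ω}
    (h : PPAutPair F T a b) : PPAutPair F T b a :=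
  ⟨h.mb, h.ma, h.hb, h.ha, h.hab, h.hba⟩

theorem PPAutPair.comp {F : FusionSystem S} {T : Subgroup Ω} {a b a₂ b₂ : Ω → Ω}
    (h : PPAutPair F T a b) (h₂ : PPAutPair F T a₂ b₂) : PPAutPair F T (a₂ ∘ a) (b ∘ b₂) := by
  refine ⟨h.ma.comp h₂.ma h.ha, h₂.mb.comp h.mb h₂.hb, fun x hx => h₂.ha _ (h.ha x hx),
    fun x hx => h.hb _ (h₂.hb x hx), fun x hx => ?_, fun x hx => ?_⟩
  · show b (b₂ (a₂ (a x))) = x
    rw [h₂.hba _ (h.ha x hx), h.hba x hx]
  · show a₂ (a (b (b₂ x))) = x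
    rw [h.hab _ (h₂.hb x hx), h₂.hab x hx]

theorem pp_autPair_conj (F : FusionSystem S) {T : Subgroup Ω} (hTS : T ≤ S)
    (hTn : (T.subgroupOf S).Normal) {g : Ω} (hg : g ∈ S) :
    PPAutPair F T (fun x => g * x * g⁻¹) (fun x => g⁻¹ * x * g⁻¹⁻¹) := by
  refine ⟨mor_conj F hTS hg, mor_conj F hTS (S.inv_mem hg),
    fun x hx => pp_conj_mem hTS hTn hg hx, fun x hx => pp_conj_mem hTS hTn (S.inv_mem hg) hx,
    fun x _ => ?_, fun x _ => ?_⟩
  · show g⁻¹ * (g * x * g⁻¹) * g⁻¹⁻¹ = x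
    group
  · show g * (g⁻¹ * x * g⁻¹⁻¹) * g⁻¹ = x
    group

theorem pp_autPair_of_aut (F : FusionSystem S) {T : Subgroup Ω} (hTS : T ≤ S)
    (α : MulAut T) (hα : α ∈ F.autGroup T) :
    PPAutPair F T (autFun T α) (autFun T α⁻¹) := by
  refine ⟨(Cfsg.Agent.Lib.Helper90.mem_autGroup_iff F hTS α).1 hα,
    (Cfsg.Agent.Lib.Helper90.mem_autGroup_iff F hTS α⁻¹).1 (Subgroup.inv_mem _ hα),
    fun x hx => autFun_mem α hx, fun x hx => autFun_mem α⁻¹ hx, fun x hx => ?_, fun x hx => ?_⟩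
  · rw [autFun_apply' α hx, autFun_apply]
    simp
  · rw [autFun_apply' α⁻¹ hx, autFun_apply]
    simp

/-- Invariance: conjugating a map of `E` by an automorphism of `T` in `F` gives a map of `E`. -/
theorem pp_inv [Finite S] (p : ℕ) [Fact p.Prime] (hS : IsPGroup p S) (F : FusionSystem S)
    (T : Subgroup Ω) (hTS : T ≤ S) (E : FusionSystem T) (hEs : E.IsSaturated p)
    (hEi : E.HasPPowerIndexIn F p) {a b : Ω → Ω} (hab : PPAutPair F T a b) :
    ∀ (R : Subgroup Ω) (h : Ω → Ω), Mor E R h → Mor E (img R a) (a ∘ h ∘ b) := by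
  have hfinT : Finite T := Cfsg.Agent.Lib.Helper90.finite_of_le hTS
  have hST : IsPGroup p T := hS.to_le hTS
  have hbmem : ∀ (R : Subgroup Ω), R ≤ T → ∀ y ∈ img R a, ∃ x ∈ R, a x = y ∧ b y = x := by
    intro R hRT y hy
    obtain ⟨x, hx, rfl⟩ := (hab.ma.restrict hRT).mem_img.mp hy
    exact ⟨x, hx, rfl, hab.hba x (hRT hx)⟩
  have key : ∀ (R : Subgroup Ω) (h : Ω → Ω), Mor E R h →
      (R ≤ T ∧ Mor E (img R a) (a ∘ h ∘ b)) := by
    refine alperin_induction hST hEs (fun R h => R ≤ T ∧ Mor E (img R a) (a ∘ h ∘ b))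
      ?_ ?_ ?_ ?_ ?_
    · rintro R h h' ⟨hRT, hgood⟩ hhh'
      refine ⟨hRT, hgood.congr ?_⟩
      intro y hy
      obtain ⟨x, hx, -, hbx⟩ := hbmem R hRT y hy
      show a (h (b y)) = a (h' (b y))
      rw [hbx, hhh' x hx]
    · rintro R R₀ h - ⟨hRT, hgood⟩ h0
      exact ⟨h0.trans hRT, hgood.restrict (Subgroup.closure_mono (Set.image_mono h0))⟩
    · rintro R Q h k hh hk hRQ ⟨hRT, gh⟩ ⟨hQT, gk⟩
      refine ⟨hRT, (gh.comp gk ?_).congr ?_⟩
      · intro y hy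
        obtain ⟨x, hx, -, hbx⟩ := hbmem R hRT y hy
        show a (h (b y)) ∈ img Q a
        rw [hbx]
        exact (hab.ma.restrict hQT).mem_img_of_mem (hRQ x hx)
      · intro y hy
        obtain ⟨x, hx, -, hbx⟩ := hbmem R hRT y hy
        show a (k (b (a (h (b y))))) = a (k (h (b y)))
        rw [hbx, hab.hba _ (hQT (hRQ x hx))]
    · rintro R h hh ⟨hRT, gh⟩
      have hR₁T : img R h ≤ T := hh.img_le
      refine ⟨hR₁T, ?_⟩
      have himg : img (img R a) (a ∘ h ∘ b) = img (img R h) a := by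
        ext y
        rw [gh.mem_img, (hab.ma.restrict hR₁T).mem_img]
        constructor
        · rintro ⟨z, hz, rfl⟩
          obtain ⟨x, hx, -, hbx⟩ := hbmem R hRT z hz
          refine ⟨h x, hh.mem_img_of_mem hx, ?_⟩
          show a (h x) = a (h (b z))
          rw [hbx]
        · rintro ⟨w, hw, rfl⟩
          obtain ⟨x, hx, rfl⟩ := hh.mem_img.mp hw
          refine ⟨a x, (hab.ma.restrict hRT).mem_img_of_mem hx, ?_⟩
          show a (h (b (a x))) = a (h x)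
          rw [hab.hba x (hRT hx)]
      have h1 := gh.inv
      rw [himg] at h1
      refine h1.congr ?_
      intro y hy
      obtain ⟨w, hw, rfl⟩ := (hab.ma.restrict hR₁T).mem_img.mp hy
      obtain ⟨x, hx, rfl⟩ := hh.mem_img.mp hw
      have h2 : a (h x) = (a ∘ h ∘ b) (a x) := by
        show a (h x) = a (h (b (a x)))
        rw [hab.hba x (hRT hx)]
      have h3 : invFn (img R a) (a ∘ h ∘ b) (a (h x)) = a x := by
        rw [h2]
        exact gh.invFn_apply ((hab.ma.restrict hRT).mem_img_of_mem hx)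
      rw [h3]
      show a x = a (invFn R h (b (a (h x))))
      rw [hab.hba _ (hR₁T hw), hh.invFn_apply hx]
    · intro R hfa _ _ h hh hhR
      have hRT : R ≤ T := hh.le
      refine ⟨hRT, ?_⟩
      obtain ⟨t, ht, n, hn, hhn⟩ := pp_mor_decomp p E hfa hh hhR
      have haR : Mor F R a := hab.ma.restrict hRT
      have hR'T : img R a ≤ T := by
        intro y hy
        obtain ⟨x, hx, rfl⟩ := haR.mem_img.mp hy
        exact hab.ha x (hRT hx)
      have hR'S : img R a ≤ S := hR'T.trans hTS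
      have hfinR' : Finite (img R a) := Cfsg.Agent.Lib.Helper90.finite_of_le hR'S
      have hj : ∀ y ∈ img R a, b y ∈ R := by
        intro y hy
        obtain ⟨x, hx, -, hbx⟩ := hbmem R hRT y hy
        rw [hbx]
        exact hx
      have hinj : ∀ y₁ ∈ img R a, ∀ y₂ ∈ img R a, b y₁ = b y₂ → y₁ = y₂ := by
        intro y₁ hy₁ y₂ hy₂ h12
        rw [← hab.hab y₁ (hR'T hy₁), ← hab.hab y₂ (hR'T hy₂), h12]
      have hex : ∀ γ ∈ E.autGroup R, ∃ δ ∈ F.autGroup (img R a),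
          ∀ y : img R a, b ((δ y : img R a) : Ω) = ((γ ⟨b y, hj y y.2⟩ : R) : Ω) := by
        intro γ hγ
        have Mγ : Mor F R (autFun R γ) :=
          pp_sub hEi.1 ((Cfsg.Agent.Lib.Helper90.mem_autGroup_iff E hRT γ).1 hγ)
        have M1 : Mor F (img R a) (a ∘ (autFun R γ ∘ b)) :=
          (((hab.mb.restrict hR'T).comp Mγ hj).comp haR
            (fun y hy => autFun_mem γ (hj y hy)))
        obtain ⟨δ, hδ, hδv⟩ := exists_aut_of_mor M1
          (fun y hy => haR.mem_img_of_mem (autFun_mem γ (hj y hy)))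
        refine ⟨δ, hδ, fun y => ?_⟩
        rw [hδv]
        show b (a (autFun R γ (b y))) = _
        rw [hab.hba _ (hRT (autFun_mem γ (hj y y.2))), autFun_apply' γ (hj y y.2)]
      obtain ⟨n', hn', hn'j⟩ := pp_semiconj p (E.autGroup R) (F.autGroup (img R a)) b hj hinj hex
        n hn
      have hn'E : (n' : MulAut (img R a)) ∈ E.autGroup (img R a) :=
        hEi.2.2 (img R a) hR'T ⟨n', hn', rfl⟩
      have M1 : Mor E (img R a) (autFun (img R a) (n' : MulAut (img R a))) :=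
        (Cfsg.Agent.Lib.Helper90.mem_autGroup_iff E hR'T _).1 hn'E
      have M2 : Mor E (img R a) (fun y => a t * y * (a t)⁻¹) := mor_conj E hR'T (hab.ha t ht)
      refine (M1.comp M2 (fun y hy => autFun_mem _ hy)).congr ?_
      intro y hy
      show a t * autFun (img R a) (n' : MulAut (img R a)) y * (a t)⁻¹ = a (h (b y))
      rw [autFun_apply' _ hy]
      have hby : b y ∈ R := hj y hy
      have e1 := hhn ⟨b y, hby⟩
      have e2 := hn'j ⟨y, hy⟩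
      have e3 : a (b ((((n' : MulAut (img R a)) ⟨y, hy⟩ : img R a)) : Ω)) =
          ((((n' : MulAut (img R a)) ⟨y, hy⟩ : img R a)) : Ω) :=
        hab.hab _ (hR'T (Subtype.property _))
      have hu : ((((n : MulAut R) ⟨b y, hby⟩ : R)) : Ω) ∈ T := hRT (Subtype.property _)
      rw [e1, hab.ma.map_mul (T.mul_mem ht hu) (T.inv_mem ht), hab.ma.map_mul ht hu,
        hab.ma.map_inv ht, ← e2, e3]
  intro R h hh
  exact (key R h hh).2

/-- The Frattini condition, at the level of functions. -/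
theorem pp_frattini [Finite S] (p : ℕ) [Fact p.Prime] (hS : IsPGroup p S) (F : FusionSystem S)
    (hF : F.IsSaturated p) (T : Subgroup Ω) (hTS : T ≤ S) (hTn : (T.subgroupOf S).Normal)
    (hT : F.hyperfocalSubgroup p ≤ T) (E : FusionSystem T) (hEs : E.IsSaturated p)
    (hEi : E.HasPPowerIndexIn F p) :
    ∀ (P : Subgroup Ω) (f : Ω → Ω), Mor F P f →
      ∃ a b, PPAutPair F T a b ∧ ∃ f₀, Mor E (P ⊓ T) f₀ ∧ ∀ x ∈ P ⊓ T, f x = a (f₀ x) := by
  have hsc := pp_sc p hS F hF T hTS hTn hT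
  refine alperin_induction hS hF (fun P f => ∃ a b, PPAutPair F T a b ∧
    ∃ f₀, Mor E (P ⊓ T) f₀ ∧ ∀ x ∈ P ⊓ T, f x = a (f₀ x)) ?_ ?_ ?_ ?_ ?_
  · rintro P f g ⟨a, b, hab, f₀, hf₀, hff₀⟩ hfg
    exact ⟨a, b, hab, f₀, hf₀, fun x hx => by rw [← hfg x hx.1]; exact hff₀ x hx⟩
  · rintro P P₀ f - ⟨a, b, hab, f₀, hf₀, hff₀⟩ h0
    exact ⟨a, b, hab, f₀, hf₀.restrict (inf_le_inf_right T h0),
      fun x hx => hff₀ x ⟨h0 hx.1, hx.2⟩⟩
  · rintro P Q f g hf hg hPQ ⟨a, b, hab, f₀, hf₀, hff₀⟩ ⟨a₂, b₂, hab₂, g₀, hg₀, hgg₀⟩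
    have hfPT : Mor F (P ⊓ T) f := hf.restrict inf_le_left
    have hfT : ∀ x ∈ P ⊓ T, f x ∈ Q ⊓ T := fun x hx =>
      ⟨hPQ x hx.1, (hsc P f hf x hx.1).1 hx.2⟩
    have hR₂ : img (P ⊓ T) f ≤ Q ⊓ T := by
      intro y hy
      obtain ⟨x, hx, rfl⟩ := hfPT.mem_img.mp hy
      exact hfT x hx
    have M1 : Mor E (img (img (P ⊓ T) f) b) (b ∘ g₀ ∘ a) :=
      pp_inv p hS F T hTS E hEs hEi hab.symm _ _ (hg₀.restrict hR₂)
    have hbR₂ : Mor F (img (P ⊓ T) f) b := hab.mb.restrict (hR₂.trans inf_le_right)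
    have M2 : Mor E (P ⊓ T) ((b ∘ g₀ ∘ a) ∘ f₀) := by
      refine hf₀.comp M1 ?_
      intro x hx
      have h1 : f₀ x = b (f x) := by
        rw [hff₀ x hx, hab.hba _ (hf₀.mem hx)]
      rw [h1]
      exact hbR₂.mem_img_of_mem (hfPT.mem_img_of_mem hx)
    refine ⟨a₂ ∘ a, b ∘ b₂, hab.comp hab₂, (b ∘ g₀ ∘ a) ∘ f₀, M2, fun x hx => ?_⟩
    show g (f x) = a₂ (a (b (g₀ (a (f₀ x)))))
    rw [← hff₀ x hx, hab.hab _ (hg₀.mem (hfT x hx)), hgg₀ (f x) (hfT x hx)]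
  · rintro P f hf ⟨a, b, hab, f₀, hf₀, hff₀⟩
    have hRT : img (P ⊓ T) f₀ ≤ T := hf₀.img_le
    have haR : Mor F (img (P ⊓ T) f₀) a := hab.ma.restrict hRT
    have M1 : Mor E (img (img (P ⊓ T) f₀) a) (a ∘ invFn (P ⊓ T) f₀ ∘ b) :=
      pp_inv p hS F T hTS E hEs hEi hab _ _ hf₀.inv
    have hpre : ∀ y ∈ img P f ⊓ T, ∃ x ∈ P ⊓ T, f x = y := by
      rintro y ⟨hy, hyT⟩
      obtain ⟨x, hx, rfl⟩ := hf.mem_img.mp hy
      exact ⟨x, ⟨hx, (hsc P f hf x hx).2 hyT⟩, rfl⟩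
    have hle : img P f ⊓ T ≤ img (img (P ⊓ T) f₀) a := by
      intro y hy
      obtain ⟨x, hx, rfl⟩ := hpre y hy
      rw [hff₀ x hx]
      exact haR.mem_img_of_mem (hf₀.mem_img_of_mem hx)
    refine ⟨b, a, hab.symm, a ∘ invFn (P ⊓ T) f₀ ∘ b, M1.restrict hle, fun y hy => ?_⟩
    obtain ⟨x, hx, rfl⟩ := hpre y hy
    show invFn P f (f x) = b (a (invFn (P ⊓ T) f₀ (b (f x))))
    rw [hf.invFn_apply hx.1, hff₀ x hx, hab.hba _ (hf₀.mem hx), hf₀.invFn_apply hx,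
      hab.hba x hx.2]
  · intro P hfa _ _ f hf hfP
    have hPS : P ≤ S := hfa.1
    obtain ⟨g, hg, n, hn, hfn⟩ := pp_mor_decomp p F hfa hf hfP
    have hfinPT : Finite (P ⊓ T : Subgroup Ω) :=
      Cfsg.Agent.Lib.Helper90.finite_of_le (inf_le_left.trans hPS)
    have hj : ∀ x ∈ P ⊓ T, id x ∈ P := fun x hx => hx.1
    have hex : ∀ γ ∈ F.autGroup P, ∃ δ ∈ F.autGroup (P ⊓ T),
        ∀ x : (P ⊓ T : Subgroup Ω), id ((δ x : (P ⊓ T : Subgroup Ω)) : Ω) =
          ((γ ⟨id x, hj x x.2⟩ : P) : Ω) := by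
      intro γ hγ
      have Mγ : Mor F P (autFun P γ) := (Cfsg.Agent.Lib.Helper90.mem_autGroup_iff F hPS γ).1 hγ
      obtain ⟨δ, hδ, hδv⟩ := exists_aut_of_mor (Mγ.restrict (inf_le_left : P ⊓ T ≤ P))
        (fun x hx => ⟨autFun_mem γ hx.1, (hsc P _ Mγ x hx.1).1 hx.2⟩)
      refine ⟨δ, hδ, fun x => ?_⟩
      show ((δ x : (P ⊓ T : Subgroup Ω)) : Ω) = _
      rw [hδv, autFun_apply' γ x.2.1]
      rfl
    obtain ⟨n', hn', hn'j⟩ := pp_semiconj p (F.autGroup P) (F.autGroup (P ⊓ T)) id hj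
      (fun x _ y _ hxy => hxy) hex n hn
    have hn'E : (n' : MulAut (P ⊓ T : Subgroup Ω)) ∈ E.autGroup (P ⊓ T) :=
      hEi.2.2 (P ⊓ T) inf_le_right ⟨n', hn', rfl⟩
    have M1 : Mor E (P ⊓ T) (autFun (P ⊓ T) (n' : MulAut (P ⊓ T : Subgroup Ω))) :=
      (Cfsg.Agent.Lib.Helper90.mem_autGroup_iff E inf_le_right _).1 hn'E
    refine ⟨fun x => g * x * g⁻¹, fun x => g⁻¹ * x * g⁻¹⁻¹, pp_autPair_conj F hTS hTn hg,
      autFun (P ⊓ T) (n' : MulAut (P ⊓ T : Subgroup Ω)), M1, fun x hx => ?_⟩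
    rw [hfn ⟨x, hx.1⟩, autFun_apply' _ hx]
    have e := hn'j ⟨x, hx⟩
    show _ = g * _ * g⁻¹
    rw [show ((((n' : MulAut (P ⊓ T : Subgroup Ω)) ⟨x, hx⟩ : (P ⊓ T : Subgroup Ω))) : Ω) =
      id ((((n' : MulAut (P ⊓ T : Subgroup Ω)) ⟨x, hx⟩ : (P ⊓ T : Subgroup Ω))) : Ω) from rfl, e]
    rfl

end Cfsg.Agent.Lib.Helper87
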