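import Cfsg.Agent.Lib.Helper87.PPowB

set_option autoImplicit false

/-!
# Subsystems of `p`-power index are normal

The extension condition and the assembly: a saturated subsystem of `p`-power index over a
normal subgroup `T` of `S` containing the hyperfocal subgroup is a normal subsystem.
-/

namespace Cfsg.Agent.Lib.Helper87

open Cfsg Cfsg.FusionSystem Cfsg.Agent.Lib.Helper90 Cfsg.Agent.Lib.Helper91

variable {Ω : Type*} [Group Ω] {S : Subgroup Ω}

theorem pp_ext_aux [Finite S] (p : ℕ) [Fact p.Prime] (hS : IsPGroup p S) (F : FusionSystem S)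
    (hF : F.IsSaturated p) (T : Subgroup Ω) (hTS : T ≤ S) (hTn : (T.subgroupOf S).Normal)
    (hT : F.hyperfocalSubgroup p ≤ T) (E : FusionSystem T) (hEs : E.IsSaturated p)
    (hsub : E.IsSubsystemOf F) (X : Subgroup Ω) (hX : X = T ⊔ centralizerIn S T) (hTX : T ≤ X) :
    ∀ α ∈ E.autGroup T, ∃ β ∈ F.autGroup X,
      (∀ x : T, ((β (Subgroup.inclusion hTX x) : X) : Ω) = ((α x : T) : Ω)) ∧
      ∀ c : X, (c : Ω) ∈ centralizerIn S T →
        (c : Ω)⁻¹ * ((β c : X) : Ω) ∈ T ⊓ Subgroup.centralizer (T : Set Ω) := by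
  intro α hα
  have hfinT : Finite T := Cfsg.Agent.Lib.Helper90.finite_of_le hTS
  have hXS : X ≤ S := by
    rw [hX]
    exact sup_le hTS inf_le_left
  have hCX : centralizerIn S T ≤ X := by
    rw [hX]
    exact le_sup_right
  have hfinX : Finite X := Cfsg.Agent.Lib.Helper90.finite_of_le hXS
  have hfaE : E.IsFullyAutomized p T := (top_fullyAutomized_receptive hEs).1
  obtain ⟨t, ht, n, hn, hαn⟩ := pp_decomp p E hfaE α hα
  have hTnorm : S ≤ Subgroup.normalizer (T : Set Ω) := by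
    intro g hg
    exact mem_normalizer_of_finite (fun x hx => pp_conj_mem hTS hTn hg hx)
  have hfn : F.IsFullyNormalized T := fullyNormalized_of_normal hTS hTnorm
  obtain ⟨-, hrec⟩ := fa_rec_of_fullyNormalized hS hF hfn
  have hex : ∀ γ ∈ E.autGroup T, ∃ δ ∈ F.autGroup X,
      ∀ x : T, ((δ (Subgroup.inclusion hTX x) : X) : Ω) = ((γ x : T) : Ω) := by
    intro γ hγ
    have Mγ : Mor F T (autFun T γ) :=
      pp_sub hsub ((Cfsg.Agent.Lib.Helper90.mem_autGroup_iff E le_rfl γ).1 hγ)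
    obtain ⟨g, hg, hgf⟩ := receptive_extend' hrec Mγ (img_autFun γ)
    have hXle : X ≤ extFn S T (autFun T γ) := by
      rw [hX]
      exact sup_le Mγ.le_extFn Mγ.centralizerIn_le_extFn
    have MX : Mor F X g := hg.restrict hXle
    have hgT : ∀ x ∈ T, g x ∈ T := fun x hx => by
      rw [hgf x hx]
      exact autFun_mem γ hx
    have hgC : ∀ c ∈ centralizerIn S T, g c ∈ centralizerIn S T := by
      intro c hc
      refine ⟨MX.mem (hCX hc), ?_⟩
      show g c ∈ Subgroup.centralizer (T : Set Ω)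
      rw [Subgroup.mem_centralizer_iff]
      intro y hy
      have hy' : ((γ⁻¹ ⟨y, hy⟩ : T) : Ω) ∈ T := Subtype.property _
      have h1 : g ((γ⁻¹ ⟨y, hy⟩ : T) : Ω) = y := by
        rw [hgf _ hy', autFun_apply]
        simp
      have h2 : ((γ⁻¹ ⟨y, hy⟩ : T) : Ω) * c = c * ((γ⁻¹ ⟨y, hy⟩ : T) : Ω) :=
        Subgroup.mem_centralizer_iff.mp hc.2 _ hy'
      have h3 := congrArg g h2
      rw [MX.map_mul (hTX hy') (hCX hc), MX.map_mul (hCX hc) (hTX hy'), h1] at h3
      exact h3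
    have hgX : ∀ x ∈ X, g x ∈ X := by
      intro x hx
      have hx' : x ∈ T ⊔ centralizerIn S T := hX ▸ hx
      obtain ⟨u, hu, q, hq, rfl⟩ := exists_mul_of_mem_sup (P := T) (Q := centralizerIn S T)
        (by
          intro u hu q hq
          have h1 : u * q = q * u := Subgroup.mem_centralizer_iff.mp hq.2 u hu
          have h2 : u * q * u⁻¹ = q := by
            rw [h1]
            group
          rw [h2]
          exact hq) hx'
      rw [MX.map_mul (hTX hu) (hCX hq)]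
      exact X.mul_mem (hTX (hgT u hu)) (hCX (hgC q hq))
    obtain ⟨δ, hδ, hδv⟩ := exists_aut_of_mor MX hgX
    refine ⟨δ, hδ, fun x => ?_⟩
    rw [hδv]
    show g (x : Ω) = _
    rw [hgf x x.2, autFun_apply]
  obtain ⟨n₂, hn₂, hn₂v⟩ := pp_extend p hTX (E.autGroup T) (F.autGroup X) hex n hn
  have M1 : Mor F X (autFun X (n₂ : MulAut X)) :=
    (Cfsg.Agent.Lib.Helper90.mem_autGroup_iff F hXS _).1 n₂.2
  have M2 : Mor F X (fun x => t * x * t⁻¹) := mor_conj F hXS (hTS ht)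
  obtain ⟨β, hβ, hβv⟩ := exists_aut_of_mor (M1.comp M2 (fun x hx => autFun_mem _ hx))
    (fun x hx => X.mul_mem (X.mul_mem (hTX ht) (autFun_mem _ hx)) (X.inv_mem (hTX ht)))
  have hβv' : ∀ x : X, ((β x : X) : Ω) = t * (((n₂ : MulAut X) x : X) : Ω) * t⁻¹ := by
    intro x
    rw [hβv]
    show t * autFun X (n₂ : MulAut X) x * t⁻¹ = _
    rw [autFun_apply]
  refine ⟨β, hβ, fun x => ?_, fun c hc => ?_⟩
  · rw [hβv', hn₂v, hαn]
  · have hzT : (c : Ω)⁻¹ * (((n₂ : MulAut X) c : X) : Ω) ∈ T := hT (pp_mem_hyp hXS n₂ hn₂ c)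
    have hnc : (((n₂ : MulAut X) c : X) : Ω) ∈ Subgroup.centralizer (T : Set Ω) := by
      rw [Subgroup.mem_centralizer_iff]
      intro y hy
      have h1 : (((n₂ : MulAut X) (Subgroup.inclusion hTX
          (((n⁻¹ : E.autGroup T) : MulAut T) ⟨y, hy⟩)) : X) : Ω) = y := by
        rw [hn₂v]
        show ((((n : MulAut T) * ((n⁻¹ : E.autGroup T) : MulAut T)) ⟨y, hy⟩ : T) : Ω) = y
        rw [← Subgroup.coe_mul, mul_inv_cancel]
        rfl
      have h2 : Subgroup.inclusion hTX (((n⁻¹ : E.autGroup T) : MulAut T) ⟨y, hy⟩) * c =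
          c * Subgroup.inclusion hTX (((n⁻¹ : E.autGroup T) : MulAut T) ⟨y, hy⟩) := by
        apply Subtype.ext
        exact Subgroup.mem_centralizer_iff.mp hc.2 _
          ((((n⁻¹ : E.autGroup T) : MulAut T) ⟨y, hy⟩)).2
      have h3 := congrArg (fun w : X => (((n₂ : MulAut X) w : X) : Ω)) h2
      simp only [map_mul, Subgroup.coe_mul] at h3
      rw [h1] at h3
      exact h3
    have hzC : (c : Ω)⁻¹ * (((n₂ : MulAut X) c : X) : Ω) ∈ Subgroup.centralizer (T : Set Ω) :=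
      Subgroup.mul_mem _ (Subgroup.inv_mem _ hc.2) hnc
    have hkey : (c : Ω)⁻¹ * ((β c : X) : Ω) = (c : Ω)⁻¹ * (((n₂ : MulAut X) c : X) : Ω) := by
      rw [hβv']
      have h1 : t * (((n₂ : MulAut X) c : X) : Ω) = (((n₂ : MulAut X) c : X) : Ω) * t :=
        Subgroup.mem_centralizer_iff.mp hnc t ht
      rw [h1]
      group
    rw [hkey]
    exact ⟨hzT, hzC⟩

/-- A saturated subsystem of `p`-power index over a normal subgroup of `S` containing the
hyperfocal subgroup is normal. -/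
theorem pp_normal [Finite S] (p : ℕ) [Fact p.Prime] (hS : IsPGroup p S) (F : FusionSystem S)
    (hF : F.IsSaturated p) (T : Subgroup Ω) (hTS : T ≤ S) (hTn : (T.subgroupOf S).Normal)
    (hT : F.hyperfocalSubgroup p ≤ T) (E : FusionSystem T) (hEs : E.IsSaturated p)
    (hEi : E.HasPPowerIndexIn F p) : E.IsNormalIn F p := by
  have hsc := pp_sc p hS F hF T hTS hTn hT
  have hfinT : Finite T := Cfsg.Agent.Lib.Helper90.finite_of_le hTS
  refine ⟨⟨hEs, hF, hEi.1, ⟨hTS, ?_⟩, ?_, ?_⟩,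
    pp_ext_aux p hS F hF T hTS hTn hT E hEs hEi.1 (T ⊔ centralizerIn S T) rfl le_sup_left⟩
  · intro R hRT φ hφ x
    have h1 := (hsc R _ (mor_of_hom hφ) x x.2).1 (hRT x.2)
    rwa [extFun_apply] at h1
  · intro P hPT φ hφ α hα
    have hab := pp_autPair_of_aut F hTS α hα
    have M := pp_inv p hS F T hTS E hEs hEi hab P _ (mor_of_hom hφ)
    have himg : (P.subgroupOf T).map (T.subtype.comp α.toMonoidHom) = img P (autFun T α) := by
      ext y
      rw [(hab.ma.restrict hPT).mem_img, Subgroup.mem_map]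
      constructor
      · rintro ⟨x, hx, rfl⟩
        refine ⟨x, Subgroup.mem_subgroupOf.1 hx, ?_⟩
        rw [autFun_apply]
        rfl
      · rintro ⟨x, hx, rfl⟩
        refine ⟨⟨x, hPT hx⟩, Subgroup.mem_subgroupOf.2 hx, ?_⟩
        rw [autFun_apply' α (hPT hx)]
        rfl
    rw [← himg] at M
    obtain ⟨χ, hχ, hχv⟩ := M
    refine ⟨χ, hχ, fun x hφx hαx => ?_⟩
    rw [hχv ⟨_, hαx⟩]
    show autFun T α (extFun P φ (autFun T α⁻¹ ((α ⟨x, hPT x.2⟩ : T) : Ω))) = _
    rw [autFun_apply α⁻¹ (α ⟨x, hPT x.2⟩)]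
    have h1 : (α⁻¹ (α ⟨x, hPT x.2⟩) : T) = ⟨x, hPT x.2⟩ := by simp
    rw [h1]
    show autFun T α (extFun P φ (x : Ω)) = _
    rw [extFun_apply, autFun_apply' α hφx]
  · intro P hPT φ hφ
    obtain ⟨a, b, hab, f₀, hf₀, hff₀⟩ :=
      pp_frattini p hS F hF T hTS hTn hT E hEs hEi P _ (mor_of_hom hφ)
    obtain ⟨α, hα, hαv⟩ := exists_aut_of_mor hab.ma hab.ha
    obtain ⟨φ₀, hφ₀, hφ₀v⟩ := hf₀.restrict (le_inf le_rfl hPT)
    refine ⟨α, hα, φ₀, hφ₀, fun x hx => ?_⟩
    rw [hαv]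
    show φ x = a (φ₀ x)
    rw [hφ₀v, ← hff₀ x ⟨x.2, hPT x.2⟩, extFun_apply]

end Cfsg.Agent.Lib.Helper87
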