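import Mathlib
import Cfsg.Agent.Lib.Helper72.PQDefs
import Cfsg.Agent.S0058

/-!
# S4306, piece PQ-WEX (helper87): existence of a weight
-/

set_option autoImplicit false
set_option linter.unusedSectionVars false

namespace Cfsg.Agent.Lib.Helper87.PQ

open Cfsg.Agent.Lib.Helper72.PQ

universe u

section

variable {Γ : Type u} [Group Γ] [Finite Γ]

/-- in a cyclic group of prime order every nontrivial element generates -/
theorem wex_gen {q : ℕ} (hq : q.Prime) {b x : Γ} (hb : b ^ q = 1)
    (hx : x ∈ Subgroup.zpowers b) (hx1 : x ≠ 1) : b ∈ Subgroup.zpowers x := by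
  have : Fact q.Prime := ⟨hq⟩
  obtain ⟨i, rfl⟩ := Subgroup.mem_zpowers_iff.mp hx
  have hxq : (b ^ i) ^ q = 1 := by
    rw [← zpow_natCast, ← zpow_mul, mul_comm, zpow_mul, zpow_natCast, hb, one_zpow]
  have hb1 : b ≠ 1 := by
    rintro rfl
    exact hx1 (one_zpow i)
  have hob : orderOf b = q := orderOf_eq_prime hb hb1
  have hox : orderOf (b ^ i) = q := orderOf_eq_prime hxq hx1
  have hle : Subgroup.zpowers (b ^ i) ≤ Subgroup.zpowers b := by
    rw [Subgroup.zpowers_le]
    exact Subgroup.zpow_mem_zpowers b i
  have heq : Subgroup.zpowers (b ^ i) = Subgroup.zpowers b := by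
    apply Subgroup.eq_of_le_of_card_ge hle
    rw [Nat.card_zpowers, Nat.card_zpowers, hob, hox]
  rw [heq]
  exact Subgroup.mem_zpowers b

/-- elements of the join of two elementwise commuting subgroups are products -/
theorem wex_mem_sup {H K : Subgroup Γ} (hHK : ∀ a ∈ H, ∀ b ∈ K, a * b = b * a) {y : Γ}
    (hy : y ∈ H ⊔ K) : ∃ a ∈ H, ∃ b ∈ K, y = a * b := by
  have comm : ∀ (m : ↥H) (n : ↥K), Commute (H.subtype m) (K.subtype n) :=
    fun m n => hHK m m.2 n n.2
  have hr := MonoidHom.noncommCoprod_range H.subtype K.subtype comm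
  rw [Subgroup.range_subtype, Subgroup.range_subtype] at hr
  rw [← hr] at hy
  obtain ⟨⟨a, b⟩, rfl⟩ := hy
  exact ⟨a, a.2, b, b.2, rfl⟩

/-- adjoining an element outside `N` multiplies the order by `q` -/
theorem wex_card_sup {q : ℕ} (hq : q.Prime) {B N : Subgroup Γ} (hB : Ab B)
    (hexp : ∀ b ∈ B, b ^ q = 1) (hN : N ≤ B) {c : Γ} (hc : c ∈ B) (hcN : c ∉ N) :
    Nat.card ↥(N ⊔ Subgroup.zpowers c) = q * Nat.card N := by
  have : Fact q.Prime := ⟨hq⟩
  have hc1 : c ≠ 1 := by
    rintro rfl
    exact hcN N.one_mem
  have hoc : orderOf c = q := orderOf_eq_prime (hexp c hc) hc1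
  have hzB : Subgroup.zpowers c ≤ B := by
    rw [Subgroup.zpowers_le]
    exact hc
  have comm : ∀ (m : ↥N) (n : ↥(Subgroup.zpowers c)),
      Commute (N.subtype m) ((Subgroup.zpowers c).subtype n) :=
    fun m n => hB m (hN m.2) n (hzB n.2)
  have hdisj : Disjoint N.subtype.range (Subgroup.zpowers c).subtype.range := by
    rw [Subgroup.range_subtype, Subgroup.range_subtype, Subgroup.disjoint_def]
    intro x hxN hxz
    by_contra hx1
    exact hcN (Subgroup.zpowers_le.mpr hxN (wex_gen hq (hexp c hc) hxz hx1))
  have hinj := (MonoidHom.noncommCoprod_injective N.subtype (Subgroup.zpowers c).subtype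
    comm).mpr ⟨N.subtype_injective, (Subgroup.zpowers c).subtype_injective, hdisj⟩
  have hr := MonoidHom.noncommCoprod_range N.subtype (Subgroup.zpowers c).subtype comm
  rw [Subgroup.range_subtype, Subgroup.range_subtype] at hr
  rw [← hr, ← Nat.card_congr (MonoidHom.ofInjective hinj).toEquiv, Nat.card_prod,
    Nat.card_zpowers, hoc, mul_comm]

theorem wex_aux (q : ℕ) (hq : q.Prime) : ∀ n : ℕ, ∀ B W : Subgroup Γ,
    Nat.card B + Nat.card W ≤ n →
    Ab B → (∀ b ∈ B, b ^ q = 1) → Ab W → B ≤ Subgroup.normalizer (W : Set Γ) →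
    (Nat.card W).Coprime q → W ≠ ⊥ → (∀ w ∈ W, (∀ b ∈ B, b * w = w * b) → w = 1) →
    ∃ Y : Subgroup Γ, Y ≤ B ∧ Nat.card B = q * Nat.card Y ∧
      ∃ w ∈ W, w ≠ 1 ∧ ∀ y ∈ Y, y * w = w * y := by
  have : Fact q.Prime := ⟨hq⟩
  intro n
  induction n with
  | zero =>
    intro B W hn
    have : 0 < Nat.card B := Nat.card_pos
    omega
  | succ n ih =>
    intro B W hn hB hexp hW hBW hcop hW1 hfix
    obtain ⟨⟨w₀, hw₀⟩, hw₀1⟩ := Subgroup.ne_bot_iff_exists_ne_one.mp hW1
    have hw₀1' : w₀ ≠ 1 := fun h => hw₀1 (Subtype.ext h)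
    by_cases hcyc : IsCyclic ↥B
    · -- `B` cyclic: `|B| = q`
      have hBne : ∃ b ∈ B, b ≠ 1 := by
        by_contra hcon
        push Not at hcon
        exact hw₀1' (hfix w₀ hw₀ (fun b hb => by rw [hcon b hb, one_mul, mul_one]))
      obtain ⟨b₀, hb₀, hb₀1⟩ := hBne
      have hcard : Nat.card B = q := by
        have h1 : Monoid.exponent ↥B = Nat.card ↥B := IsCyclic.exponent_eq_card
        have h2 : Monoid.exponent ↥B ∣ q := by
          rw [Monoid.exponent_dvd_iff_forall_pow_eq_one]
          intro g
          apply Subtype.ext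
          have := hexp g g.2
          simpa using this
        rcases (Nat.dvd_prime hq).mp h2 with h3 | h3
        · exfalso
          have hss := Monoid.exp_eq_one_iff.mp h3
          exact hb₀1 (congrArg Subtype.val (Subsingleton.elim (⟨b₀, hb₀⟩ : ↥B) 1))
        · rw [← h1, h3]
      refine ⟨⊥, bot_le, by rw [Subgroup.card_bot, mul_one, hcard], w₀, hw₀, hw₀1', ?_⟩
      intro y hy
      rw [Subgroup.mem_bot.mp hy, one_mul, mul_one]
    · -- `B` not cyclic
      have : IsMulCommutative ↥B := ⟨⟨fun x y => Subtype.ext (hB x x.2 y y.2)⟩⟩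
      have hBp : IsPGroup q ↥B := by
        intro g
        refine ⟨1, Subtype.ext ?_⟩
        have := hexp g g.2
        simpa using this
      obtain ⟨k, hk⟩ := IsPGroup.iff_card.mp hBp
      have hcopBW : (Nat.card B).Coprime (Nat.card W) := by
        rw [hk]
        exact Nat.Coprime.pow_left k hcop.symm
      have hS := Cfsg.Agent.S0058.result B W hcyc hBW hcopBW
      have hex : ∃ a ∈ B, a ≠ 1 ∧ W ⊓ Subgroup.centralizer {a} ≠ ⊥ := by
        by_contra hcon
        push Not at hcon
        apply hW1
        rw [← hS, eq_bot_iff]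
        apply iSup₂_le
        intro a ha
        rw [hcon a ha.1 ha.2]
      obtain ⟨a, haB, ha1, hM⟩ := hex
      by_cases hMW : W ≤ Subgroup.centralizer {a}
      · -- `a` centralizes `W`
        have haW : ∀ w ∈ W, a * w = w * a := by
          intro w hw
          have h1 := hMW hw
          rw [Subgroup.mem_centralizer_iff] at h1
          exact h1 a rfl
        obtain ⟨B₁, ⟨hB₁B, haB₁⟩, hmax⟩ :=
          (wellFounded_gt (α := Subgroup Γ)).has_min {N | N ≤ B ∧ a ∉ N}
            ⟨⊥, bot_le, fun h => ha1 (Subgroup.mem_bot.mp h)⟩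
        have hsup : B₁ ⊔ Subgroup.zpowers a = B := by
          apply le_antisymm (sup_le hB₁B (Subgroup.zpowers_le.mpr haB))
          intro b hb
          by_cases hbB₁ : b ∈ B₁
          · exact (le_sup_left : B₁ ≤ _) hbB₁
          · have hN : ¬ (B₁ ⊔ Subgroup.zpowers b ≤ B ∧ a ∉ B₁ ⊔ Subgroup.zpowers b) := by
              intro hN
              apply hmax _ hN
              refine lt_of_le_of_ne le_sup_left ?_
              intro heq
              apply hbB₁
              rw [heq]
              exact (le_sup_right : Subgroup.zpowers b ≤ _) (Subgroup.mem_zpowers b)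
            have ha' : a ∈ B₁ ⊔ Subgroup.zpowers b := by
              by_contra h
              exact hN ⟨sup_le hB₁B (Subgroup.zpowers_le.mpr hb), h⟩
            obtain ⟨y, hy, z, hz, hayz⟩ := wex_mem_sup
              (fun u hu v hv => hB u (hB₁B hu) v (Subgroup.zpowers_le.mpr hb hv)) ha'
            have hz1 : z ≠ 1 := by
              rintro rfl
              rw [mul_one] at hayz
              exact haB₁ (hayz ▸ hy)
            have hbz : b ∈ Subgroup.zpowers z := wex_gen hq (hexp b hb) hz hz1
            have hzmem : z ∈ B₁ ⊔ Subgroup.zpowers a := by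
              have h1 : z = y⁻¹ * a := by
                rw [hayz]
                group
              rw [h1]
              exact Subgroup.mul_mem _ ((le_sup_left : B₁ ≤ _) (B₁.inv_mem hy))
                ((le_sup_right : Subgroup.zpowers a ≤ _) (Subgroup.mem_zpowers a))
            exact Subgroup.zpowers_le.mpr hzmem hbz
        have hcB : Nat.card B = q * Nat.card B₁ := by
          have h1 := wex_card_sup hq hB hexp hB₁B haB haB₁
          rw [hsup] at h1
          exact h1
        have hlt : Nat.card B₁ + Nat.card W ≤ n := by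
          have h2 : 2 ≤ q := hq.two_le
          have h3 : 0 < Nat.card B₁ := Nat.card_pos
          have h4 : 2 * Nat.card B₁ ≤ q * Nat.card B₁ := Nat.mul_le_mul_right _ h2
          omega
        have hfix₁ : ∀ w ∈ W, (∀ b ∈ B₁, b * w = w * b) → w = 1 := by
          intro w hw hwB₁
          apply hfix w hw
          have hle : B ≤ Subgroup.centralizer {w} := by
            rw [← hsup]
            apply sup_le
            · intro y hy
              rw [Subgroup.mem_centralizer_iff]
              intro h hh
              rw [Set.mem_singleton_iff.mp hh]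
              exact (hwB₁ y hy).symm
            · rw [Subgroup.zpowers_le, Subgroup.mem_centralizer_iff]
              intro h hh
              rw [Set.mem_singleton_iff.mp hh]
              exact (haW w hw).symm
          intro b hb
          have h1 := hle hb
          rw [Subgroup.mem_centralizer_iff] at h1
          exact (h1 w rfl).symm
        obtain ⟨Y₁, hY₁B₁, hcY₁, w, hw, hw1, hwY₁⟩ := ih B₁ W hlt
          (fun x hx y hy => hB x (hB₁B hx) y (hB₁B hy)) (fun b hb => hexp b (hB₁B hb)) hW
          (hB₁B.trans hBW) hcop hW1 hfix₁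
        refine ⟨Y₁ ⊔ Subgroup.zpowers a, sup_le (hY₁B₁.trans hB₁B) (Subgroup.zpowers_le.mpr haB),
          ?_, w, hw, hw1, ?_⟩
        · rw [hcB, hcY₁, wex_card_sup hq hB hexp (hY₁B₁.trans hB₁B) haB
            (fun h => haB₁ (hY₁B₁ h))]
        · have hle : Y₁ ⊔ Subgroup.zpowers a ≤ Subgroup.centralizer {w} := by
            apply sup_le
            · intro y hy
              rw [Subgroup.mem_centralizer_iff]
              intro h hh
              rw [Set.mem_singleton_iff.mp hh]
              exact (hwY₁ y hy).symm
            · rw [Subgroup.zpowers_le, Subgroup.mem_centralizer_iff]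
              intro h hh
              rw [Set.mem_singleton_iff.mp hh]
              exact (haW w hw).symm
          intro y hy
          have h1 := hle hy
          rw [Subgroup.mem_centralizer_iff] at h1
          exact (h1 w rfl).symm
      · -- `C_W(a)` is a proper nontrivial invariant subgroup
        have hMW' : W ⊓ Subgroup.centralizer {a} ≤ W := inf_le_left
        have hMlt : Nat.card ↥(W ⊓ Subgroup.centralizer {a}) < Nat.card W := by
          by_contra hcon
          push Not at hcon
          have h1 := Subgroup.eq_of_le_of_card_ge hMW' hcon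
          apply hMW
          rw [← h1]
          exact inf_le_right
        have hBM : B ≤ Subgroup.normalizer ((W ⊓ Subgroup.centralizer {a} : Subgroup Γ) : Set Γ) := by
          intro b hb
          apply Subgroup.mem_normalizer_fintype
          intro x hx
          have hx' : x ∈ W ⊓ Subgroup.centralizer {a} := hx
          show b * x * b⁻¹ ∈ W ⊓ Subgroup.centralizer {a}
          refine Subgroup.mem_inf.mpr ⟨?_, ?_⟩
          · exact (Subgroup.mem_normalizer_iff.mp (hBW hb) x).mp (Subgroup.mem_inf.mp hx').1
          · rw [Subgroup.mem_centralizer_iff]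
            intro h hh
            rw [Set.mem_singleton_iff.mp hh]
            have h1 : Commute a x := by
              have h2 : x ∈ Subgroup.centralizer {a} := (Subgroup.mem_inf.mp hx').2
              rw [Subgroup.mem_centralizer_iff] at h2
              exact h2 a rfl
            have h2 : Commute a b := hB a haB b hb
            exact ((h2.mul_right h1).mul_right h2.inv_right).eq
        have hcopM : (Nat.card ↥(W ⊓ Subgroup.centralizer {a})).Coprime q :=
          Nat.Coprime.coprime_dvd_left (Subgroup.card_dvd_of_le hMW') hcop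
        have hlt : Nat.card B + Nat.card ↥(W ⊓ Subgroup.centralizer {a}) ≤ n := by omega
        obtain ⟨Y, hYB, hcY, w, hw, hw1, hwY⟩ := ih B (W ⊓ Subgroup.centralizer {a}) hlt hB hexp
          (fun x hx y hy => hW x (hMW' hx) y (hMW' hy)) hBM hcopM hM
          (fun w hw h => hfix w (hMW' hw) h)
        exact ⟨Y, hYB, hcY, w, hMW' hw, hw1, hwY⟩

end

theorem wex : WExStmt.{u} := by
  intro Γ _ _ q B W hq hB hexp hW hBW hcop hW1 hfix
  exact wex_aux q hq _ B W le_rfl hB hexp hW hBW hcop hW1 hfix

end Cfsg.Agent.Lib.Helper87.PQ
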