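import Mathlib
import Cfsg.Agent.Lib.Helper22.PTDefs
import Cfsg.Agent.Lib.Helper4.Eigen
import Cfsg.Agent.Lib.Helper33.TIFour

/-!
# Project PT (helper22, S4705), piece LOCB

Proved by helper87: the `p`-regular elements of the centralizer of `z` are central (joint
eigenvalues of `z` and `y`, sums of roots of unity over `ZMod p`, and the rank-one property).
-/

set_option autoImplicit false

namespace Cfsg.Agent.Lib.Helper87.PT

open Cfsg Cfsg.Agent.Lib.Helper22.BFD Cfsg.Agent.Lib.Helper22.PT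
open scoped ComplexConjugate

universe u

/-- the sum of the powers of a `p`-th root of unity over `ZMod p` -/
theorem locb_sum_pow (p : ℕ) [Fact p.Prime] (x : ℂ) (hx : x ^ p = 1) :
    ∑ t : ZMod p, x ^ t.val = if x = 1 then (p : ℂ) else 0 := by
  have hp := (Fact.out : p.Prime)
  have : NeZero p := ⟨hp.ne_zero⟩
  have h2 : ∑ t : ZMod p, x ^ t.val = ∑ i ∈ Finset.range p, x ^ i := by
    symm
    apply Finset.sum_bij (fun (i : ℕ) _ => (i : ZMod p))
    · intro i _; exact Finset.mem_univ _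
    · intro i hi j hj h
      have hi' := Finset.mem_range.mp hi
      have hj' := Finset.mem_range.mp hj
      have := congrArg ZMod.val h
      rwa [ZMod.val_natCast, ZMod.val_natCast, Nat.mod_eq_of_lt hi', Nat.mod_eq_of_lt hj'] at this
    · intro t _
      exact ⟨t.val, Finset.mem_range.mpr (ZMod.val_lt t), by simp⟩
    · intro i hi
      rw [ZMod.val_natCast, Nat.mod_eq_of_lt (Finset.mem_range.mp hi)]
  rw [h2]
  by_cases h1 : x = 1
  · rw [if_pos h1, h1]
    simp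
  · rw [if_neg h1]
    have h3 := mul_geom_sum x p
    rw [hx, sub_self] at h3
    exact (mul_eq_zero.mp h3).resolve_left (sub_ne_zero.mpr h1)

/-- powers of an element of order dividing `p` at a negated residue -/
theorem locb_pow_neg {G : Type u} [Group G] (p : ℕ) [Fact p.Prime] (z : G) (hz : z ^ p = 1)
    (t : ZMod p) : z ^ (-t).val = (z ^ t.val)⁻¹ := by
  have hp := (Fact.out : p.Prime)
  have : NeZero p := ⟨hp.ne_zero⟩
  apply eq_inv_of_mul_eq_one_left
  rw [← pow_add]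
  have hdvd : p ∣ (-t).val + t.val := by
    rw [← ZMod.natCast_eq_zero_iff, Nat.cast_add, ZMod.natCast_zmod_val, ZMod.natCast_zmod_val,
      neg_add_cancel]
  obtain ⟨q, hq⟩ := hdvd
  rw [hq, pow_mul, hz, one_pow]

section leaf

variable {G : Type u} [Group G] [Fintype G]

/-- PIECE LOCB -/
theorem locB (p : ℕ) [Fact p.Prime] (z : G) (ζ : G → ℂ) (h : Hyp G p z ζ)
    (hE : (Ef p z).card = 2) (hcnj : ∀ k : ZMod p, IsConj (z ^ k.val) z → k = 1 ∨ k = -1)
    (hinv : ∃ n : G, n * z * n⁻¹ = z⁻¹)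
    (hfix : ∑ t : ZMod p, ζ (z ^ t.val) = (p : ℂ)) (hrk : Rk1 p z ζ)
    (hzabs : ∀ g : G, ‖ζ g‖ = ‖ζ 1‖ → g ∈ Subgroup.center G)
    (y : G) (hy : y * z = z * y) (hyp : ¬ p ∣ orderOf y) : y ∈ Subgroup.center G := by
  classical
  have hp := (Fact.out : p.Prime)
  have : NeZero p := ⟨hp.ne_zero⟩
  have : Fact (1 < p) := ⟨hp.one_lt⟩
  have hp5 := h.p5
  have hpC : (p : ℂ) ≠ 0 := Nat.cast_ne_zero.mpr hp.ne_zero
  have hzp : z ^ p = 1 := by
    rw [← h.ord]
    exact pow_orderOf_eq_one z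
  have hζ1 : ζ 1 = (p : ℂ) - 2 := h.deg
  obtain ⟨n, ρ, -, hρ⟩ := h.irr
  -- an eigenbasis of `ρ (z * y)`
  obtain ⟨ι, hι, hdι, v, μ, hμ1, hμ2, hμ3, -⟩ :=
    Cfsg.Agent.Lib.Helper4.exists_eigenbasis_rep ρ (z * y)
  have hpowv : ∀ (k : ℕ) (i : ι), ρ ((z * y) ^ k) (v i) = μ i ^ k • v i := by
    intro k i
    induction k with
    | zero => simp
    | succ k ih =>
      rw [pow_succ, map_mul, Module.End.mul_apply, hμ1, map_smul, ih, smul_smul, pow_succ,
        mul_comm]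
  have htr : ∀ k : ℕ, ζ ((z * y) ^ k) = ∑ i, μ i ^ k := by
    intro k
    rw [← hρ, Representation.character,
      Cfsg.Agent.Lib.Helper4.trace_eq_sum_of_eigenbasis v (ρ ((z * y) ^ k)) (fun i => μ i ^ k)
        (hpowv k)]
  -- `z` and `y` are powers of `z * y`
  have hcomm : Commute z y := hy.symm
  have hcop : Nat.Coprime p (orderOf y) := (Nat.Prime.coprime_iff_not_dvd hp).mpr hyp
  obtain ⟨c, hc⟩ : ∃ c, (z ^ orderOf y) ^ c = z :=
    exists_pow_eq_self_of_coprime (by rw [h.ord]; exact hcop.symm)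
  obtain ⟨d, hd'⟩ : ∃ d, (y ^ p) ^ d = y := exists_pow_eq_self_of_coprime hcop
  obtain ⟨a, ha⟩ : ∃ a : ℕ, (z * y) ^ a = z := by
    refine ⟨orderOf y * c, ?_⟩
    rw [pow_mul, hcomm.mul_pow, pow_orderOf_eq_one, mul_one, hc]
  obtain ⟨b, hb⟩ : ∃ b : ℕ, (z * y) ^ b = y := by
    refine ⟨p * d, ?_⟩
    rw [pow_mul, hcomm.mul_pow, hzp, one_mul, hd']
  obtain ⟨α, hα⟩ : ∃ α : ι → ℂ, ∀ i, α i = μ i ^ a := ⟨fun i => μ i ^ a, fun _ => rfl⟩
  obtain ⟨β, hβ⟩ : ∃ β : ι → ℂ, ∀ i, β i = μ i ^ b := ⟨fun i => μ i ^ b, fun _ => rfl⟩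
  have hEa : ∀ t : ℕ, ζ (z ^ t) = ∑ i, α i ^ t := by
    intro t
    have e : z ^ t = (z * y) ^ (a * t) := by rw [pow_mul, ha]
    rw [e, htr]
    refine Finset.sum_congr rfl fun i _ => ?_
    rw [hα, pow_mul]
  have hEb : ∀ t : ℕ, ζ (z ^ t * y) = ∑ i, α i ^ t * β i := by
    intro t
    have e : z ^ t * y = (z * y) ^ (a * t + b) := by rw [pow_add, pow_mul, ha, hb]
    rw [e, htr]
    refine Finset.sum_congr rfl fun i _ => ?_
    rw [hα, hβ, pow_add, pow_mul]
  have hαp : ∀ i, α i ^ p = 1 := by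
    intro i
    rw [hα, ← pow_mul]
    have e : (z * y) ^ (a * p) = 1 := by rw [pow_mul, ha, hzp]
    obtain ⟨q, hq⟩ := orderOf_dvd_of_pow_eq_one e
    rw [hq, pow_mul, hμ2, one_pow]
  have hβn : ∀ i, ‖β i‖ = 1 := by
    intro i
    rw [hβ, norm_pow, hμ3, one_pow]
  have hcard : (Fintype.card ι : ℂ) = (p : ℂ) - 2 := by
    have e := hEa 0
    simp only [pow_zero, Finset.sum_const, Finset.card_univ, nsmul_eq_mul, mul_one] at e
    rw [← e, hζ1]
  -- the twisted sums over `ZMod p`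
  have hSa : ∀ ω : ℂ, ω ^ p = 1 → ∑ t : ZMod p, ω ^ t.val * ζ (z ^ t.val) =
      ∑ i, (if ω * α i = 1 then (p : ℂ) else 0) := by
    intro ω hω
    calc ∑ t : ZMod p, ω ^ t.val * ζ (z ^ t.val)
        = ∑ t : ZMod p, ∑ i, (ω * α i) ^ t.val := by
          refine Finset.sum_congr rfl fun t _ => ?_
          rw [hEa, Finset.mul_sum]
          refine Finset.sum_congr rfl fun i _ => ?_
          rw [mul_pow]
      _ = ∑ i, ∑ t : ZMod p, (ω * α i) ^ t.val := Finset.sum_comm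
      _ = ∑ i, (if ω * α i = 1 then (p : ℂ) else 0) := by
          refine Finset.sum_congr rfl fun i _ => ?_
          exact locb_sum_pow p _ (by rw [mul_pow, hω, hαp, one_mul])
  have hSb : ∀ ω : ℂ, ω ^ p = 1 → ∑ t : ZMod p, ω ^ t.val * ζ (z ^ t.val * y) =
      ∑ i, (if ω * α i = 1 then (p : ℂ) * β i else 0) := by
    intro ω hω
    calc ∑ t : ZMod p, ω ^ t.val * ζ (z ^ t.val * y)
        = ∑ t : ZMod p, ∑ i, (ω * α i) ^ t.val * β i := by
          refine Finset.sum_congr rfl fun t _ => ?_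
          rw [hEb, Finset.mul_sum]
          refine Finset.sum_congr rfl fun i _ => ?_
          rw [mul_pow, mul_assoc]
      _ = ∑ i, ∑ t : ZMod p, (ω * α i) ^ t.val * β i := Finset.sum_comm
      _ = ∑ i, (if ω * α i = 1 then (p : ℂ) * β i else 0) := by
          refine Finset.sum_congr rfl fun i _ => ?_
          rw [← Finset.sum_mul, locb_sum_pow p _ (by rw [mul_pow, hω, hαp, one_mul])]
          split_ifs
          · rfl
          · rw [zero_mul]
  -- reindexing `t ↦ -t`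
  have hneg : ∀ (ω : ℂ), ω ^ p = 1 → ∀ F : G → ℂ,
      ∑ t : ZMod p, ω ^ t.val * F (z ^ (-t).val) = ∑ t : ZMod p, ω⁻¹ ^ t.val * F (z ^ t.val) := by
    intro ω hω F
    refine Fintype.sum_equiv (Equiv.neg (ZMod p)) _ _ (fun t => ?_)
    simp only [Equiv.neg_apply]
    rw [Cfsg.Agent.Lib.Helper33.TI.pow_val_neg p ω⁻¹ (by rw [inv_pow, hω, inv_one]), inv_pow,
      inv_inv]
  -- the rank-one relations
  obtain ⟨γ, Θ, hΘ⟩ := hrk
  obtain ⟨n₀, hn₀⟩ := hinv
  have h1ne : (1 : ZMod p) ≠ -1 := by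
    intro h'
    have h2' : ((2 : ℕ) : ZMod p) = 0 := by
      have e : (1 : ZMod p) + 1 = 0 := by
        nth_rewrite 1 [h']
        exact neg_add_cancel 1
      rw [← e]
      norm_num
    have h3 := (ZMod.natCast_eq_zero_iff 2 p).mp h2'
    have h4 := Nat.le_of_dvd (by norm_num) h3
    omega
  have hEf : Ef p z = {1, -1} := by
    ext k
    simp only [Ef, Finset.mem_filter, Finset.mem_univ, true_and, Finset.mem_insert,
      Finset.mem_singleton]
    constructor
    · exact hcnj k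
    · rintro (rfl | rfl)
      · rw [ZMod.val_one, pow_one]
      · rw [locb_pow_neg p z hzp 1, ZMod.val_one, pow_one, ← hn₀]
        exact (isConj_iff.mpr ⟨n₀, rfl⟩).symm
  have hyK : y ∈ Kf p z := by
    simp only [Kf, Finset.mem_filter, Finset.mem_univ, true_and]
    exact ⟨hy, hyp⟩
  have h1K : (1 : G) ∈ Kf p z := by
    simp only [Kf, Finset.mem_filter, Finset.mem_univ, true_and]
    refine ⟨by rw [one_mul, mul_one], ?_⟩
    rw [orderOf_one]
    exact fun hdv => hp.one_lt.ne' (Nat.dvd_one.mp hdv)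
  have hRy : ∀ t : ZMod p, t ≠ 0 →
      ζ (z ^ t.val * y) + ζ (z ^ (-t).val * y) = γ t * Θ y := by
    intro t ht
    have e := hΘ t ht y hyK
    rw [hEf, Finset.sum_pair h1ne, one_mul, neg_one_mul] at e
    exact e
  have hR1 : ∀ t : ZMod p, t ≠ 0 → ζ (z ^ t.val) + ζ (z ^ (-t).val) = γ t * Θ 1 := by
    intro t ht
    have e := hΘ t ht 1 h1K
    rw [hEf, Finset.sum_pair h1ne, one_mul, neg_one_mul, mul_one, mul_one] at e
    exact e
  have hsumB : ∑ t : ZMod p, (ζ (z ^ t.val) + ζ (z ^ (-t).val)) = 2 * (p : ℂ) := by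
    rw [Finset.sum_add_distrib, hfix]
    have e := hneg 1 (one_pow p) ζ
    simp only [one_pow, inv_one, one_mul] at e
    rw [e, hfix]
    ring
  have hΘ1 : Θ 1 ≠ 0 := by
    intro h0
    have e : ∑ t : ZMod p, (ζ (z ^ t.val) + ζ (z ^ (-t).val)) = 2 * ζ 1 := by
      rw [Finset.sum_eq_single (0 : ZMod p)]
      · simp [two_mul]
      · intro t _ ht
        rw [hR1 t ht, h0, mul_zero]
      · intro hh
        exact absurd (Finset.mem_univ _) hh
    rw [hsumB, hζ1] at e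
    have e4 : (4 : ℂ) = 0 := by linear_combination e
    norm_num at e4
  obtain ⟨lam, hlam⟩ : ∃ lam : ℂ, lam = Θ y / Θ 1 := ⟨_, rfl⟩
  have hAB : ∀ t : ZMod p, t ≠ 0 → ζ (z ^ t.val * y) + ζ (z ^ (-t).val * y) =
      lam * (ζ (z ^ t.val) + ζ (z ^ (-t).val)) := by
    intro t ht
    rw [hRy t ht, hR1 t ht, hlam]
    field_simp
  -- the master identity
  have hM : ∀ ω : ℂ, ω ^ p = 1 →
      (∑ t : ZMod p, ω ^ t.val * ζ (z ^ t.val * y)) +
          (∑ t : ZMod p, ω⁻¹ ^ t.val * ζ (z ^ t.val * y)) -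
        lam * ((∑ t : ZMod p, ω ^ t.val * ζ (z ^ t.val)) +
          (∑ t : ZMod p, ω⁻¹ ^ t.val * ζ (z ^ t.val)))
        = 2 * ζ y - lam * (2 * ζ 1) := by
    intro ω hω
    have e1 : ∑ t : ZMod p, ω ^ t.val * ζ (z ^ (-t).val * y) =
        ∑ t : ZMod p, ω⁻¹ ^ t.val * ζ (z ^ t.val * y) := hneg ω hω (fun x => ζ (x * y))
    have e2 : ∑ t : ZMod p, ω ^ t.val * ζ (z ^ (-t).val) =
        ∑ t : ZMod p, ω⁻¹ ^ t.val * ζ (z ^ t.val) := hneg ω hω ζ
    rw [← e1, ← e2]
    have e3 : (∑ t : ZMod p, ω ^ t.val * ζ (z ^ t.val * y)) +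
          (∑ t : ZMod p, ω ^ t.val * ζ (z ^ (-t).val * y)) -
        lam * ((∑ t : ZMod p, ω ^ t.val * ζ (z ^ t.val)) +
          (∑ t : ZMod p, ω ^ t.val * ζ (z ^ (-t).val)))
        = ∑ t : ZMod p, (ω ^ t.val * ζ (z ^ t.val * y) + ω ^ t.val * ζ (z ^ (-t).val * y) -
            lam * (ω ^ t.val * ζ (z ^ t.val) + ω ^ t.val * ζ (z ^ (-t).val))) := by
      rw [Finset.sum_sub_distrib, Finset.sum_add_distrib, ← Finset.mul_sum,
        Finset.sum_add_distrib]
    rw [e3, Finset.sum_eq_single (0 : ZMod p)]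
    · simp
      ring
    · intro t _ ht
      have e := hAB t ht
      linear_combination (ω ^ t.val) * e
    · intro hh
      exact absurd (Finset.mem_univ _) hh
  -- the unique index with `α = 1`
  have hone := hSa 1 (one_pow p)
  simp only [one_pow, one_mul] at hone
  rw [hfix] at hone
  have hcard1 : (Finset.univ.filter (fun i => α i = 1)).card = 1 := by
    rw [← Finset.sum_filter, Finset.sum_const, nsmul_eq_mul] at hone
    have e : ((Finset.univ.filter (fun i => α i = 1)).card : ℂ) * (p : ℂ) = 1 * (p : ℂ) := by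
      rw [one_mul]
      exact hone.symm
    have e' := mul_right_cancel₀ hpC e
    exact_mod_cast e'
  obtain ⟨i0, hi0⟩ := Finset.card_eq_one.mp hcard1
  have hSb1 : ∑ t : ZMod p, ζ (z ^ t.val * y) = (p : ℂ) * β i0 := by
    have e := hSb 1 (one_pow p)
    simp only [one_pow, one_mul] at e
    rw [e, ← Finset.sum_filter, hi0, Finset.sum_singleton]
  -- the eigenvalues of `z` are closed under inversion
  have hsymm : ∀ ω : ℂ, ω ^ p = 1 → (∃ i, α i = ω⁻¹) → ∃ i, α i = ω := by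
    rintro ω hω ⟨i1, hi1⟩
    by_contra hcon
    push Not at hcon
    have hωinv : ω⁻¹ ^ p = 1 := by rw [inv_pow, hω, inv_one]
    have hω0 : ω ≠ 0 := by
      intro h0
      rw [h0, zero_pow hp.ne_zero] at hω
      exact zero_ne_one hω
    have e1 : ∑ t : ZMod p, ω⁻¹ ^ t.val * ζ (z ^ t.val) = 0 := by
      rw [hSa ω⁻¹ hωinv]
      apply Finset.sum_eq_zero
      intro i _
      rw [if_neg]
      intro h1
      apply hcon i
      have h3 := eq_inv_of_mul_eq_one_right h1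
      rw [inv_inv] at h3
      exact h3
    have e2 : ∑ t : ZMod p, ω ^ t.val * ζ (z ^ t.val) ≠ 0 := by
      rw [hSa ω hω, ← Finset.sum_filter, Finset.sum_const, nsmul_eq_mul]
      apply mul_ne_zero _ hpC
      rw [Nat.cast_ne_zero]
      apply Finset.card_ne_zero.mpr
      refine ⟨i1, ?_⟩
      simp only [Finset.mem_filter, Finset.mem_univ, true_and]
      rw [hi1, mul_inv_cancel₀ hω0]
    have e3 : ∑ t : ZMod p, ω ^ t.val * ζ (z ^ t.val) =
        ∑ t : ZMod p, ω⁻¹ ^ t.val * ζ (z ^ t.val) := by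
      rw [← hneg ω hω ζ]
      refine Finset.sum_congr rfl fun t _ => ?_
      congr 1
      rw [locb_pow_neg p z hzp t, ← inv_pow, ← hn₀, conj_pow, ← hρ]
      exact (Representation.char_conj ρ _ _).symm
    exact e2 (e3.trans e1)
  -- a `p`-th root of unity `ω₁` such that neither `ω₁` nor `ω₁⁻¹` is an eigenvalue of `z`
  obtain ⟨ω₁, hω₁, hω₁a⟩ : ∃ ω₁ : ℂ, ω₁ ^ p = 1 ∧ ∀ i, α i ≠ ω₁ ∧ α i ≠ ω₁⁻¹ := by
    by_contra hcon
    have hall : ∀ ω : ℂ, ω ^ p = 1 → ∃ i, α i = ω := by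
      intro ω hω
      by_contra hno
      push Not at hno
      apply hcon
      refine ⟨ω, hω, fun i => ⟨hno i, ?_⟩⟩
      intro hi
      obtain ⟨i', hi'⟩ := hsymm ω hω ⟨i, hi⟩
      exact hno i' hi'
    have hw := Complex.isPrimitiveRoot_exp p hp.ne_zero
    obtain ⟨w, hwdef⟩ : ∃ w : ℂ, w = Complex.exp (2 * Real.pi * Complex.I / p) := ⟨_, rfl⟩
    rw [← hwdef] at hw
    choose f hf using fun k : Fin p => hall (w ^ (k : ℕ))
      (by rw [← pow_mul, mul_comm, pow_mul, hw.pow_eq_one, one_pow])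
    have hinj : Function.Injective f := by
      intro k l hkl
      have e : w ^ (k : ℕ) = w ^ (l : ℕ) := by rw [← hf k, ← hf l, hkl]
      exact Fin.ext (hw.pow_inj k.2 l.2 e)
    have hle := Fintype.card_le_of_injective f hinj
    rw [Fintype.card_fin] at hle
    have e5 : (Fintype.card ι : ℂ) + 2 = (p : ℂ) := by rw [hcard]; ring
    have e6 : Fintype.card ι + 2 = p := by exact_mod_cast e5
    omega
  have hωinv : ω₁⁻¹ ^ p = 1 := by rw [inv_pow, hω₁, inv_one]
  have z1 : ∑ t : ZMod p, ω₁ ^ t.val * ζ (z ^ t.val * y) = 0 := by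
    rw [hSb ω₁ hω₁]
    apply Finset.sum_eq_zero
    intro i _
    rw [if_neg]
    intro h1
    exact (hω₁a i).2 (eq_inv_of_mul_eq_one_right h1)
  have z2 : ∑ t : ZMod p, ω₁⁻¹ ^ t.val * ζ (z ^ t.val * y) = 0 := by
    rw [hSb ω₁⁻¹ hωinv]
    apply Finset.sum_eq_zero
    intro i _
    rw [if_neg]
    intro h1
    have h3 := eq_inv_of_mul_eq_one_right h1
    rw [inv_inv] at h3
    exact (hω₁a i).1 h3
  have z3 : ∑ t : ZMod p, ω₁ ^ t.val * ζ (z ^ t.val) = 0 := by
    rw [hSa ω₁ hω₁]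
    apply Finset.sum_eq_zero
    intro i _
    rw [if_neg]
    intro h1
    exact (hω₁a i).2 (eq_inv_of_mul_eq_one_right h1)
  have z4 : ∑ t : ZMod p, ω₁⁻¹ ^ t.val * ζ (z ^ t.val) = 0 := by
    rw [hSa ω₁⁻¹ hωinv]
    apply Finset.sum_eq_zero
    intro i _
    rw [if_neg]
    intro h1
    have h3 := eq_inv_of_mul_eq_one_right h1
    rw [inv_inv] at h3
    exact (hω₁a i).1 h3
  have hM1 := hM ω₁ hω₁
  rw [z1, z2, z3, z4] at hM1
  have hζy : ζ y = lam * ζ 1 := by linear_combination (-(1 / 2 : ℂ)) * hM1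
  have hM2 := hM 1 (one_pow p)
  simp only [one_pow, inv_one, one_mul] at hM2
  rw [hSb1, hfix] at hM2
  have hlamβ : lam = β i0 := by
    have e : (2 * (p : ℂ)) * (β i0 - lam) = 0 := by
      rw [hζy] at hM2
      linear_combination hM2
    rcases mul_eq_zero.mp e with h' | h'
    · exact absurd h' (mul_ne_zero two_ne_zero hpC)
    · exact (sub_eq_zero.mp h').symm
  apply hzabs
  rw [hζy, hlamβ, norm_mul, hβn, one_mul]

end leaf

end Cfsg.Agent.Lib.Helper87.PT
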