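import Cfsg.Agent.Lib.Helper96.PiDefs
import Cfsg.Agent.Lib.Helper96.PiGlueB
import Cfsg.Agent.Lib.Helper96.PiOmega
import Cfsg.Agent.Lib.Helper9.HeUNIPPOW
import Cfsg.Agent.Lib.Helper87.PiUNIA

/-! Project PI (S5989, helper96), piece UNIB (helper87): unipotent isometry with `N * N = 0`,
`ker N ≤ range N ⊔ Y`, `finrank Y ≤ 2`: invariant nondegenerate odd-dimensional subspaces have
dimension `1` mod `4`. -/

set_option autoImplicit false
set_option linter.unusedSectionVars false
set_option linter.unusedVariables false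

namespace Cfsg.Agent.Lib.Helper87.Pi

open Module Cfsg.Agent.Lib.Helper96.Sp Cfsg.Agent.Lib.Helper96.BG Cfsg.Agent.Lib.Helper96.Hy
  Cfsg.Agent.Lib.Helper96.Pi Cfsg.Agent.Lib.Helper47

universe u

variable {F : Type u} [Field F] [Fintype F] {V : Type u} [AddCommGroup V] [Module F V]
  [FiniteDimensional F V] {B : LinearMap.BilinForm F V}

-- PIECE UNIB
theorem unip_B (hS : B.IsSymm) (h2 : (2 : F) ≠ 0) (hN : ND B ⊤) (T : Module.End F V)
    (hT : Isom B T) (hN2 : (T - 1) * (T - 1) = 0) (Y : Submodule F V) (hY : finrank F Y ≤ 2)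
    (hker : LinearMap.ker (T - 1) ≤ LinearMap.range (T - 1) ⊔ Y)
    (hadd : ∀ (N : Module.End F V) (W W' : Submodule F V), IsCompl W W' → W.map N ≤ W →
      W'.map N ≤ W' →
      finrank F (LinearMap.range N) = finrank F (W.map N) + finrank F (W'.map N))
    (hrk : ∀ (N : Module.End F V) (W : Submodule F V), W.map N ≤ W →
      2 * finrank F (W.map N) ≤ finrank F W + finrank F (W.map (N * N)))
    (hpar : ∀ W : Submodule F V, ND B W → W.map T ≤ W → Even (finrank F (W.map (T - 1))))
    (W : Submodule F V) (hW : ND B W) (hWT : W.map T ≤ W) (hodd : Odd (finrank F W)) :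
    finrank F W % 4 = 1 := by
  obtain ⟨hc, hWN, hW'N, hsum⟩ := unip_setup hS h2 hN T hT W hW hWT
  have hrn := LinearMap.finrank_range_add_finrank_ker (T - 1)
  have hkr : finrank F (LinearMap.ker (T - 1)) ≤ finrank F (LinearMap.range (T - 1)) + 2 := by
    have h3 := Submodule.finrank_mono hker
    have h4 := Submodule.finrank_add_le_finrank_add_finrank (LinearMap.range (T - 1)) Y
    omega
  have ha := hadd (T - 1) W (B.orthogonal W) hc hWN hW'N
  have h1 := hrk (T - 1) W hWN
  have h3 := hrk (T - 1) (B.orthogonal W) hW'N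
  rw [hN2, unip_map_zero] at h1 h3
  obtain ⟨k, hk⟩ := hodd
  obtain ⟨j, hj⟩ := hpar W hW hWT
  omega

end Cfsg.Agent.Lib.Helper87.Pi
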