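import Mathlib
import Cfsg.Prelude.Def_RootSubgroups

set_option autoImplicit false

namespace Cfsg.Agent.Lib.Helper87

open Cfsg

variable {k : Type*} [Field k] {M : Type*} [AddCommGroup M] [Module k M]

/-- The unit `1 + a` of `End(M)` for an endomorphism `a` of square zero. -/
def unitOfSqZero (a : M →ₗ[k] M) (h : a * a = 0) : LinearMap.GeneralLinearGroup k M :=
  ⟨1 + a, 1 - a, by
    have : (1 + a) * (1 - a) = 1 - a * a := by noncomm_ring
    rw [this, h, sub_zero], by
    have : (1 - a) * (1 + a) = 1 - a * a := by noncomm_ring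
    rw [this, h, sub_zero]⟩

theorem unitOfSqZero_val (a : M →ₗ[k] M) (h : a * a = 0) :
    ((unitOfSqZero a h : LinearMap.GeneralLinearGroup k M) : M →ₗ[k] M) = 1 + a := rfl

theorem mul_eq_zero_of_range_le_ker {a b : M →ₗ[k] M} {C R : Submodule k M} (hRC : R ≤ C)
    (hb : LinearMap.range b ≤ R) (ha : C ≤ LinearMap.ker a) : a * b = 0 := by
  ext m
  have h1 : b m ∈ LinearMap.ker a := ha (hRC (hb ⟨m, rfl⟩))
  exact LinearMap.mem_ker.1 h1

/-- The elements of `G` with scalar family in `G`, commutator space inside `R` and fixed space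
containing `C`, for `R ≤ C`: a subgroup. -/
def sameActionAux (G : Subgroup (LinearMap.GeneralLinearGroup k M)) (C R : Submodule k M)
    (hRC : R ≤ C) : Subgroup (LinearMap.GeneralLinearGroup k M) where
  carrier := {g | g ∈ G ∧ Cfsg.scalarFamily g ⊆ (G : Set (LinearMap.GeneralLinearGroup k M)) ∧
    LinearMap.range ((g : M →ₗ[k] M) - 1) ≤ R ∧ C ≤ LinearMap.ker ((g : M →ₗ[k] M) - 1)}
  one_mem' := by
    refine ⟨G.one_mem, ?_, ?_, ?_⟩
    · rintro τ ⟨c, hc⟩
      have h1 : τ = 1 := by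
        apply Units.ext
        rw [hc]
        simp
      rw [h1]
      exact G.one_mem
    · simp
    · simp
  mul_mem' := by
    rintro g h ⟨hgG, hgs, hgR, hgC⟩ ⟨hhG, hhs, hhR, hhC⟩
    have hab : ((g : M →ₗ[k] M) - 1) * ((h : M →ₗ[k] M) - 1) = 0 :=
      mul_eq_zero_of_range_le_ker hRC hhR hgC
    have haa : ((g : M →ₗ[k] M) - 1) * ((g : M →ₗ[k] M) - 1) = 0 :=
      mul_eq_zero_of_range_le_ker hRC hgR hgC
    have hbb : ((h : M →ₗ[k] M) - 1) * ((h : M →ₗ[k] M) - 1) = 0 :=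
      mul_eq_zero_of_range_le_ker hRC hhR hhC
    have hsum : ((g * h : LinearMap.GeneralLinearGroup k M) : M →ₗ[k] M) - 1 =
        ((g : M →ₗ[k] M) - 1) + ((h : M →ₗ[k] M) - 1) := by
      have : ((g * h : LinearMap.GeneralLinearGroup k M) : M →ₗ[k] M) - 1 =
          ((g : M →ₗ[k] M) - 1) * ((h : M →ₗ[k] M) - 1) + ((g : M →ₗ[k] M) - 1) +
            ((h : M →ₗ[k] M) - 1) := by
        rw [Units.val_mul]
        noncomm_ring
      rw [this, hab, zero_add]
    refine ⟨G.mul_mem hgG hhG, ?_, ?_, ?_⟩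
    · rintro τ ⟨c, hc⟩
      have h1 : (c • ((g : M →ₗ[k] M) - 1)) * (c • ((g : M →ₗ[k] M) - 1)) = 0 := by
        rw [smul_mul_smul_comm, haa, smul_zero]
      have h2 : (c • ((h : M →ₗ[k] M) - 1)) * (c • ((h : M →ₗ[k] M) - 1)) = 0 := by
        rw [smul_mul_smul_comm, hbb, smul_zero]
      have h3 : τ = unitOfSqZero _ h1 * unitOfSqZero _ h2 := by
        apply Units.ext
        rw [hc, hsum, Units.val_mul, unitOfSqZero_val, unitOfSqZero_val]
        have h4 : ∀ x y : M →ₗ[k] M, (1 + x) * (1 + y) = 1 + x + y + x * y :=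
          fun x y => by noncomm_ring
        rw [h4, smul_mul_smul_comm, hab, smul_zero, add_zero, smul_add, add_assoc]
      rw [h3]
      exact G.mul_mem (hgs ⟨c, rfl⟩) (hhs ⟨c, rfl⟩)
    · rw [hsum]
      rintro _ ⟨m, rfl⟩
      rw [LinearMap.add_apply]
      exact R.add_mem (hgR ⟨m, rfl⟩) (hhR ⟨m, rfl⟩)
    · rw [hsum]
      intro m hm
      rw [LinearMap.mem_ker, LinearMap.add_apply, LinearMap.mem_ker.1 (hgC hm),
        LinearMap.mem_ker.1 (hhC hm), add_zero]
  inv_mem' := by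
    rintro g ⟨hgG, hgs, hgR, hgC⟩
    have haa : ((g : M →ₗ[k] M) - 1) * ((g : M →ₗ[k] M) - 1) = 0 :=
      mul_eq_zero_of_range_le_ker hRC hgR hgC
    have h1 : (-((g : M →ₗ[k] M) - 1)) * (-((g : M →ₗ[k] M) - 1)) = 0 := by
      rw [neg_mul_neg, haa]
    have hinv : g⁻¹ = unitOfSqZero _ h1 := by
      symm
      apply eq_inv_of_mul_eq_one_right
      apply Units.ext
      rw [Units.val_mul, unitOfSqZero_val, Units.val_one]
      have : (g : M →ₗ[k] M) * (1 + -((g : M →ₗ[k] M) - 1)) =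
          1 - ((g : M →ₗ[k] M) - 1) * ((g : M →ₗ[k] M) - 1) := by noncomm_ring
      rw [this, haa, sub_zero]
    have hval : ((g⁻¹ : LinearMap.GeneralLinearGroup k M) : M →ₗ[k] M) - 1 =
        -((g : M →ₗ[k] M) - 1) := by
      rw [hinv, unitOfSqZero_val, add_sub_cancel_left]
    refine ⟨G.inv_mem hgG, ?_, ?_, ?_⟩
    · rintro τ ⟨c, hc⟩
      apply hgs
      refine ⟨-c, ?_⟩
      rw [hc, hval, smul_neg, neg_smul]
    · rw [hval]
      rintro _ ⟨m, rfl⟩
      rw [LinearMap.neg_apply]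
      exact R.neg_mem (hgR ⟨m, rfl⟩)
    · rw [hval]
      intro m hm
      rw [LinearMap.mem_ker, LinearMap.neg_apply, LinearMap.mem_ker.1 (hgC hm), neg_zero]

theorem mem_sameActionAux_iff (G : Subgroup (LinearMap.GeneralLinearGroup k M)) (C R : Submodule k M)
    (hRC : R ≤ C) (g : LinearMap.GeneralLinearGroup k M) :
    g ∈ sameActionAux G C R hRC ↔ (g ∈ G ∧
      Cfsg.scalarFamily g ⊆ (G : Set (LinearMap.GeneralLinearGroup k M)) ∧
      LinearMap.range ((g : M →ₗ[k] M) - 1) ≤ R ∧ C ≤ LinearMap.ker ((g : M →ₗ[k] M) - 1)) :=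
  Iff.rfl

theorem pow_val_of_sq_zero {g : LinearMap.GeneralLinearGroup k M}
    (haa : ((g : M →ₗ[k] M) - 1) * ((g : M →ₗ[k] M) - 1) = 0) (n : ℕ) :
    ((g ^ n : LinearMap.GeneralLinearGroup k M) : M →ₗ[k] M) = 1 + (n : k) • ((g : M →ₗ[k] M) - 1) := by
  induction n with
  | zero => simp
  | succ n ih =>
    rw [pow_succ, Units.val_mul, ih]
    have h1 : (1 + (n : k) • ((g : M →ₗ[k] M) - 1)) * (g : M →ₗ[k] M) =
        1 + (n : k) • ((g : M →ₗ[k] M) - 1) + ((g : M →ₗ[k] M) - 1) +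
          (n : k) • (((g : M →ₗ[k] M) - 1) * ((g : M →ₗ[k] M) - 1)) := by
      rw [← smul_mul_assoc]
      noncomm_ring
    rw [h1, haa, smul_zero, add_zero, Nat.cast_succ, add_smul, one_smul, add_assoc]

/-- Thompson's quadratic pairs: `E(σ) = E_σ ∪ {1}` is an abelian subgroup, of exponent `p` in
characteristic `p`. -/
theorem sameActionSubgroup_props [FiniteDimensional k M]
    {G : Subgroup (LinearMap.GeneralLinearGroup k M)}
    {σ : LinearMap.GeneralLinearGroup k M} (hσ : σ ∈ Cfsg.minimalQuadraticElements G) :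
    (Cfsg.sameActionSubgroup G σ : Set (LinearMap.GeneralLinearGroup k M)) =
        Cfsg.sameActionClass G σ ∪ {1} ∧
      IsMulCommutative ↥(Cfsg.sameActionSubgroup G σ) ∧
      (∀ p : ℕ, p.Prime → ringChar k = p → ∀ x ∈ Cfsg.sameActionSubgroup G σ, x ^ p = 1) := by
  obtain ⟨⟨hσG, ⟨hσq, hσne⟩, hσs⟩, hσmin⟩ := hσ
  have hRC : LinearMap.range ((σ : M →ₗ[k] M) - 1) ≤ LinearMap.ker ((σ : M →ₗ[k] M) - 1) := by
    rintro _ ⟨m, rfl⟩
    rw [LinearMap.mem_ker]
    have := congrArg (fun f : M →ₗ[k] M => f m) hσq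
    exact this
  -- the generated subgroup lies in the auxiliary subgroup
  have hle : Cfsg.sameActionSubgroup G σ ≤ sameActionAux G _ _ hRC := by
    refine (Subgroup.closure_le _).2 ?_
    rintro τ ⟨⟨⟨hτG, -, hτs⟩, -⟩, hτker, hτrange⟩
    exact ⟨hτG, hτs, hτrange.le, hτker.ge⟩
  have hsq : ∀ x ∈ Cfsg.sameActionSubgroup G σ,
      ((x : M →ₗ[k] M) - 1) * ((x : M →ₗ[k] M) - 1) = 0 := by
    intro x hx
    obtain ⟨-, -, hxR, hxC⟩ := hle hx
    exact mul_eq_zero_of_range_le_ker hRC hxR hxC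
  refine ⟨?_, ?_, ?_⟩
  · apply Set.Subset.antisymm
    · intro x hx
      by_cases hx1 : x = 1
      · exact Or.inr hx1
      left
      obtain ⟨hxG, hxs, hxR, hxC⟩ := hle hx
      have hxne : (x : M →ₗ[k] M) - 1 ≠ 0 := by
        intro h0
        apply hx1
        apply Units.ext
        rw [Units.val_one]
        exact sub_eq_zero.1 h0
      have hxq : x ∈ Cfsg.quadraticElements G := ⟨hxG, ⟨hsq x hx, hxne⟩, hxs⟩
      have h1 : Cfsg.commutatorRank σ ≤ Cfsg.commutatorRank x := hσmin x hxq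
      have h2 : Cfsg.commutatorRank x ≤ Cfsg.commutatorRank σ := Submodule.finrank_mono hxR
      have hrange : LinearMap.range ((x : M →ₗ[k] M) - 1) = LinearMap.range ((σ : M →ₗ[k] M) - 1) :=
        Submodule.eq_of_le_of_finrank_le hxR h1
      have hker : LinearMap.ker ((x : M →ₗ[k] M) - 1) = LinearMap.ker ((σ : M →ₗ[k] M) - 1) := by
        symm
        apply Submodule.eq_of_le_of_finrank_eq hxC
        have e1 := LinearMap.finrank_range_add_finrank_ker ((x : M →ₗ[k] M) - 1)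
        have e2 := LinearMap.finrank_range_add_finrank_ker ((σ : M →ₗ[k] M) - 1)
        rw [hrange] at e1
        omega
      exact ⟨⟨hxq, fun τ hτ => (le_of_eq (le_antisymm h2 h1)).trans (hσmin τ hτ)⟩, hker, hrange⟩
    · rintro x (hx | hx)
      · exact Subgroup.subset_closure hx
      · rw [Set.mem_singleton_iff] at hx
        rw [hx]
        exact Subgroup.one_mem _
  · refine ⟨⟨fun a b => ?_⟩⟩
    apply Subtype.ext
    apply Units.ext
    obtain ⟨-, -, haR, haC⟩ := hle a.2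
    obtain ⟨-, -, hbR, hbC⟩ := hle b.2
    have hab : (((a : LinearMap.GeneralLinearGroup k M) : M →ₗ[k] M) - 1) *
        (((b : LinearMap.GeneralLinearGroup k M) : M →ₗ[k] M) - 1) = 0 :=
      mul_eq_zero_of_range_le_ker hRC hbR haC
    have hba : (((b : LinearMap.GeneralLinearGroup k M) : M →ₗ[k] M) - 1) *
        (((a : LinearMap.GeneralLinearGroup k M) : M →ₗ[k] M) - 1) = 0 :=
      mul_eq_zero_of_range_le_ker hRC haR hbC
    show (((a : LinearMap.GeneralLinearGroup k M) * (b : LinearMap.GeneralLinearGroup k M) :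
      LinearMap.GeneralLinearGroup k M) : M →ₗ[k] M) =
      (((b : LinearMap.GeneralLinearGroup k M) * (a : LinearMap.GeneralLinearGroup k M) :
      LinearMap.GeneralLinearGroup k M) : M →ₗ[k] M)
    rw [Units.val_mul, Units.val_mul]
    have e1 : ((a : LinearMap.GeneralLinearGroup k M) : M →ₗ[k] M) *
        ((b : LinearMap.GeneralLinearGroup k M) : M →ₗ[k] M) =
        (((a : LinearMap.GeneralLinearGroup k M) : M →ₗ[k] M) - 1) *
          (((b : LinearMap.GeneralLinearGroup k M) : M →ₗ[k] M) - 1) +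
          ((a : LinearMap.GeneralLinearGroup k M) : M →ₗ[k] M) +
          ((b : LinearMap.GeneralLinearGroup k M) : M →ₗ[k] M) - 1 := by noncomm_ring
    have e2 : ((b : LinearMap.GeneralLinearGroup k M) : M →ₗ[k] M) *
        ((a : LinearMap.GeneralLinearGroup k M) : M →ₗ[k] M) =
        (((b : LinearMap.GeneralLinearGroup k M) : M →ₗ[k] M) - 1) *
          (((a : LinearMap.GeneralLinearGroup k M) : M →ₗ[k] M) - 1) +
          ((a : LinearMap.GeneralLinearGroup k M) : M →ₗ[k] M) +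
          ((b : LinearMap.GeneralLinearGroup k M) : M →ₗ[k] M) - 1 := by noncomm_ring
    rw [e1, e2, hab, hba]
  · intro p _ hp x hx
    apply Units.ext
    rw [pow_val_of_sq_zero (hsq x hx), Units.val_one]
    have h0 : ((p : ℕ) : k) = 0 := by
      rw [← hp]
      exact CharP.cast_eq_zero k (ringChar k)
    rw [h0, zero_smul, add_zero]

end Cfsg.Agent.Lib.Helper87
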