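import Mathlib
import Cfsg.Agent.Lib.Helper91.SpU
import Cfsg.Agent.Lib.Helper91.PslU
import Cfsg.Agent.Lib.Helper29.PslB4

/-!
# S5171 piece H1h (helper87): the Sylow subgroup `U` of `Sp_{2m}(K)` is generated by the Siegel
radical and the upper Levi transvections
-/

set_option autoImplicit false

namespace Cfsg.Agent.Lib.Helper87.SpH1h

open Matrix Cfsg.Agent.Lib.Helper91.SpU

theorem U_le_closure_aux (m : ℕ) (K : Type*) [Field K] (u : Matrix.symplecticGroup (Fin m) K)
    (A B D : Matrix (Fin m) (Fin m) K) (hform : u.1 = fromBlocks A B 0 D) (hUT : IsUT m K A) :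
    u ∈ Subgroup.closure
      ({x : Matrix.symplecticGroup (Fin m) K |
          ∃ (B : Matrix (Fin m) (Fin m) K) (hB : Bᵀ = B), x = sq m K B hB} ∪
        {x | ∃ (i j : Fin m) (hij : i ≠ j) (a : K),
          i < j ∧ x = slphi m K (SpecialLinearGroup.transvection hij a)}) := by
  have hmem : fromBlocks A B 0 D ∈ Matrix.symplecticGroup (Fin m) K := by
    rw [← hform]; exact u.2
  rw [SymplecticGroup.fromBlocks_mem_iff] at hmem
  obtain ⟨-, hBD, hAD⟩ := hmem
  have hAD' : Aᵀ * D = 1 := by simpa using hAD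
  have hDA : D * Aᵀ = 1 := mul_eq_one_comm.mp hAD'
  have hADt : A * Dᵀ = 1 := by
    have := congrArg Matrix.transpose hDA
    rw [Matrix.transpose_mul, Matrix.transpose_transpose, Matrix.transpose_one] at this
    exact this
  have hsym : A * Bᵀ = B * Aᵀ := by
    calc A * Bᵀ = A * Bᵀ * (D * Aᵀ) := by rw [hDA, Matrix.mul_one]
      _ = A * (Bᵀ * D) * Aᵀ := by simp only [Matrix.mul_assoc]
      _ = A * (Dᵀ * B) * Aᵀ := by rw [hBD]
      _ = (A * Dᵀ) * B * Aᵀ := by simp only [Matrix.mul_assoc]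
      _ = B * Aᵀ := by rw [hADt, Matrix.one_mul]
  have hB' : (B * Aᵀ)ᵀ = B * Aᵀ := by
    rw [Matrix.transpose_mul, Matrix.transpose_transpose, hsym]
  have hdet : A.det = 1 := by
    rw [Matrix.det_of_isUpperTriangular (M := A) (fun i j hji => hUT.1 i j hji)]
    exact Finset.prod_eq_one (fun i _ => hUT.2 i)
  obtain ⟨s, hs⟩ : ∃ s : SpecialLinearGroup (Fin m) K, s.1 = A := ⟨⟨A, hdet⟩, rfl⟩
  have hsUU : s ∈ Cfsg.Agent.Lib.Helper91.PslU.UU m K := by
    rw [Cfsg.Agent.Lib.Helper91.PslU.mem_UU_iff, hs]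
    exact hUT
  have hs_cl := Cfsg.Agent.Lib.Helper29.PslB4.UU_le_closure m K hsUU
  have hslphi : slphi m K s ∈ Subgroup.closure
      ({x : Matrix.symplecticGroup (Fin m) K |
          ∃ (B : Matrix (Fin m) (Fin m) K) (hB : Bᵀ = B), x = sq m K B hB} ∪
        {x | ∃ (i j : Fin m) (hij : i ≠ j) (a : K),
          i < j ∧ x = slphi m K (SpecialLinearGroup.transvection hij a)}) := by
    have h1 : slphi m K s ∈ (Subgroup.closure {x : SpecialLinearGroup (Fin m) K |
        ∃ (i j : Fin m) (hij : i ≠ j) (a : K),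
          i < j ∧ x = SpecialLinearGroup.transvection hij a}).map (slphi m K) :=
      Subgroup.mem_map_of_mem _ hs_cl
    rw [MonoidHom.map_closure] at h1
    refine Subgroup.closure_mono ?_ h1
    rintro _ ⟨x, ⟨i, j, hij, a, hlt, rfl⟩, rfl⟩
    exact Or.inr ⟨i, j, hij, a, hlt, rfl⟩
  have hgl : (SpecialLinearGroup.toGL s).1 = A := hs
  have hu_eq : u = sq m K (B * Aᵀ) hB' * slphi m K s := by
    apply Subtype.ext
    have hX : ((SpecialLinearGroup.toGL s)⁻¹ : GL (Fin m) K).1ᵀ = D := by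
      have h1 : ((SpecialLinearGroup.toGL s)⁻¹ : GL (Fin m) K).1 * A = 1 := by
        rw [← hgl, ← Units.val_mul, inv_mul_cancel, Units.val_one]
      have h2 : Aᵀ * ((SpecialLinearGroup.toGL s)⁻¹ : GL (Fin m) K).1ᵀ = 1 := by
        rw [← Matrix.transpose_mul, h1, Matrix.transpose_one]
      calc ((SpecialLinearGroup.toGL s)⁻¹ : GL (Fin m) K).1ᵀ
          = (D * Aᵀ) * ((SpecialLinearGroup.toGL s)⁻¹ : GL (Fin m) K).1ᵀ := by
            rw [hDA, Matrix.one_mul]
        _ = D * (Aᵀ * ((SpecialLinearGroup.toGL s)⁻¹ : GL (Fin m) K).1ᵀ) := by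
            rw [Matrix.mul_assoc]
        _ = D := by rw [h2, Matrix.mul_one]
    change u.1 = (sq m K (B * Aᵀ) hB').1 * (slphi m K s).1
    rw [sq_coe, slphi_apply, sphi_coe, hX, hgl, Matrix.fromBlocks_multiply, hform]
    simp only [Matrix.one_mul, Matrix.mul_zero, Matrix.zero_mul, add_zero, zero_add]
    rw [Matrix.mul_assoc, hAD', Matrix.mul_one]
  rw [hu_eq]
  exact Subgroup.mul_mem _ (Subgroup.subset_closure (Or.inl ⟨_, hB', rfl⟩)) hslphi

theorem U_le_closure_sp (m : ℕ) (K : Type*) [Field K] (u : Matrix.symplecticGroup (Fin m) K)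
    (hu : InU m K u) :
    u ∈ Subgroup.closure
      ({x : Matrix.symplecticGroup (Fin m) K |
          ∃ (B : Matrix (Fin m) (Fin m) K) (hB : Bᵀ = B), x = sq m K B hB} ∪
        {x | ∃ (i j : Fin m) (hij : i ≠ j) (a : K),
          i < j ∧ x = slphi m K (SpecialLinearGroup.transvection hij a)}) := by
  obtain ⟨h21, hUT⟩ := hu
  refine U_le_closure_aux m K u u.1.toBlocks₁₁ u.1.toBlocks₁₂ u.1.toBlocks₂₂ ?_ hUT
  rw [← h21]
  exact (Matrix.fromBlocks_toBlocks u.1).symm

end Cfsg.Agent.Lib.Helper87.SpH1h
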