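import Mathlib

/-!
# S1402 piece U95-J1 (helper87): `P ≤ H'` and `H = X Y` with `X` a normal `p'`-subgroup
give `P ≤ Y'`
-/

set_option autoImplicit false

namespace Cfsg.Agent.Lib.Helper87.U95

open scoped commutatorElement

universe u

variable {G : Type u} [Group G] [Finite G]

theorem mem_sup_mul {A N : Subgroup G} (hLE : A ≤ Subgroup.normalizer (N : Set G))
    {x : G} (hx : x ∈ A ⊔ N) : ∃ u ∈ A, ∃ o ∈ N, x = u * o := by
  have h : x ∈ ((A ⊔ N : Subgroup G) : Set G) := hx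
  rw [Subgroup.coe_mul_of_left_le_normalizer_right A N hLE] at h
  obtain ⟨u, hu, o, ho, rfl⟩ := Set.mem_mul.mp h
  exact ⟨u, hu, o, ho, rfl⟩

theorem comm_factor {p : ℕ} [Fact p.Prime] {H X Y P : Subgroup G}
    (hX : (Nat.card X).Coprime p) (hXn : H ≤ Subgroup.normalizer (X : Set G))
    (hYH : Y ≤ H) (hH : H ≤ X ⊔ Y) (hP : IsPGroup p P) (hPY : P ≤ Y)
    (hPH : P ≤ ⁅H, H⁆) : P ≤ ⁅Y, Y⁆ := by
  have hYn : Y ≤ Subgroup.normalizer (X : Set G) := hYH.trans hXn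
  have hconj : ∀ h ∈ H, ∀ x ∈ X, h * x * h⁻¹ ∈ X := fun h hh x hx =>
    (Subgroup.mem_normalizer_iff.mp (hXn hh) _).mp hx
  have hYY : ⁅Y, Y⁆ ≤ Y := by
    rw [Subgroup.commutator_le]
    intro a ha b hb
    rw [commutatorElement_def]
    exact Y.mul_mem (Y.mul_mem (Y.mul_mem ha hb) (Y.inv_mem ha)) (Y.inv_mem hb)
  -- (i) the derived subgroup of `H`
  have h1 : ⁅H, H⁆ ≤ ⁅Y, Y⁆ ⊔ X := by
    rw [Subgroup.commutator_le]
    intro g1 hg1 g2 hg2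
    have hg1' : g1 ∈ Y ⊔ X := by rw [sup_comm]; exact hH hg1
    have hg2' : g2 ∈ Y ⊔ X := by rw [sup_comm]; exact hH hg2
    obtain ⟨a, ha, n, hn, rfl⟩ := mem_sup_mul hYn hg1'
    obtain ⟨b, hb, m, hm, rfl⟩ := mem_sup_mul hYn hg2'
    have haH := hYH ha
    have hbH := hYH hb
    have hid : ⁅a * n, b * m⁆ = ⁅a, b⁆ * (((b * a * b⁻¹) * n * (b * a * b⁻¹)⁻¹)
        * ((b * a) * (m * n⁻¹) * (b * a)⁻¹) * (b * m⁻¹ * b⁻¹)) := by
      rw [commutatorElement_def, commutatorElement_def]; group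
    rw [hid]
    refine Subgroup.mul_mem _ (Subgroup.mem_sup_left (Subgroup.commutator_mem_commutator ha hb))
      (Subgroup.mem_sup_right ?_)
    refine X.mul_mem (X.mul_mem ?_ ?_) ?_
    · exact hconj _ (H.mul_mem (H.mul_mem hbH haH) (H.inv_mem hbH)) n hn
    · exact hconj _ (H.mul_mem hbH haH) _ (X.mul_mem hm (X.inv_mem hn))
    · exact hconj _ hbH _ (X.inv_mem hm)
  -- (ii) the elements of `P`
  intro u hu
  have huY : u ∈ Y := hPY hu
  obtain ⟨c, hc, x, hx, hcx⟩ := mem_sup_mul (hYY.trans hYn) (h1 (hPH hu))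
  have hcY : c ∈ Y := hYY hc
  have hxY : x ∈ Y := by
    have h2 : x = c⁻¹ * u := by rw [hcx]; group
    rw [h2]; exact Y.mul_mem (Y.inv_mem hcY) huY
  have hmap : (commutator ↥Y).map Y.subtype = ⁅Y, Y⁆ := Subgroup.map_subtype_commutator Y
  have hc' : (⟨c, hcY⟩ : ↥Y) ∈ commutator ↥Y := by
    rw [← hmap] at hc
    obtain ⟨c', hc', hcc⟩ := hc
    have h3 : c' = ⟨c, hcY⟩ := Subtype.ext hcc
    rw [← h3]; exact hc'
  have hπc : (QuotientGroup.mk' (commutator ↥Y)) ⟨c, hcY⟩ = 1 := by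
    rw [QuotientGroup.mk'_apply, QuotientGroup.eq_one_iff]; exact hc'
  have hux : (⟨u, huY⟩ : ↥Y) = ⟨c, hcY⟩ * ⟨x, hxY⟩ := Subtype.ext hcx
  have hπu : (QuotientGroup.mk' (commutator ↥Y)) ⟨u, huY⟩
      = (QuotientGroup.mk' (commutator ↥Y)) ⟨x, hxY⟩ := by
    rw [hux, map_mul, hπc, one_mul]
  -- orders
  obtain ⟨k, hk⟩ := hP ⟨u, hu⟩
  have huk : u ^ p ^ k = 1 := by simpa using congrArg Subtype.val hk
  have hxN : x ^ Nat.card X = 1 := by
    have h4 : (⟨x, hx⟩ : ↥X) ^ Nat.card X = 1 := pow_card_eq_one'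
    have h6 := congrArg Subtype.val h4
    rw [Subgroup.coe_pow, Subgroup.coe_one] at h6
    exact h6
  have ho1 : orderOf ((QuotientGroup.mk' (commutator ↥Y)) ⟨u, huY⟩) ∣ p ^ k := by
    apply orderOf_dvd_of_pow_eq_one
    rw [← map_pow]
    have h5 : (⟨u, huY⟩ : ↥Y) ^ p ^ k = 1 := Subtype.ext (by simpa using huk)
    rw [h5, map_one]
  have ho2 : orderOf ((QuotientGroup.mk' (commutator ↥Y)) ⟨u, huY⟩) ∣ Nat.card X := by
    rw [hπu]
    apply orderOf_dvd_of_pow_eq_one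
    rw [← map_pow]
    have h5 : (⟨x, hxY⟩ : ↥Y) ^ Nat.card X = 1 := Subtype.ext (by simpa using hxN)
    rw [h5, map_one]
  have hcop : (Nat.card X).Coprime (p ^ k) := Nat.Coprime.pow_right k hX
  have ho : orderOf ((QuotientGroup.mk' (commutator ↥Y)) ⟨u, huY⟩) = 1 :=
    Nat.eq_one_of_dvd_coprimes hcop ho2 ho1
  rw [orderOf_eq_one_iff, QuotientGroup.mk'_apply, QuotientGroup.eq_one_iff] at ho
  rw [← hmap]
  exact ⟨⟨u, huY⟩, ho, rfl⟩

end Cfsg.Agent.Lib.Helper87.U95
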