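import Mathlib

/-!
# S1402 piece U95-J3 (helper87): the derived subgroup of a group normalizing a cyclic subgroup
centralizes it
-/

set_option autoImplicit false

namespace Cfsg.Agent.Lib.Helper87.U95

open scoped commutatorElement

universe u

variable {G : Type u} [Group G] [Finite G]

theorem comm_le_centralizer_of_cyclic {L Z : Subgroup G} (hZ : IsCyclic ↥Z)
    (hLZ : L ≤ Subgroup.normalizer (Z : Set G)) : ⁅L, L⁆ ≤ Subgroup.centralizer (Z : Set G) := by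
  obtain ⟨z0, hz0⟩ := hZ.exists_generator
  have hmemZ : ∀ l ∈ L, ∀ z ∈ Z, l * z * l⁻¹ ∈ Z := fun l hl z hz =>
    (Subgroup.mem_normalizer_iff.mp (hLZ hl) _).mp hz
  -- each `l ∈ L` acts on `Z` as a power map
  have hpow : ∀ l ∈ L, ∃ m : ℤ, ∀ z ∈ Z, l * z * l⁻¹ = z ^ m := by
    intro l hl
    have h1 : l * (z0 : G) * l⁻¹ ∈ Z := hmemZ l hl _ z0.2
    obtain ⟨m, hm⟩ := Subgroup.mem_zpowers_iff.mp (hz0 ⟨_, h1⟩)
    refine ⟨m, fun z hz => ?_⟩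
    obtain ⟨k, hk⟩ := Subgroup.mem_zpowers_iff.mp (hz0 ⟨z, hz⟩)
    have hk' : (z0 : G) ^ k = z := by simpa using congrArg Subtype.val hk
    have hm' : (z0 : G) ^ m = l * (z0 : G) * l⁻¹ := by simpa using congrArg Subtype.val hm
    rw [← hk']
    calc l * (z0 : G) ^ k * l⁻¹ = (l * (z0 : G) * l⁻¹) ^ k := by rw [conj_zpow]
      _ = ((z0 : G) ^ m) ^ k := by rw [hm']
      _ = ((z0 : G) ^ k) ^ m := by rw [← zpow_mul, ← zpow_mul, mul_comm]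
  have hcomm : ∀ l1 ∈ L, ∀ l2 ∈ L, ∀ z ∈ Z,
      (l1 * l2) * z * (l1 * l2)⁻¹ = (l2 * l1) * z * (l2 * l1)⁻¹ := by
    intro l1 h1 l2 h2 z hz
    obtain ⟨m1, hm1⟩ := hpow l1 h1
    obtain ⟨m2, hm2⟩ := hpow l2 h2
    have e1 : (l1 * l2) * z * (l1 * l2)⁻¹ = l1 * (l2 * z * l2⁻¹) * l1⁻¹ := by group
    have e2 : (l2 * l1) * z * (l2 * l1)⁻¹ = l2 * (l1 * z * l1⁻¹) * l2⁻¹ := by group
    rw [e1, e2, hm1 _ (hmemZ l2 h2 z hz), hm2 _ (hmemZ l1 h1 z hz), hm2 z hz, hm1 z hz,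
      ← zpow_mul, ← zpow_mul, mul_comm]
  rw [Subgroup.commutator_le]
  intro l1 h1 l2 h2
  rw [Subgroup.mem_centralizer_iff]
  intro z hz
  have hz' : (l2 * l1)⁻¹ * z * ((l2 * l1)⁻¹)⁻¹ ∈ Z :=
    hmemZ _ (L.inv_mem (L.mul_mem h2 h1)) z hz
  have h3 := hcomm l1 h1 l2 h2 _ hz'
  have h4 : (l2 * l1) * ((l2 * l1)⁻¹ * z * ((l2 * l1)⁻¹)⁻¹) * (l2 * l1)⁻¹ = z := by group
  rw [h4] at h3
  rw [commutatorElement_def]
  calc z * (l1 * l2 * l1⁻¹ * l2⁻¹)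
      = ((l1 * l2) * ((l2 * l1)⁻¹ * z * ((l2 * l1)⁻¹)⁻¹) * (l1 * l2)⁻¹)
          * (l1 * l2 * l1⁻¹ * l2⁻¹) := by rw [h3]
    _ = l1 * l2 * l1⁻¹ * l2⁻¹ * z := by group

end Cfsg.Agent.Lib.Helper87.U95
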