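import Mathlib
import Cfsg.Agent.Lib.Helper44.UDDefs
import Cfsg.Agent.Lib.Helper44.UDKit
import Cfsg.Agent.Lib.Helper44.UDKit2

/-!
# S5655 (helper44), piece TRK: closure properties of the set `Gam` (helper87)
-/

set_option autoImplicit false
set_option linter.unusedSectionVars false
set_option linter.unusedVariables false

namespace Cfsg.Agent.Lib.Helper44.UD

open Matrix Cfsg.Agent.Lib.Helper93 Cfsg.Agent.Lib.Helper18 Cfsg.Agent.Lib.Helper7

section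
variable {F : Type*} [Field F] [Fintype F] {q N : ℕ}

/-- product of quasi-reflections along the same vector (unit or zero) -/
theorem udtrk_qrefl_qrefl (e : Fin N → F) (he : e = 0 ∨ Cfsg.hermForm N F q e e = 1) (s t : F)
    (x : Fin N → F) :
    qrefl q N e s *ᵥ (qrefl q N e t *ᵥ x) = qrefl q N e (s * t) *ᵥ x := by
  rcases he with rfl | he
  · simp only [qrefl_mulVec, smul_zero, add_zero]
  · simp only [qrefl_mulVec, hf_add_left, hf_smul_left, he, mul_one]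
    rw [add_assoc, ← add_smul]
    congr 2
    ring

/-- a quasi-reflection along `e` preserves orthogonality to vectors orthogonal to `e` -/
theorem udtrk_perp (e w x : Fin N → F) (s : F) (hew : Cfsg.hermForm N F q e w = 0)
    (hx : Cfsg.hermForm N F q x w = 0) :
    Cfsg.hermForm N F q (qrefl q N e s *ᵥ x) w = 0 := by
  rw [qrefl_mulVec, hf_add_left, hf_smul_left, hew, hx, mul_zero, add_zero]

end

theorem ud_trk {F : Type*} [Field F] [Fintype F] (q : ℕ) : TRKStmt F q := by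
  intro hF N Y hY w w' e hww hw'w' hww' he hew hew'
  have hw'w : Cfsg.hermForm N F q w' w = 1 := by rw [hf_conj hF N w w', hww', one_pow]
  refine ⟨?_, ?_, ?_, ?_⟩
  · -- (1, 0)
    refine ⟨1, 1, 1, MIn.one Y, one_ne_zero, one_pow _, (one_pow _).symm, ?_, ?_, ?_⟩
    · rw [Matrix.one_mulVec, one_smul]
    · simp
    · intro x _ _
      rw [Matrix.one_mulVec, qrefl_mulVec, sub_self, zero_mul, zero_smul, add_zero]
  · -- product
    rintro ⟨ν₁, a₁⟩ ⟨g₁, χ₁, s₁, hg₁, hχ₁, hs₁, hν₁, hw₁, hw'₁, hx₁⟩ ⟨ν₂, a₂⟩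
      ⟨g₂, χ₂, s₂, hg₂, hχ₂, hs₂, hν₂, hw₂, hw'₂, hx₂⟩
    dsimp only at hν₁ hν₂ hw'₁ hw'₂ ⊢
    refine ⟨g₁ * g₂, χ₁ * χ₂, s₁ * s₂, hg₁.mul hg₂, mul_ne_zero hχ₁ hχ₂, ?_, ?_, ?_, ?_, ?_⟩
    · rw [mul_pow, hs₁, hs₂, one_mul]
    · show ν₁ * ν₂ = (χ₁ * χ₂) ^ (q + 1)
      rw [hν₁, hν₂, mul_pow]
    · rw [← Matrix.mulVec_mulVec, hw₂, Matrix.mulVec_smul, hw₁, smul_smul, mul_comm]
    · show (g₁ * g₂) *ᵥ w' = ((χ₁ * χ₂) ^ q)⁻¹ • w' + ((a₂ + a₁ / ν₂) * (χ₁ * χ₂)) • w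
      rw [← Matrix.mulVec_mulVec, hw'₂, Matrix.mulVec_add, Matrix.mulVec_smul,
        Matrix.mulVec_smul, hw'₁, hw₁, hν₂]
      rw [smul_add, smul_smul, smul_smul, smul_smul, add_assoc, ← add_smul]
      have hχ₂q : χ₂ ^ q ≠ 0 := pow_ne_zero _ hχ₂
      congr 2
      · rw [mul_pow, mul_inv, mul_comm]
      · field_simp
        ring
    · intro x hxw hxw'
      rw [← Matrix.mulVec_mulVec, hx₂ x hxw hxw',
        hx₁ _ (udtrk_perp e w x s₂ hew hxw) (udtrk_perp e w' x s₂ hew' hxw'),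
        udtrk_qrefl_qrefl e he]
  · -- inverse
    rintro ⟨ν, a⟩ ⟨g, χ, s, hg, hχ, hs, hν, hw, hw', hx⟩
    dsimp only at hν hw' ⊢
    obtain ⟨t, ht, rfl⟩ := hg
    have hs0 : s ≠ 0 := by
      rintro rfl
      simp at hs
    have hχq : χ ^ q ≠ 0 := pow_ne_zero _ hχ
    have h1 := udk_inv_mulVec t w
    rw [hw, Matrix.mulVec_smul] at h1
    have h2 : ((t⁻¹ : GL (Fin N) F) : Matrix (Fin N) (Fin N) F) *ᵥ w = χ⁻¹ • w := by
      calc ((t⁻¹ : GL (Fin N) F) : Matrix (Fin N) (Fin N) F) *ᵥ w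
          = χ⁻¹ • (χ • (((t⁻¹ : GL (Fin N) F) : Matrix (Fin N) (Fin N) F) *ᵥ w)) := by
            rw [smul_smul, inv_mul_cancel₀ hχ, one_smul]
        _ = χ⁻¹ • w := by rw [h1]
    refine ⟨((t⁻¹ : GL (Fin N) F) : Matrix (Fin N) (Fin N) F), χ⁻¹, s⁻¹,
      ⟨t⁻¹, Y.inv_mem ht, rfl⟩, inv_ne_zero hχ, ?_, ?_, h2, ?_, ?_⟩
    · rw [inv_pow, hs, inv_one]
    · show ν⁻¹ = (χ⁻¹) ^ (q + 1)
      rw [hν, inv_pow]
    · show ((t⁻¹ : GL (Fin N) F) : Matrix (Fin N) (Fin N) F) *ᵥ w' =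
        ((χ⁻¹) ^ q)⁻¹ • w' + (-(a * ν) * χ⁻¹) • w
      have h3 := udk_inv_mulVec t w'
      rw [hw', Matrix.mulVec_add, Matrix.mulVec_smul, Matrix.mulVec_smul, h2] at h3
      calc ((t⁻¹ : GL (Fin N) F) : Matrix (Fin N) (Fin N) F) *ᵥ w'
          = χ ^ q • ((χ ^ q)⁻¹ • (((t⁻¹ : GL (Fin N) F) : Matrix (Fin N) (Fin N) F) *ᵥ w')) := by
            rw [smul_smul, mul_inv_cancel₀ hχq, one_smul]
        _ = χ ^ q • (w' - (a * χ) • χ⁻¹ • w) := by rw [eq_sub_of_add_eq h3]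
        _ = ((χ⁻¹) ^ q)⁻¹ • w' + (-(a * ν) * χ⁻¹) • w := by
            rw [smul_sub, smul_smul, smul_smul, sub_eq_add_neg, ← neg_smul, hν]
            congr 2
            · rw [inv_pow, inv_inv]
            · field_simp
              ring
    · intro x hxw hxw'
      have h4 := hx _ (udtrk_perp e w x s⁻¹ hew hxw) (udtrk_perp e w' x s⁻¹ hew' hxw')
      rw [udtrk_qrefl_qrefl e he, mul_inv_cancel₀ hs0] at h4
      have h5 : qrefl q N e 1 *ᵥ x = x := by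
        rw [qrefl_mulVec, sub_self, zero_mul, zero_smul, add_zero]
      rw [h5] at h4
      have h6 := udk_inv_mulVec t (qrefl q N e s⁻¹ *ᵥ x)
      rw [h4] at h6
      exact h6
  · -- values
    rintro ⟨ν, a⟩ ⟨g, χ, s, hg, hχ, hs, hν, hw, hw', hx⟩
    dsimp only at hν hw' ⊢
    have hχq : χ ^ q ≠ 0 := pow_ne_zero _ hχ
    have hχqq : (χ ^ q) ^ q = χ := herm_pow_pow hF χ
    refine ⟨?_, ?_, ?_⟩
    · rw [hν]; exact pow_ne_zero _ hχ
    · rw [hν, ← pow_mul, mul_comm, pow_mul, pow_succ, hχqq, mul_comm]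
      exact (pow_succ χ q).symm
    · have hpres := udk_MIn_pres hY hg w' w'
      rw [hw', hw'w'] at hpres
      simp only [hf_add_left, hf_add_right hF, hf_smul_left, hf_smul_right, hww, hw'w', hww',
        hw'w, mul_zero, mul_one, add_zero, zero_add] at hpres
      have h7 : ((χ ^ q)⁻¹) ^ q = χ⁻¹ := by rw [inv_pow, hχqq]
      rw [h7, mul_pow] at hpres
      field_simp at hpres
      exact hpres

end Cfsg.Agent.Lib.Helper44.UD
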