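import Mathlib
import Cfsg.Prelude.Def_RootSubgroups

set_option autoImplicit false

namespace Cfsg.Agent.Lib.Helper87

open Cfsg

section Semiring

variable {k : Type*} [CommSemiring k] {A : Type*} [Semiring A] [Algebra k A]

/-- A nilpotent subalgebra without unit, given as a submodule. -/
def IsNilAlg (N : Submodule k A) : Prop := N * N ≤ N ∧ ∃ n : ℕ, N ^ n = ⊥

theorem IsNilAlg.mono {N P : Submodule k A} (hP : IsNilAlg P) (hN : N * N ≤ N) (h : N ≤ P) :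
    IsNilAlg N := by
  obtain ⟨n, hn⟩ := hP.2
  exact ⟨hN, n, le_bot_iff.1 (hn ▸ pow_le_pow_left' h n)⟩

theorem pow_le_self_of_mul_le {N : Submodule k A} (h : N * N ≤ N) (j : ℕ) (hj : 1 ≤ j) :
    N ^ j ≤ N := by
  induction j, hj using Nat.le_induction with
  | base => rw [pow_one]
  | succ j hj ih =>
    rw [pow_succ]
    exact (mul_le_mul' ih le_rfl).trans h

theorem pow_succ_le_pow_of_mul_le {N : Submodule k A} (h : N * N ≤ N) (j : ℕ) (hj : 1 ≤ j) :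
    N ^ (j + 1) ≤ N ^ j := by
  obtain ⟨i, rfl⟩ : ∃ i, j = i + 1 := ⟨j - 1, by omega⟩
  rw [pow_succ N (i + 1), pow_succ N i, mul_assoc]
  exact mul_le_mul' le_rfl h

theorem pow_le_pow_of_mul_le {N : Submodule k A} (h : N * N ≤ N) {a b : ℕ} (hb : 1 ≤ b)
    (hab : b ≤ a) : N ^ a ≤ N ^ b := by
  induction a, hab using Nat.le_induction with
  | base => exact le_rfl
  | succ a hba ih => exact (pow_succ_le_pow_of_mul_le h a (hb.trans hba)).trans ih

theorem chain_mul_le {D P : Submodule k A} (hD : D * D ≤ D) (hP : P * P ≤ P) (hDP : D ≤ P) (j : ℕ)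
    (hj : 1 ≤ j) :
    (D ⊔ P ^ j) * (D ⊔ P ^ (j + 1)) ≤ D ⊔ P ^ (j + 1) ∧
      (D ⊔ P ^ (j + 1)) * (D ⊔ P ^ j) ≤ D ⊔ P ^ (j + 1) := by
  have h1 : P ^ j * D ≤ P ^ (j + 1) := by
    rw [pow_succ]
    exact mul_le_mul' le_rfl hDP
  have h2 : D * P ^ (j + 1) ≤ P ^ (j + 1) := by
    calc D * P ^ (j + 1) ≤ P * P ^ (j + 1) := mul_le_mul' hDP le_rfl
      _ = P ^ (j + 1 + 1) := (pow_succ' P (j + 1)).symm
      _ ≤ P ^ (j + 1) := pow_succ_le_pow_of_mul_le hP (j + 1) (by omega)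
  have h3 : P ^ j * P ^ (j + 1) ≤ P ^ (j + 1) := by
    rw [← pow_add]
    exact pow_le_pow_of_mul_le hP (by omega) (by omega)
  have h4 : P ^ (j + 1) * D ≤ P ^ (j + 1) := by
    calc P ^ (j + 1) * D ≤ P ^ (j + 1) * P := mul_le_mul' le_rfl hDP
      _ = P ^ (j + 1 + 1) := (pow_succ P (j + 1)).symm
      _ ≤ P ^ (j + 1) := pow_succ_le_pow_of_mul_le hP (j + 1) (by omega)
  have h5 : D * P ^ j ≤ P ^ (j + 1) := by
    rw [pow_succ']
    exact mul_le_mul' hDP le_rfl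
  have h6 : P ^ (j + 1) * P ^ j ≤ P ^ (j + 1) := by
    rw [← pow_add]
    exact pow_le_pow_of_mul_le hP (by omega) (by omega)
  constructor
  · rw [Submodule.sup_mul, Submodule.mul_sup, Submodule.mul_sup]
    exact sup_le (sup_le (hD.trans le_sup_left) (h2.trans le_sup_right))
      (sup_le (h1.trans le_sup_right) (h3.trans le_sup_right))
  · rw [Submodule.sup_mul, Submodule.mul_sup, Submodule.mul_sup]
    exact sup_le (sup_le (hD.trans le_sup_left) (h5.trans le_sup_right))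
      (sup_le (h4.trans le_sup_right) (h6.trans le_sup_right))

/-- A nilpotent algebra `D` and a nilpotent algebra `C` with `C D ⊆ D + D C` lie in a common
nilpotent algebra. -/
theorem nil_of_normalized {D C : Submodule k A} (hD : IsNilAlg D) (hC : IsNilAlg C)
    (hCD : C * D ≤ D ⊔ D * C) : ∃ E : Submodule k A, IsNilAlg E ∧ D ≤ E ∧ C ≤ E := by
  obtain ⟨hDD, t, ht⟩ := hD
  obtain ⟨hCC, s, hs⟩ := hC
  have hC1 : (1 ⊔ C) * (1 ⊔ C) ≤ 1 ⊔ C := by
    rw [Submodule.sup_mul, Submodule.mul_sup, Submodule.mul_sup, one_mul, mul_one, one_mul]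
    exact sup_le (sup_le le_sup_left le_sup_right) (sup_le le_sup_right (hCC.trans le_sup_right))
  have hC1D : (1 ⊔ C) * D ≤ D * (1 ⊔ C) := by
    rw [Submodule.sup_mul, Submodule.mul_sup, one_mul, mul_one]
    exact sup_le le_sup_left hCD
  have hJJ : (D * (1 ⊔ C)) * (D * (1 ⊔ C)) ≤ D * (1 ⊔ C) := by
    calc (D * (1 ⊔ C)) * (D * (1 ⊔ C)) = D * (((1 ⊔ C) * D) * (1 ⊔ C)) := by
          simp only [mul_assoc]
      _ ≤ D * ((D * (1 ⊔ C)) * (1 ⊔ C)) := mul_le_mul' le_rfl (mul_le_mul' hC1D le_rfl)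
      _ = (D * D) * ((1 ⊔ C) * (1 ⊔ C)) := by simp only [mul_assoc]
      _ ≤ D * (1 ⊔ C) := mul_le_mul' hDD hC1
  have hCJ : C * (D * (1 ⊔ C)) ≤ D * (1 ⊔ C) := by
    calc C * (D * (1 ⊔ C)) ≤ (1 ⊔ C) * (D * (1 ⊔ C)) := mul_le_mul' le_sup_right le_rfl
      _ = ((1 ⊔ C) * D) * (1 ⊔ C) := (mul_assoc _ _ _).symm
      _ ≤ (D * (1 ⊔ C)) * (1 ⊔ C) := mul_le_mul' hC1D le_rfl
      _ = D * ((1 ⊔ C) * (1 ⊔ C)) := mul_assoc _ _ _
      _ ≤ D * (1 ⊔ C) := mul_le_mul' le_rfl hC1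
  have hJC : (D * (1 ⊔ C)) * C ≤ D * (1 ⊔ C) := by
    calc (D * (1 ⊔ C)) * C ≤ (D * (1 ⊔ C)) * (1 ⊔ C) := mul_le_mul' le_rfl le_sup_right
      _ = D * ((1 ⊔ C) * (1 ⊔ C)) := mul_assoc _ _ _
      _ ≤ D * (1 ⊔ C) := mul_le_mul' le_rfl hC1
  have hJpow : ∀ m : ℕ, 1 ≤ m → (D * (1 ⊔ C)) ^ m ≤ D ^ m * (1 ⊔ C) := by
    intro m hm
    induction m, hm using Nat.le_induction with
    | base => rw [pow_one, pow_one]
    | succ m hm ih =>
      calc (D * (1 ⊔ C)) ^ (m + 1) = (D * (1 ⊔ C)) ^ m * (D * (1 ⊔ C)) := pow_succ _ _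
        _ ≤ (D ^ m * (1 ⊔ C)) * (D * (1 ⊔ C)) := mul_le_mul' ih le_rfl
        _ = D ^ m * (((1 ⊔ C) * D) * (1 ⊔ C)) := by simp only [mul_assoc]
        _ ≤ D ^ m * ((D * (1 ⊔ C)) * (1 ⊔ C)) := mul_le_mul' le_rfl (mul_le_mul' hC1D le_rfl)
        _ = (D ^ m * D) * ((1 ⊔ C) * (1 ⊔ C)) := by simp only [mul_assoc]
        _ ≤ D ^ (m + 1) * (1 ⊔ C) := by
          rw [← pow_succ]
          exact mul_le_mul' le_rfl hC1
  have hCnJ : ∀ n : ℕ, C ^ n * (D * (1 ⊔ C)) ≤ D * (1 ⊔ C) := by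
    intro n
    induction n with
    | zero => rw [pow_zero, one_mul]
    | succ n ih =>
      calc C ^ (n + 1) * (D * (1 ⊔ C)) = C ^ n * (C * (D * (1 ⊔ C))) := by
            rw [pow_succ, mul_assoc]
        _ ≤ C ^ n * (D * (1 ⊔ C)) := mul_le_mul' le_rfl hCJ
        _ ≤ D * (1 ⊔ C) := ih
  have hDJ : D ≤ D * (1 ⊔ C) := by
    calc D = D * 1 := (mul_one D).symm
      _ ≤ D * (1 ⊔ C) := mul_le_mul' le_rfl le_sup_left
  have hJt : (D * (1 ⊔ C)) ^ (t + 1) = ⊥ := by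
    refine le_bot_iff.1 ((hJpow (t + 1) (by omega)).trans ?_)
    rw [pow_succ, ht, Submodule.bot_mul, Submodule.bot_mul]
  obtain ⟨J, hJdef⟩ : ∃ J : Submodule k A, J = D * (1 ⊔ C) := ⟨_, rfl⟩
  rw [← hJdef] at hJJ hCJ hJC hCnJ hDJ hJt
  have hEE : (J ⊔ C) * (J ⊔ C) ≤ J ⊔ C := by
    rw [Submodule.sup_mul, Submodule.mul_sup, Submodule.mul_sup]
    exact sup_le (sup_le (hJJ.trans le_sup_left) (hJC.trans le_sup_left))
      (sup_le (hCJ.trans le_sup_left) (hCC.trans le_sup_right))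
  have hEpow : ∀ n : ℕ, 1 ≤ n → (J ⊔ C) ^ n ≤ J ⊔ C ^ n := by
    intro n hn
    induction n, hn using Nat.le_induction with
    | base => rw [pow_one, pow_one]
    | succ n hn ih =>
      calc (J ⊔ C) ^ (n + 1) = (J ⊔ C) ^ n * (J ⊔ C) := pow_succ _ _
        _ ≤ (J ⊔ C ^ n) * (J ⊔ C) := mul_le_mul' ih le_rfl
        _ ≤ J ⊔ C ^ (n + 1) := by
          rw [Submodule.sup_mul, Submodule.mul_sup, Submodule.mul_sup, ← pow_succ]
          exact sup_le (sup_le (hJJ.trans le_sup_left) (hJC.trans le_sup_left))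
            (sup_le ((hCnJ n).trans le_sup_left) le_sup_right)
  refine ⟨J ⊔ C, ⟨hEE, (s + 1) * (t + 1), ?_⟩, hDJ.trans le_sup_left, le_sup_right⟩
  have h1 : (J ⊔ C) ^ (s + 1) ≤ J := by
    refine (hEpow (s + 1) (by omega)).trans ?_
    rw [pow_succ, hs, Submodule.bot_mul, sup_bot_eq]
  rw [pow_mul]
  exact le_bot_iff.1 (hJt ▸ pow_le_pow_left' h1 (t + 1))

theorem list_prod_mem_pow (N : Submodule k A) (l : List A) (h : ∀ x ∈ l, x ∈ N) :
    l.prod ∈ N ^ l.length := by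
  induction l with
  | nil =>
    rw [List.prod_nil, List.length_nil, pow_zero]
    exact Submodule.one_le.1 le_rfl
  | cons x l ih =>
    rw [List.prod_cons, List.length_cons, pow_succ']
    exact Submodule.mul_mem_mul (h x List.mem_cons_self)
      (ih fun y hy => h y (List.mem_cons_of_mem _ hy))

variable (k) in
/-- The subalgebra without unit generated by a set, as a submodule. -/
def algOf (T : Set A) : Submodule k A := sInf {N : Submodule k A | N * N ≤ N ∧ T ⊆ (N : Set A)}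

theorem subset_algOf (T : Set A) : T ⊆ (algOf k T : Set A) := by
  intro x hx
  show x ∈ sInf {N : Submodule k A | N * N ≤ N ∧ T ⊆ (N : Set A)}
  rw [Submodule.mem_sInf]
  exact fun N hN => hN.2 hx

theorem algOf_le {T : Set A} {N : Submodule k A} (hN : N * N ≤ N) (hT : T ⊆ (N : Set A)) :
    algOf k T ≤ N :=
  sInf_le ⟨hN, hT⟩

theorem algOf_mul_le (T : Set A) : algOf k T * algOf k T ≤ algOf k T := by
  refine le_sInf ?_
  rintro N ⟨hN, hT⟩
  exact (mul_le_mul' (algOf_le hN hT) (algOf_le hN hT)).trans hN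

theorem algOf_mono {T T' : Set A} (h : T ⊆ T') : algOf k T ≤ algOf k T' :=
  algOf_le (algOf_mul_le T') (h.trans (subset_algOf T'))

theorem exists_step (Q : ℕ → Prop) (r : ℕ) (h1 : ¬ Q 1) (hr : Q (r + 1)) :
    ∃ j, 1 ≤ j ∧ ¬ Q j ∧ Q (j + 1) := by
  induction r with
  | zero => exact absurd hr h1
  | succ r ih =>
    by_cases h : Q (r + 1)
    · exact ih h
    · exact ⟨r + 1, by omega, h, hr⟩

end Semiring

section LinGroup

variable {k : Type*} [Field k] {M : Type*} [AddCommGroup M] [Module k M]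

/-- The elements `g - 1`, `g ∈ H`. -/
def augH (H : Subgroup (LinearMap.GeneralLinearGroup k M)) : Set (M →ₗ[k] M) :=
  {x | ∃ g ∈ H, x = (g : M →ₗ[k] M) - 1}

theorem span_augH_mul_le (H : Subgroup (LinearMap.GeneralLinearGroup k M)) :
    Submodule.span k (augH H) * Submodule.span k (augH H) ≤ Submodule.span k (augH H) := by
  rw [Submodule.span_mul_span]
  refine Submodule.span_le.2 ?_
  rintro _ ⟨_, ⟨g, hg, rfl⟩, _, ⟨h, hh, rfl⟩, rfl⟩
  have e : ((g : M →ₗ[k] M) - 1) * ((h : M →ₗ[k] M) - 1) =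
      (((g * h : LinearMap.GeneralLinearGroup k M) : M →ₗ[k] M) - 1) - ((g : M →ₗ[k] M) - 1) -
        ((h : M →ₗ[k] M) - 1) := by
    rw [Units.val_mul]
    noncomm_ring
  show ((g : M →ₗ[k] M) - 1) * ((h : M →ₗ[k] M) - 1) ∈ Submodule.span k (augH H)
  rw [e]
  exact Submodule.sub_mem _ (Submodule.sub_mem _ (Submodule.subset_span ⟨g * h, H.mul_mem hg hh, rfl⟩)
    (Submodule.subset_span ⟨g, hg, rfl⟩)) (Submodule.subset_span ⟨h, hh, rfl⟩)

theorem isUnipotentOn_iff (H : Subgroup (LinearMap.GeneralLinearGroup k M)) :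
    Cfsg.IsUnipotentOn H ↔ ∃ n : ℕ, ∀ l : List (LinearMap.GeneralLinearGroup k M),
      (∀ g ∈ l, g ∈ H) → l.length = n →
        (l.map (fun g : LinearMap.GeneralLinearGroup k M => (g : M →ₗ[k] M) - 1)).prod = 0 := by
  have key : ∀ l : List (LinearMap.GeneralLinearGroup k M),
      (List.map (fun g : M →ₗ[k] M => g - 1) (do let a ← l; pure (a : M →ₗ[k] M))) =
        l.map (fun g : LinearMap.GeneralLinearGroup k M => (g : M →ₗ[k] M) - 1) := by
    intro l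
    induction l with
    | nil => rfl
    | cons a l ih =>
      have h1 : (do let a ← (a :: l); pure (a : M →ₗ[k] M)) =
          (a : M →ₗ[k] M) :: (do let a ← l; pure (a : M →ₗ[k] M)) := rfl
      rw [h1, List.map_cons, List.map_cons, ih]
  constructor
  · rintro ⟨n, hn⟩
    refine ⟨n, fun l hl hlen => ?_⟩
    rw [← key]
    exact hn l hl hlen
  · rintro ⟨n, hn⟩
    refine ⟨n, fun l hl hlen => ?_⟩
    have h1 := hn l hl hlen
    rw [← key] at h1
    exact h1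

/-- A unipotent group spans a nilpotent algebra. -/
theorem isNilAlg_span_augH {H : Subgroup (LinearMap.GeneralLinearGroup k M)}
    (hH : Cfsg.IsUnipotentOn H) : IsNilAlg (Submodule.span k (augH H)) := by
  obtain ⟨n, hn⟩ := (isUnipotentOn_iff H).1 hH
  refine ⟨span_augH_mul_le H, n, ?_⟩
  rw [Submodule.span_pow, Submodule.span_eq_bot]
  intro x hx
  rw [Set.mem_pow] at hx
  obtain ⟨f, rfl⟩ := hx
  have hf : ∀ i, ∃ g ∈ H, ((f i : M →ₗ[k] M)) = (g : M →ₗ[k] M) - 1 := fun i => (f i).2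
  choose g hg hfg using hf
  have h1 := hn (List.ofFn g) (fun y hy => by
    rw [List.mem_ofFn] at hy
    obtain ⟨i, rfl⟩ := hy
    exact hg i) (List.length_ofFn ..)
  rw [List.map_ofFn] at h1
  have h2 : (fun i => ((f i : M →ₗ[k] M))) =
      (fun g : LinearMap.GeneralLinearGroup k M => (g : M →ₗ[k] M) - 1) ∘ g := funext fun i => hfg i
  rw [h2]
  exact h1

/-- A group whose elements `g` have `g - 1` in a nilpotent algebra is unipotent. -/
theorem isUnipotentOn_of_nilAlg {H : Subgroup (LinearMap.GeneralLinearGroup k M)}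
    {N : Submodule k (M →ₗ[k] M)} (hN : IsNilAlg N) (h : ∀ g ∈ H, (g : M →ₗ[k] M) - 1 ∈ N) :
    Cfsg.IsUnipotentOn H := by
  obtain ⟨n, hn⟩ := hN.2
  refine (isUnipotentOn_iff H).2 ⟨n, fun l hl hlen => ?_⟩
  have h1 := list_prod_mem_pow N
    (l.map fun g : LinearMap.GeneralLinearGroup k M => (g : M →ₗ[k] M) - 1) (fun x hx => by
    rw [List.mem_map] at hx
    obtain ⟨g, hg, rfl⟩ := hx
    exact h g (hl g hg))
  rw [List.length_map, hlen, hn] at h1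
  exact (Submodule.mem_bot k).1 h1

theorem mul_sub_one_mem {N : Submodule k (M →ₗ[k] M)} (hN : N * N ≤ N)
    {x y : LinearMap.GeneralLinearGroup k M} (hx : (x : M →ₗ[k] M) - 1 ∈ N)
    (hy : (y : M →ₗ[k] M) - 1 ∈ N) :
    ((x * y : LinearMap.GeneralLinearGroup k M) : M →ₗ[k] M) - 1 ∈ N := by
  have e : ((x * y : LinearMap.GeneralLinearGroup k M) : M →ₗ[k] M) - 1 =
      ((x : M →ₗ[k] M) - 1) * ((y : M →ₗ[k] M) - 1) + ((x : M →ₗ[k] M) - 1) +
        ((y : M →ₗ[k] M) - 1) := by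
    rw [Units.val_mul]
    noncomm_ring
  rw [e]
  exact N.add_mem (N.add_mem (hN (Submodule.mul_mem_mul hx hy)) hx) hy

/-- The group of all `g` with `g - 1` and `g⁻¹ - 1` in a multiplicatively closed submodule. -/
def augGroup (N : Submodule k (M →ₗ[k] M)) (hN : N * N ≤ N) :
    Subgroup (LinearMap.GeneralLinearGroup k M) where
  carrier := {g | (g : M →ₗ[k] M) - 1 ∈ N ∧
    ((g⁻¹ : LinearMap.GeneralLinearGroup k M) : M →ₗ[k] M) - 1 ∈ N}
  one_mem' := by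
    constructor
    · show ((1 : LinearMap.GeneralLinearGroup k M) : M →ₗ[k] M) - 1 ∈ N
      rw [Units.val_one, sub_self]
      exact N.zero_mem
    · show (((1 : LinearMap.GeneralLinearGroup k M)⁻¹ : LinearMap.GeneralLinearGroup k M) :
        M →ₗ[k] M) - 1 ∈ N
      rw [inv_one, Units.val_one, sub_self]
      exact N.zero_mem
  mul_mem' := by
    rintro g h ⟨hg, hg'⟩ ⟨hh, hh'⟩
    refine ⟨mul_sub_one_mem hN hg hh, ?_⟩
    show (((g * h)⁻¹ : LinearMap.GeneralLinearGroup k M) : M →ₗ[k] M) - 1 ∈ N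
    rw [mul_inv_rev]
    exact mul_sub_one_mem hN hh' hg'
  inv_mem' := by
    rintro g ⟨hg, hg'⟩
    refine ⟨hg', ?_⟩
    show (((g⁻¹)⁻¹ : LinearMap.GeneralLinearGroup k M) : M →ₗ[k] M) - 1 ∈ N
    rw [inv_inv]
    exact hg

/-- The group of all `g` with `g D g⁻¹ ⊆ D` and `g⁻¹ D g ⊆ D`. -/
def normGroup (D : Submodule k (M →ₗ[k] M)) : Subgroup (LinearMap.GeneralLinearGroup k M) where
  carrier := {g | (∀ y ∈ D, (g : M →ₗ[k] M) * y *
      ((g⁻¹ : LinearMap.GeneralLinearGroup k M) : M →ₗ[k] M) ∈ D) ∧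
    (∀ y ∈ D, ((g⁻¹ : LinearMap.GeneralLinearGroup k M) : M →ₗ[k] M) * y * (g : M →ₗ[k] M) ∈ D)}
  one_mem' := by
    constructor
    · intro y hy
      show ((1 : LinearMap.GeneralLinearGroup k M) : M →ₗ[k] M) * y *
        (((1 : LinearMap.GeneralLinearGroup k M)⁻¹ : LinearMap.GeneralLinearGroup k M) : M →ₗ[k] M) ∈ D
      rw [inv_one, Units.val_one, one_mul, mul_one]
      exact hy
    · intro y hy
      show (((1 : LinearMap.GeneralLinearGroup k M)⁻¹ : LinearMap.GeneralLinearGroup k M) :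
        M →ₗ[k] M) * y * ((1 : LinearMap.GeneralLinearGroup k M) : M →ₗ[k] M) ∈ D
      rw [inv_one, Units.val_one, one_mul, mul_one]
      exact hy
  mul_mem' := by
    rintro g h ⟨hg, hg'⟩ ⟨hh, hh'⟩
    constructor
    · intro y hy
      have h1 := hg _ (hh y hy)
      show ((g * h : LinearMap.GeneralLinearGroup k M) : M →ₗ[k] M) * y *
        (((g * h)⁻¹ : LinearMap.GeneralLinearGroup k M) : M →ₗ[k] M) ∈ D
      rw [mul_inv_rev, Units.val_mul, Units.val_mul]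
      simp only [mul_assoc] at h1 ⊢
      exact h1
    · intro y hy
      have h1 := hh' _ (hg' y hy)
      show (((g * h)⁻¹ : LinearMap.GeneralLinearGroup k M) : M →ₗ[k] M) * y *
        ((g * h : LinearMap.GeneralLinearGroup k M) : M →ₗ[k] M) ∈ D
      rw [mul_inv_rev, Units.val_mul, Units.val_mul]
      simp only [mul_assoc] at h1 ⊢
      exact h1
  inv_mem' := by
    rintro g ⟨hg, hg'⟩
    refine ⟨?_, ?_⟩
    · intro y hy
      show ((g⁻¹ : LinearMap.GeneralLinearGroup k M) : M →ₗ[k] M) * y *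
        (((g⁻¹)⁻¹ : LinearMap.GeneralLinearGroup k M) : M →ₗ[k] M) ∈ D
      rw [inv_inv]
      exact hg' y hy
    · intro y hy
      show (((g⁻¹)⁻¹ : LinearMap.GeneralLinearGroup k M) : M →ₗ[k] M) * y *
        ((g⁻¹ : LinearMap.GeneralLinearGroup k M) : M →ₗ[k] M) ∈ D
      rw [inv_inv]
      exact hg y hy

theorem mem_normGroup_iff (D : Submodule k (M →ₗ[k] M)) (g : LinearMap.GeneralLinearGroup k M) :
    g ∈ normGroup D ↔ ((∀ y ∈ D, (g : M →ₗ[k] M) * y *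
      ((g⁻¹ : LinearMap.GeneralLinearGroup k M) : M →ₗ[k] M) ∈ D) ∧
    (∀ y ∈ D, ((g⁻¹ : LinearMap.GeneralLinearGroup k M) : M →ₗ[k] M) * y * (g : M →ₗ[k] M) ∈ D)) :=
  Iff.rfl

/-- If `H` normalizes `D` then `span(H - 1) D ⊆ D + D span(H - 1)`. -/
theorem span_augH_mul_le_of_le_normGroup {H : Subgroup (LinearMap.GeneralLinearGroup k M)}
    {D : Submodule k (M →ₗ[k] M)} (hH : H ≤ normGroup D) :
    Submodule.span k (augH H) * D ≤ D ⊔ D * Submodule.span k (augH H) := by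
  rw [Submodule.mul_le]
  intro m hm y hy
  induction hm using Submodule.span_induction with
  | mem x hx =>
    obtain ⟨g, hg, rfl⟩ := hx
    have h1 := ((mem_normGroup_iff D g).1 (hH hg)).1 y hy
    have h2 : ((g⁻¹ : LinearMap.GeneralLinearGroup k M) : M →ₗ[k] M) * (g : M →ₗ[k] M) = 1 :=
      Units.inv_mul g
    have e : ((g : M →ₗ[k] M) - 1) * y =
        ((g : M →ₗ[k] M) * y * ((g⁻¹ : LinearMap.GeneralLinearGroup k M) : M →ₗ[k] M) - y) +
          ((g : M →ₗ[k] M) * y * ((g⁻¹ : LinearMap.GeneralLinearGroup k M) : M →ₗ[k] M)) *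
            ((g : M →ₗ[k] M) - 1) := by
      have e2 : (g : M →ₗ[k] M) * y * ((g⁻¹ : LinearMap.GeneralLinearGroup k M) : M →ₗ[k] M) *
          ((g : M →ₗ[k] M) - 1) = (g : M →ₗ[k] M) * y -
            (g : M →ₗ[k] M) * y * ((g⁻¹ : LinearMap.GeneralLinearGroup k M) : M →ₗ[k] M) := by
        rw [mul_sub, mul_one, mul_assoc ((g : M →ₗ[k] M) * y), h2, mul_one]
      rw [e2]
      noncomm_ring
    rw [e]
    exact Submodule.add_mem _ (Submodule.mem_sup_left (D.sub_mem h1 hy))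
      (Submodule.mem_sup_right (Submodule.mul_mem_mul h1 (Submodule.subset_span ⟨g, hg, rfl⟩)))
  | zero =>
    rw [zero_mul]
    exact Submodule.zero_mem _
  | add a b _ _ ha hb =>
    rw [add_mul]
    exact Submodule.add_mem _ ha hb
  | smul c a _ ha =>
    rw [smul_mul_assoc]
    exact Submodule.smul_mem _ c ha

/-- If conjugation by `a` maps the generators into the generated algebra, it preserves the
algebra. -/
theorem conj_mem_algOf {T : Set (M →ₗ[k] M)} {a : LinearMap.GeneralLinearGroup k M}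
    (h : ∀ x ∈ T, (a : M →ₗ[k] M) * x *
      ((a⁻¹ : LinearMap.GeneralLinearGroup k M) : M →ₗ[k] M) ∈ algOf k T) :
    ∀ y ∈ algOf k T, (a : M →ₗ[k] M) * y *
      ((a⁻¹ : LinearMap.GeneralLinearGroup k M) : M →ₗ[k] M) ∈ algOf k T := by
  obtain ⟨κ, hκ⟩ : ∃ κ : (M →ₗ[k] M) →ₗ[k] (M →ₗ[k] M), ∀ y, κ y = (a : M →ₗ[k] M) * y *
      ((a⁻¹ : LinearMap.GeneralLinearGroup k M) : M →ₗ[k] M) :=
    ⟨(LinearMap.mulRight k ((a⁻¹ : LinearMap.GeneralLinearGroup k M) : M →ₗ[k] M)).comp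
      (LinearMap.mulLeft k (a : M →ₗ[k] M)), fun y => rfl⟩
  have h2 : ((a⁻¹ : LinearMap.GeneralLinearGroup k M) : M →ₗ[k] M) * (a : M →ₗ[k] M) = 1 :=
    Units.inv_mul a
  have hle : algOf k T ≤ (algOf k T).comap κ := by
    refine algOf_le ?_ ?_
    · rw [Submodule.mul_le]
      intro m hm n hn
      rw [Submodule.mem_comap] at hm hn ⊢
      have e : κ (m * n) = κ m * κ n := by
        rw [hκ, hκ, hκ]
        have e3 : (a : M →ₗ[k] M) * m * ((a⁻¹ : LinearMap.GeneralLinearGroup k M) : M →ₗ[k] M) *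
            ((a : M →ₗ[k] M) * n * ((a⁻¹ : LinearMap.GeneralLinearGroup k M) : M →ₗ[k] M)) =
            (a : M →ₗ[k] M) * m * (((a⁻¹ : LinearMap.GeneralLinearGroup k M) : M →ₗ[k] M) *
              (a : M →ₗ[k] M)) * n * ((a⁻¹ : LinearMap.GeneralLinearGroup k M) : M →ₗ[k] M) := by
          simp only [mul_assoc]
        rw [e3, h2, mul_one]
        simp only [mul_assoc]
      rw [e]
      exact algOf_mul_le T (Submodule.mul_mem_mul hm hn)
    · intro x hx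
      rw [SetLike.mem_coe, Submodule.mem_comap, hκ]
      exact h x hx
  intro y hy
  have h3 := hle hy
  rw [Submodule.mem_comap, hκ] at h3
  exact h3

/-- The elements `a - 1` for `a` in a member of the family. -/
def augSet (Δ : Set (Subgroup (LinearMap.GeneralLinearGroup k M))) : Set (M →ₗ[k] M) :=
  {x | ∃ A ∈ Δ, ∃ a ∈ A, x = (a : M →ₗ[k] M) - 1}

/-- The members `A` of `W` with `A - 1 ⊆ N`. -/
def membersOf (W : Set (Subgroup (LinearMap.GeneralLinearGroup k M))) (N : Submodule k (M →ₗ[k] M)) :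
    Set (Subgroup (LinearMap.GeneralLinearGroup k M)) :=
  {A | A ∈ W ∧ ∀ a ∈ A, (a : M →ₗ[k] M) - 1 ∈ N}

/-- The nilpotent algebras generated by subfamilies of `W`. -/
def nilFamily (W : Set (Subgroup (LinearMap.GeneralLinearGroup k M))) :
    Set (Submodule k (M →ₗ[k] M)) :=
  {N | IsNilAlg N ∧ ∃ Δ : Set (Subgroup (LinearMap.GeneralLinearGroup k M)), Δ ⊆ W ∧
    N = algOf k (augSet Δ)}

theorem algOf_membersOf {W : Set (Subgroup (LinearMap.GeneralLinearGroup k M))}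
    {N : Submodule k (M →ₗ[k] M)} (hN : N ∈ nilFamily W) :
    algOf k (augSet (membersOf W N)) = N := by
  obtain ⟨hnil, Δ, hΔ, rfl⟩ := hN
  apply le_antisymm
  · refine algOf_le hnil.1 ?_
    rintro _ ⟨A, hA, a, ha, rfl⟩
    exact hA.2 a ha
  · refine algOf_mono ?_
    rintro _ ⟨A, hA, a, ha, rfl⟩
    exact ⟨A, ⟨hΔ hA, fun b hb => subset_algOf _ ⟨A, hA, b, hb, rfl⟩⟩, a, ha, rfl⟩

theorem mem_nilFamily_of {W Δ : Set (Subgroup (LinearMap.GeneralLinearGroup k M))} (hΔ : Δ ⊆ W)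
    {E : Submodule k (M →ₗ[k] M)} (hE : IsNilAlg E) (h : augSet Δ ⊆ (E : Set (M →ₗ[k] M))) :
    algOf k (augSet Δ) ∈ nilFamily W :=
  ⟨hE.mono (algOf_mul_le _) (algOf_le hE.1 h), Δ, hΔ, rfl⟩

/-- A maximal member of the family of nilpotent algebras. -/
def IsMaxNil (W : Set (Subgroup (LinearMap.GeneralLinearGroup k M))) (P : Submodule k (M →ₗ[k] M)) :
    Prop :=
  P ∈ nilFamily W ∧ ∀ Q ∈ nilFamily W, P ≤ Q → Q = P

theorem exists_max_nil [FiniteDimensional k M]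
    {W : Set (Subgroup (LinearMap.GeneralLinearGroup k M))} {N : Submodule k (M →ₗ[k] M)}
    (hN : N ∈ nilFamily W) : ∃ P, IsMaxNil W P ∧ N ≤ P := by
  let s : Set ℕ := {d | ∃ P ∈ nilFamily W, N ≤ P ∧ Module.finrank k P = d}
  have hbdd : BddAbove s := by
    refine ⟨Module.finrank k (M →ₗ[k] M), ?_⟩
    rintro d ⟨P, -, -, rfl⟩
    exact Submodule.finrank_le P
  have hne : s.Nonempty := ⟨_, N, hN, le_rfl, rfl⟩
  obtain ⟨P, hP, hNP, hd⟩ := Nat.sSup_mem hne hbdd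
  refine ⟨P, ⟨hP, fun Q hQ hPQ => ?_⟩, hNP⟩
  have h1 : Module.finrank k Q ≤ sSup s := le_csSup hbdd ⟨Q, hQ, hNP.trans hPQ, rfl⟩
  rw [← hd] at h1
  exact (Submodule.eq_of_le_of_finrank_le hPQ h1).symm

/-- The Alperin–Lyons step: for two different maximal nilpotent algebras there is a member of the
first, not of the second, normalizing the algebra generated by the common members. -/
theorem exists_normalizing {W : Set (Subgroup (LinearMap.GeneralLinearGroup k M))}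
    (hconj : ∀ A ∈ W, ∀ a ∈ A, ∀ C ∈ W, Cfsg.conjBy C a ∈ W)
    {P₁ P₂ : Submodule k (M →ₗ[k] M)} (h₁ : IsMaxNil W P₁) (h₂ : IsMaxNil W P₂) (hne : P₁ ≠ P₂) :
    ∃ A ∈ membersOf W P₁, A ∉ membersOf W P₂ ∧
      ∀ a ∈ A, ∀ y ∈ algOf k (augSet (membersOf W P₁ ∩ membersOf W P₂)),
        (a : M →ₗ[k] M) * y * ((a⁻¹ : LinearMap.GeneralLinearGroup k M) : M →ₗ[k] M) ∈
          algOf k (augSet (membersOf W P₁ ∩ membersOf W P₂)) := by
  obtain ⟨Δ, hΔdef⟩ : ∃ Δ, Δ = membersOf W P₁ ∩ membersOf W P₂ := ⟨_, rfl⟩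
  rw [← hΔdef]
  have hΔ1 : Δ ⊆ membersOf W P₁ := hΔdef ▸ Set.inter_subset_left
  have hΔ2 : Δ ⊆ membersOf W P₂ := hΔdef ▸ Set.inter_subset_right
  have hΔ12 : ∀ A, A ∈ membersOf W P₁ → A ∈ membersOf W P₂ → A ∈ Δ := by
    intro A h1 h2
    rw [hΔdef]
    exact ⟨h1, h2⟩
  have hPP : P₁ * P₁ ≤ P₁ := h₁.1.1.1
  have hD1 : algOf k (augSet Δ) ≤ P₁ := by
    refine algOf_le hPP ?_
    rintro _ ⟨A, hA, a, ha, rfl⟩
    exact (hΔ1 hA).2 a ha
  have hD2 : algOf k (augSet Δ) ≤ P₂ := by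
    refine algOf_le h₂.1.1.1 ?_
    rintro _ ⟨A, hA, a, ha, rfl⟩
    exact (hΔ2 hA).2 a ha
  have hDD : algOf k (augSet Δ) * algOf k (augSet Δ) ≤ algOf k (augSet Δ) := algOf_mul_le _
  have hΔD : ∀ A ∈ W, (∀ a ∈ A, (a : M →ₗ[k] M) - 1 ∈ algOf k (augSet Δ)) → A ∈ Δ :=
    fun A hA h => hΔ12 A ⟨hA, fun a ha => hD1 (h a ha)⟩ ⟨hA, fun a ha => hD2 (h a ha)⟩
  have hex : ∃ A₀ ∈ membersOf W P₁, A₀ ∉ Δ := by
    by_contra hcon
    push Not at hcon
    have h3 : P₁ ≤ algOf k (augSet Δ) := by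
      calc P₁ = algOf k (augSet (membersOf W P₁)) := (algOf_membersOf h₁.1).symm
        _ ≤ algOf k (augSet Δ) := by
          refine algOf_mono ?_
          rintro _ ⟨A, hA, a, ha, rfl⟩
          exact ⟨A, hcon A hA, a, ha, rfl⟩
    exact hne (h₁.2 P₂ h₂.1 (h3.trans hD2)).symm
  obtain ⟨A₀, hA₀, hA₀Δ⟩ := hex
  obtain ⟨r, hr⟩ := h₁.1.1.2
  have hstep : ∃ j, 1 ≤ j ∧
      (¬ ∀ A ∈ W, (∀ a ∈ A, (a : M →ₗ[k] M) - 1 ∈ algOf k (augSet Δ) ⊔ P₁ ^ j) → A ∈ Δ) ∧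
      (∀ A ∈ W, (∀ a ∈ A, (a : M →ₗ[k] M) - 1 ∈ algOf k (augSet Δ) ⊔ P₁ ^ (j + 1)) → A ∈ Δ) := by
    refine exists_step
      (fun j => ∀ A ∈ W, (∀ a ∈ A, (a : M →ₗ[k] M) - 1 ∈ algOf k (augSet Δ) ⊔ P₁ ^ j) → A ∈ Δ)
      r ?_ ?_
    · intro hQ1
      refine hA₀Δ (hQ1 A₀ hA₀.1 fun a ha => Submodule.mem_sup_right ?_)
      rw [pow_one]
      exact hA₀.2 a ha
    · intro A hA h
      refine hΔD A hA fun a ha => ?_
      have h4 := h a ha
      rw [pow_succ, hr, Submodule.bot_mul, sup_bot_eq] at h4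
      exact h4
  obtain ⟨j, hj, hnQ, hQ⟩ := hstep
  push Not at hnQ
  obtain ⟨A₁, hA₁W, hA₁e, hA₁Δ⟩ := hnQ
  have hA₁P : A₁ ∈ membersOf W P₁ :=
    ⟨hA₁W, fun a ha => (sup_le hD1 (pow_le_self_of_mul_le hPP j hj)) (hA₁e a ha)⟩
  refine ⟨A₁, hA₁P, fun h => hA₁Δ (hΔ12 A₁ hA₁P h), ?_⟩
  intro a ha
  obtain ⟨hc1, hc2⟩ := chain_mul_le hDD hPP hD1 j hj
  have hx : (a : M →ₗ[k] M) - 1 ∈ algOf k (augSet Δ) ⊔ P₁ ^ j := hA₁e a ha
  have hx' : ((a⁻¹ : LinearMap.GeneralLinearGroup k M) : M →ₗ[k] M) - 1 ∈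
      algOf k (augSet Δ) ⊔ P₁ ^ j := hA₁e a⁻¹ (A₁.inv_mem ha)
  have hconjmem : ∀ y ∈ algOf k (augSet Δ) ⊔ P₁ ^ (j + 1),
      (a : M →ₗ[k] M) * y * ((a⁻¹ : LinearMap.GeneralLinearGroup k M) : M →ₗ[k] M) ∈
        algOf k (augSet Δ) ⊔ P₁ ^ (j + 1) := by
    intro y hy
    have e : (a : M →ₗ[k] M) * y * ((a⁻¹ : LinearMap.GeneralLinearGroup k M) : M →ₗ[k] M) =
        y + ((a : M →ₗ[k] M) - 1) * y +
          y * (((a⁻¹ : LinearMap.GeneralLinearGroup k M) : M →ₗ[k] M) - 1) +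
          ((a : M →ₗ[k] M) - 1) * y *
            (((a⁻¹ : LinearMap.GeneralLinearGroup k M) : M →ₗ[k] M) - 1) := by noncomm_ring
    rw [e]
    have t1 := hc1 (Submodule.mul_mem_mul hx hy)
    have t2 := hc2 (Submodule.mul_mem_mul hy hx')
    have t3 := hc2 (Submodule.mul_mem_mul t1 hx')
    exact Submodule.add_mem _ (Submodule.add_mem _ (Submodule.add_mem _ hy t1) t2) t3
  have hval : ∀ c : LinearMap.GeneralLinearGroup k M,
      (a : M →ₗ[k] M) * ((c : M →ₗ[k] M) - 1) *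
        ((a⁻¹ : LinearMap.GeneralLinearGroup k M) : M →ₗ[k] M) =
      ((a * c * a⁻¹ : LinearMap.GeneralLinearGroup k M) : M →ₗ[k] M) - 1 := by
    intro c
    rw [Units.val_mul, Units.val_mul, mul_sub, sub_mul, mul_one, Units.mul_inv]
  refine conj_mem_algOf ?_
  rintro _ ⟨C, hC, c, hc, rfl⟩
  have hCa : Cfsg.conjBy C a ∈ Δ := by
    refine hQ _ (hconj A₁ hA₁W a ha C (hΔ1 hC).1) ?_
    rintro c' ⟨c₀, hc₀, rfl⟩
    show ((a * c₀ * a⁻¹ : LinearMap.GeneralLinearGroup k M) : M →ₗ[k] M) - 1 ∈ _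
    rw [← hval]
    exact hconjmem _ (Submodule.mem_sup_left (subset_algOf _ ⟨C, hC, c₀, hc₀, rfl⟩))
  rw [hval]
  exact subset_algOf _ ⟨_, hCa, a * c * a⁻¹, ⟨c, hc, rfl⟩, rfl⟩

/-- Any two maximal nilpotent algebras of the family coincide. -/
theorem max_nil_unique [FiniteDimensional k M]
    {W : Set (Subgroup (LinearMap.GeneralLinearGroup k M))}
    (hconj : ∀ A ∈ W, ∀ a ∈ A, ∀ C ∈ W, Cfsg.conjBy C a ∈ W)
    (hpair : ∀ A ∈ W, ∀ B ∈ W, Cfsg.IsUnipotentOn (A ⊔ B)) :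
    ∀ n : ℕ, ∀ P₁ P₂ : Submodule k (M →ₗ[k] M), IsMaxNil W P₁ → IsMaxNil W P₂ →
      Module.finrank k (M →ₗ[k] M) ≤
        Module.finrank k (algOf k (augSet (membersOf W P₁ ∩ membersOf W P₂))) + n → P₁ = P₂ := by
  intro n
  induction n with
  | zero =>
    intro P₁ P₂ h₁ h₂ hfin
    have hD1 : algOf k (augSet (membersOf W P₁ ∩ membersOf W P₂)) ≤ P₁ := by
      refine algOf_le h₁.1.1.1 ?_
      rintro _ ⟨A, hA, a, ha, rfl⟩
      exact hA.1.2 a ha
    have hD2 : algOf k (augSet (membersOf W P₁ ∩ membersOf W P₂)) ≤ P₂ := by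
      refine algOf_le h₂.1.1.1 ?_
      rintro _ ⟨A, hA, a, ha, rfl⟩
      exact hA.2.2 a ha
    have htop : algOf k (augSet (membersOf W P₁ ∩ membersOf W P₂)) = ⊤ :=
      Submodule.eq_top_of_finrank_eq (le_antisymm (Submodule.finrank_le _) (by simpa using hfin))
    rw [htop] at hD1 hD2
    exact (top_le_iff.1 hD1).trans (top_le_iff.1 hD2).symm
  | succ n ih =>
    intro P₁ P₂ h₁ h₂ hfin
    by_contra hne
    obtain ⟨A₁, hA₁, hA₁n, hA₁norm⟩ := exists_normalizing hconj h₁ h₂ hne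
    obtain ⟨B₁, hB₁, hB₁n, hB₁norm⟩ := exists_normalizing hconj h₂ h₁ (Ne.symm hne)
    rw [Set.inter_comm] at hB₁norm
    obtain ⟨Δ, hΔdef⟩ : ∃ Δ, Δ = membersOf W P₁ ∩ membersOf W P₂ := ⟨_, rfl⟩
    rw [← hΔdef] at hfin hA₁norm hB₁norm
    have hΔ1 : Δ ⊆ membersOf W P₁ := hΔdef ▸ Set.inter_subset_left
    have hΔ2 : Δ ⊆ membersOf W P₂ := hΔdef ▸ Set.inter_subset_right
    have hΔ12 : ∀ A, A ∈ membersOf W P₁ → A ∈ membersOf W P₂ → A ∈ Δ := by
      intro A h1 h2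
      rw [hΔdef]
      exact ⟨h1, h2⟩
    have hD1 : algOf k (augSet Δ) ≤ P₁ := by
      refine algOf_le h₁.1.1.1 ?_
      rintro _ ⟨A, hA, a, ha, rfl⟩
      exact (hΔ1 hA).2 a ha
    have hD2 : algOf k (augSet Δ) ≤ P₂ := by
      refine algOf_le h₂.1.1.1 ?_
      rintro _ ⟨A, hA, a, ha, rfl⟩
      exact (hΔ2 hA).2 a ha
    have hΔD : ∀ A ∈ W, (∀ a ∈ A, (a : M →ₗ[k] M) - 1 ∈ algOf k (augSet Δ)) → A ∈ Δ :=
      fun A hA h => hΔ12 A ⟨hA, fun a ha => hD1 (h a ha)⟩ ⟨hA, fun a ha => hD2 (h a ha)⟩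
    have hHn : A₁ ⊔ B₁ ≤ normGroup (algOf k (augSet Δ)) := by
      refine sup_le ?_ ?_
      · intro a ha
        refine ⟨hA₁norm a ha, ?_⟩
        have h5 := hA₁norm a⁻¹ (A₁.inv_mem ha)
        rw [inv_inv] at h5
        exact h5
      · intro b hb
        refine ⟨hB₁norm b hb, ?_⟩
        have h5 := hB₁norm b⁻¹ (B₁.inv_mem hb)
        rw [inv_inv] at h5
        exact h5
    have hCnil : IsNilAlg (Submodule.span k (augH (A₁ ⊔ B₁))) :=
      isNilAlg_span_augH (hpair A₁ hA₁.1 B₁ hB₁.1)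
    have hDnil : IsNilAlg (algOf k (augSet Δ)) := h₁.1.1.mono (algOf_mul_le _) hD1
    obtain ⟨E, hE, hDE, hCE⟩ := nil_of_normalized hDnil hCnil
      (span_augH_mul_le_of_le_normGroup hHn)
    have hΔ'W : Δ ∪ {A₁, B₁} ⊆ W := by
      rintro A (hA | hA | hA)
      · exact (hΔ1 hA).1
      · rw [hA]
        exact hA₁.1
      · rw [Set.mem_singleton_iff] at hA
        rw [hA]
        exact hB₁.1
    have hN₃ : algOf k (augSet (Δ ∪ {A₁, B₁})) ∈ nilFamily W := by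
      refine mem_nilFamily_of hΔ'W hE ?_
      rintro _ ⟨A, hA, a, ha, rfl⟩
      rcases hA with hA | hA | hA
      · exact hDE (subset_algOf _ ⟨A, hA, a, ha, rfl⟩)
      · rw [hA] at ha
        exact hCE (Submodule.subset_span ⟨a, (le_sup_left : A₁ ≤ A₁ ⊔ B₁) ha, rfl⟩)
      · rw [Set.mem_singleton_iff] at hA
        rw [hA] at ha
        exact hCE (Submodule.subset_span ⟨a, (le_sup_right : B₁ ≤ A₁ ⊔ B₁) ha, rfl⟩)
    obtain ⟨P₃, h₃, hN₃P₃⟩ := exists_max_nil hN₃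
    have hmem3 : ∀ A ∈ Δ ∪ {A₁, B₁}, A ∈ membersOf W P₃ :=
      fun A hA => ⟨hΔ'W hA, fun a ha => hN₃P₃ (subset_algOf _ ⟨A, hA, a, ha, rfl⟩)⟩
    have hA₁3 : A₁ ∈ membersOf W P₃ := hmem3 A₁ (Or.inr (Or.inl rfl))
    have hB₁3 : B₁ ∈ membersOf W P₃ := hmem3 B₁ (Or.inr (Or.inr rfl))
    have key : ∀ (P : Submodule k (M →ₗ[k] M)) (A' : Subgroup (LinearMap.GeneralLinearGroup k M)),
        IsMaxNil W P → Δ ⊆ membersOf W P → A' ∈ membersOf W P → A' ∈ membersOf W P₃ → A' ∉ Δ →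
        P₃ = P := by
      intro P A' hP hΔP hA'P hA'3 hA'Δ
      refine ih P₃ P h₃ hP ?_
      have hle : algOf k (augSet Δ) ≤ algOf k (augSet (membersOf W P₃ ∩ membersOf W P)) := by
        refine algOf_mono ?_
        rintro _ ⟨A, hA, a, ha, rfl⟩
        exact ⟨A, ⟨hmem3 A (Or.inl hA), hΔP hA⟩, a, ha, rfl⟩
      have hlt : algOf k (augSet Δ) < algOf k (augSet (membersOf W P₃ ∩ membersOf W P)) := by
        refine lt_of_le_of_ne hle ?_
        intro heq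
        refine hA'Δ (hΔD A' hA'P.1 fun a ha => ?_)
        rw [heq]
        exact subset_algOf _ ⟨A', ⟨hA'3, hA'P⟩, a, ha, rfl⟩
      have h6 := Submodule.finrank_lt_finrank_of_lt hlt
      omega
    have e1 : P₃ = P₁ := key P₁ A₁ h₁ hΔ1 hA₁ hA₁3 (fun h => hA₁n (hΔ2 h))
    have e2 : P₃ = P₂ := key P₂ B₁ h₂ hΔ2 hB₁ hB₁3 (fun h => hB₁n (hΔ1 h))
    exact hne (e1.symm.trans e2)

/-- Thompson's lemma on quadratic pairs (a Baer–Suzuki theorem for unipotent linear groups): a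
conjugation-invariant family of subgroups, any two of which generate a unipotent group, generates a
unipotent normal subgroup. -/
theorem unipotent_of_pairs [FiniteDimensional k M] {G : Subgroup (LinearMap.GeneralLinearGroup k M)}
    {W : Set (Subgroup (LinearMap.GeneralLinearGroup k M))} (hWG : ∀ A ∈ W, A ≤ G)
    (hWW : ∀ A ∈ W, ∀ B ∈ W, Cfsg.IsUnipotentOn (A ⊔ B))
    (hWconj : ∀ A ∈ W, ∀ g ∈ G, Cfsg.conjBy A g ∈ W) :
    Cfsg.IsUnipotentOn (⨆ A ∈ W, A) ∧ ∀ g ∈ G, Cfsg.conjBy (⨆ A ∈ W, A) g = ⨆ A ∈ W, A := by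
  have hconj : ∀ A ∈ W, ∀ a ∈ A, ∀ C ∈ W, Cfsg.conjBy C a ∈ W :=
    fun A hA a ha C hC => hWconj C hC a (hWG A hA ha)
  constructor
  · have h0 : algOf k (augSet (∅ : Set (Subgroup (LinearMap.GeneralLinearGroup k M)))) ∈
        nilFamily W := by
      refine mem_nilFamily_of (Set.empty_subset _) (E := ⊥) ⟨by rw [Submodule.bot_mul], 1, pow_one _⟩ ?_
      rintro _ ⟨A, hA, -⟩
      exact absurd hA (Set.notMem_empty _)
    obtain ⟨P₀, hP₀, -⟩ := exists_max_nil h0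
    have huniq := max_nil_unique hconj hWW (Module.finrank k (M →ₗ[k] M))
    have hall : ∀ A ∈ W, ∀ a ∈ A, (a : M →ₗ[k] M) - 1 ∈ P₀ := by
      intro A hA a ha
      have hA' : algOf k (augSet ({A} : Set (Subgroup (LinearMap.GeneralLinearGroup k M)))) ∈
          nilFamily W := by
        refine mem_nilFamily_of (Set.singleton_subset_iff.2 hA)
          (isNilAlg_span_augH (hWW A hA A hA)) ?_
        rintro _ ⟨A', hA', b, hb, rfl⟩
        rw [Set.mem_singleton_iff] at hA'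
        rw [hA'] at hb
        exact Submodule.subset_span ⟨b, (le_sup_left : A ≤ A ⊔ A) hb, rfl⟩
      obtain ⟨P, hP, hAP⟩ := exists_max_nil hA'
      have h7 : P = P₀ := huniq P P₀ hP hP₀ (Nat.le_add_left _ _)
      rw [← h7]
      exact hAP (subset_algOf _ ⟨A, rfl, a, ha, rfl⟩)
    have hle : (⨆ A ∈ W, A) ≤ augGroup P₀ hP₀.1.1.1 :=
      iSup₂_le fun A hA a ha => ⟨hall A hA a ha, hall A hA a⁻¹ (A.inv_mem ha)⟩
    exact isUnipotentOn_of_nilAlg hP₀.1.1 (fun g hg => (hle hg).1)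
  · intro g hg
    show (⨆ A ∈ W, A).map (MulAut.conj g).toMonoidHom = ⨆ A ∈ W, A
    simp only [Subgroup.map_iSup]
    apply le_antisymm
    · exact iSup₂_le fun A hA => le_iSup₂_of_le (Cfsg.conjBy A g) (hWconj A hA g hg) le_rfl
    · refine iSup₂_le fun A hA => le_iSup₂_of_le (Cfsg.conjBy A g⁻¹)
        (hWconj A hA g⁻¹ (G.inv_mem hg)) ?_
      intro a ha
      refine ⟨g⁻¹ * a * g, ⟨a, ha, ?_⟩, ?_⟩
      · show g⁻¹ * a * g⁻¹⁻¹ = g⁻¹ * a * g
        rw [inv_inv]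
      · show g * (g⁻¹ * a * g) * g⁻¹ = a
        group

end LinGroup

end Cfsg.Agent.Lib.Helper87
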