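import Mathlib
import Cfsg.Prelude.Def_FusionSystem
import Cfsg.Prelude.Def_IsolatedElements
import Cfsg.Prelude.Def_CaseTheorems
import Cfsg.Agent.Lib.Helper30.Cores
import Cfsg.Agent.Lib.Helper58.Isolated
import Cfsg.Agent.Lib.Helper58.Isolated2
import Cfsg.Agent.Lib.Helper58.SylowConj
import Cfsg.Agent.Lib.Helper58.ZStar

/-!
# The Z*-theorem in fusion language, from the Z*-theorem for involutions (helper87, S5094)

`ZStarInvHyp` is the statement of Glauberman's Z*-theorem for involutions (S0215), taken as a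
hypothesis. From it: every isolated 2-element is central modulo the odd core, and the centre of
the 2-fusion system of a finite group is the Sylow 2-subgroup of `Z*(G)`.
-/

set_option autoImplicit false
set_option linter.unusedSectionVars false

namespace Cfsg.Agent.Lib.Helper87

open Cfsg Cfsg.Agent.Lib.Helper58
open scoped Pointwise

universe u

/-- Glauberman's Z*-theorem for involutions (the statement of S0215), for groups in `Type u`. -/
def ZStarInvHyp : Prop :=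
  ∀ (G : Type u) [Group G] [Finite G] (P : Sylow 2 G) (t : G), orderOf t = 2 →
    t ∈ (P : Subgroup G) → (∀ g : G, g * t * g⁻¹ ∈ (P : Subgroup G) → g * t * g⁻¹ = t) →
    ∃ N : Subgroup G, N.Normal ∧ Odd (Nat.card N) ∧ ∀ g : G, (t * g * t⁻¹ * g⁻¹) ∈ N

/-- A nontrivial 2-element has an involution among its powers. -/
theorem exists_involution_zpowers {G : Type*} [Group G] {x : G} (hx : ∃ k : ℕ, x ^ (2 ^ k) = 1)
    (hx1 : x ≠ 1) : ∃ t : G, orderOf t = 2 ∧ t ∈ Subgroup.zpowers x := by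
  obtain ⟨k, hk⟩ := hx
  have hdvd : orderOf x ∣ 2 ^ k := orderOf_dvd_of_pow_eq_one hk
  obtain ⟨j, -, hj⟩ := (Nat.dvd_prime_pow Nat.prime_two).1 hdvd
  have hj0 : j ≠ 0 := by
    rintro rfl
    rw [pow_zero, orderOf_eq_one_iff] at hj
    exact hx1 hj
  obtain ⟨i, rfl⟩ := Nat.exists_eq_succ_of_ne_zero hj0
  refine ⟨x ^ (2 ^ i), ?_, Subgroup.pow_mem _ (Subgroup.mem_zpowers x) _⟩
  have : Fact (Nat.Prime 2) := ⟨Nat.prime_two⟩
  apply orderOf_eq_prime
  · rw [← pow_mul, ← pow_succ, ← hj, pow_orderOf_eq_one]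
  · intro h1
    have h2 : orderOf x ∣ 2 ^ i := orderOf_dvd_of_pow_eq_one h1
    rw [hj] at h2
    have h3 := Nat.le_of_dvd (by positivity) h2
    have h4 : 2 ^ i < 2 ^ (i + 1) := Nat.pow_lt_pow_right (by norm_num) (Nat.lt_succ_self i)
    omega

/-- The Z*-theorem for arbitrary isolated 2-elements, by induction on the group order. -/
theorem inZStar_of_isolated_aux (hZ : ZStarInvHyp.{u}) :
    ∀ (n : ℕ) (G : Type u) [Group G] [Finite G], Nat.card G = n → ∀ x : G,
      (∃ k : ℕ, x ^ (2 ^ k) = 1) → IsIsolated x → InZStar 2 x := by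
  intro n
  induction n using Nat.strong_induction_on with
  | _ n ih =>
    intro G _ _ hn x hx hiso
    by_contra hnz
    have : Fact (Nat.Prime 2) := ⟨Nat.prime_two⟩
    have hquot : ∀ (N : Subgroup G) [N.Normal], N ≠ ⊥ →
        InZStar 2 (QuotientGroup.mk x : G ⧸ N) := by
      intro N _ hN
      have hlt : Nat.card (G ⧸ N) < n := by
        have h1 := Subgroup.card_eq_card_quotient_mul_card_subgroup N
        have h2 : 1 < Nat.card N := (Subgroup.one_lt_card_iff_ne_bot N).2 hN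
        have h3 : 0 < Nat.card (G ⧸ N) := Nat.card_pos
        rw [← hn, h1]
        nlinarith
      refine ih _ hlt (G ⧸ N) rfl _ ?_ (isolated_quotient hx hiso N)
      obtain ⟨k, hk⟩ := hx
      exact ⟨k, by rw [← QuotientGroup.mk_pow, hk]; rfl⟩
    have hO : pPrimeCore 2 G = ⊥ := pPrimeCore_eq_bot_of_min hnz hquot
    have hx1 : x ≠ 1 := by
      rintro rfl
      apply hnz
      intro g
      simp
    obtain ⟨t, ht2, htx⟩ := exists_involution_zpowers hx hx1
    obtain ⟨P, hP⟩ := (isPGroup_zpowers x hx).exists_le_sylow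
    have hxP : x ∈ (P : Subgroup G) := hP (Subgroup.mem_zpowers x)
    have htP : t ∈ (P : Subgroup G) := hP htx
    obtain ⟨N, hNn, hNodd, hN⟩ := hZ G P t ht2 htP
      (fun g hg => isolated_conj_power_eq P hxP hiso t htx g hg)
    have hNbot : N = ⊥ := normal_coprime_eq_bot hO hNn (Nat.coprime_two_right.2 hNodd)
    have htc : ∀ g : G, g * t = t * g := by
      intro g
      have h1 := hN g
      rw [hNbot, Subgroup.mem_bot] at h1
      have h2 : t * g * t⁻¹ = g := by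
        have := mul_eq_one_iff_eq_inv.1 h1
        rw [this, inv_inv]
      calc g * t = (t * g * t⁻¹) * t := by rw [h2]
        _ = t * g := by group
    have hle : Subgroup.zpowers t ≤ Subgroup.center G := by
      rw [Subgroup.zpowers_le]
      exact Subgroup.mem_center_iff.2 htc
    have hnorm : (Subgroup.zpowers t).Normal := by
      refine ⟨fun y hy g => ?_⟩
      have h1 := Subgroup.mem_center_iff.1 (hle hy) g
      rw [h1, mul_inv_cancel_right]
      exact hy
    have hne : Subgroup.zpowers t ≠ ⊥ := by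
      intro h0
      have h1 : t ∈ (⊥ : Subgroup G) := h0 ▸ Subgroup.mem_zpowers t
      rw [Subgroup.mem_bot] at h1
      rw [h1, orderOf_one] at ht2
      omega
    exact false_of_central_normal hO hiso hnz hquot (Subgroup.zpowers t) hne hle

theorem inZStar_of_isolated (hZ : ZStarInvHyp.{u}) {G : Type u} [Group G] [Finite G] {x : G}
    (hx : ∃ k : ℕ, x ^ (2 ^ k) = 1) (hiso : IsIsolated x) : InZStar 2 x :=
  inZStar_of_isolated_aux hZ _ G rfl x hx hiso

section Fusion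

variable {G : Type u} [Group G] [Finite G]

/-- An element of a Sylow 2-subgroup `S` having no other conjugate in `S` is isolated. -/
theorem isIsolated_of_sylow (S : Sylow 2 G) {x : G} (hxS : x ∈ (S : Subgroup G))
    (h : ∀ g : G, g * x * g⁻¹ ∈ (S : Subgroup G) → g * x * g⁻¹ = x) : IsIsolated x := by
  have : Fact (Nat.Prime 2) := ⟨Nat.prime_two⟩
  intro g hc
  have hx2 : ∃ k : ℕ, x ^ (2 ^ k) = 1 := exists_pow_eq_one_of_mem S.isPGroup' hxS
  have hx'2 : ∃ k : ℕ, (g * x * g⁻¹) ^ (2 ^ k) = 1 := by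
    obtain ⟨k, hk⟩ := hx2
    exact ⟨k, by rw [conj_pow, hk]; simp⟩
  have hD : IsPGroup 2 ↥(Subgroup.zpowers x ⊔ Subgroup.zpowers (g * x * g⁻¹)) :=
    IsPGroup.to_sup_of_normal_right' (isPGroup_zpowers x hx2) (isPGroup_zpowers _ hx'2)
      (by rw [Subgroup.zpowers_le]; exact mem_normalizer_zpowers_of_commute hc)
  obtain ⟨a, -, ha⟩ := exists_conj_le_sylow_of_le S (K := ⊤) le_top le_top hD
  have h1 := h a (ha x (Subgroup.mem_sup_left (Subgroup.mem_zpowers x)))
  have h2 : a * (g * x * g⁻¹) * a⁻¹ ∈ (S : Subgroup G) :=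
    ha _ (Subgroup.mem_sup_right (Subgroup.mem_zpowers _))
  have e : (a * g) * x * (a * g)⁻¹ = a * (g * x * g⁻¹) * a⁻¹ := by group
  have h3 : (a * g) * x * (a * g)⁻¹ = x := h (a * g) (by rw [e]; exact h2)
  have h4 : a * (g * x * g⁻¹) * a⁻¹ = a * x * a⁻¹ := by rw [h1, ← e, h3]
  exact mul_left_cancel (mul_right_cancel h4)

/-- Membership in the preimage of the centre of `G ⧸ O(G)`. -/
theorem mem_comap_center_oddCore (x : G) :
    x ∈ (Subgroup.center (G ⧸ Cfsg.oddCore G)).comap (QuotientGroup.mk' (Cfsg.oddCore G)) ↔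
      ∀ g : G, g * x * g⁻¹ * x⁻¹ ∈ Cfsg.oddCore G := by
  have hOn : (Cfsg.oddCore G).Normal := inferInstance
  rw [Subgroup.mem_comap, Subgroup.mem_center_iff]
  constructor
  · intro h g
    have h1 : ((g⁻¹ * x : G) : G ⧸ Cfsg.oddCore G) = ((x * g⁻¹ : G) : G ⧸ Cfsg.oddCore G) :=
      h (QuotientGroup.mk g⁻¹)
    rw [QuotientGroup.eq] at h1
    have h2 := hOn.conj_mem _ h1 x
    have e : x * ((g⁻¹ * x)⁻¹ * (x * g⁻¹)) * x⁻¹ = g * x * g⁻¹ * x⁻¹ := by group
    rw [e] at h2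
    exact h2
  · intro h q
    obtain ⟨g, rfl⟩ := QuotientGroup.mk_surjective q
    show ((g * x : G) : G ⧸ Cfsg.oddCore G) = ((x * g : G) : G ⧸ Cfsg.oddCore G)
    rw [QuotientGroup.eq]
    have h2 := hOn.conj_mem _ (h g⁻¹) x⁻¹
    have e : x⁻¹ * (g⁻¹ * x * g⁻¹⁻¹ * x⁻¹) * x⁻¹⁻¹ = (g * x)⁻¹ * (x * g) := by group
    rw [e] at h2
    exact h2

/-- A Sylow 2-subgroup meets the odd core trivially. -/
theorem eq_one_of_mem_sylow_of_mem_oddCore (S : Sylow 2 G) {z : G} (hzS : z ∈ (S : Subgroup G))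
    (hzO : z ∈ Cfsg.oddCore G) : z = 1 := by
  obtain ⟨k, hk⟩ := exists_pow_eq_one_of_mem S.isPGroup' hzS
  have h1 : orderOf z ∣ 2 ^ k := orderOf_dvd_of_pow_eq_one hk
  have h2 : orderOf z ∣ Nat.card (Cfsg.oddCore G) := Subgroup.orderOf_dvd_natCard _ hzO
  have hc : (Nat.card (Cfsg.oddCore G)).Coprime (2 ^ k) :=
    Nat.Coprime.pow_right k (Cfsg.Agent.Lib.Helper30.pPrimeCore_coprime 2)
  have h3 : orderOf z ∣ 1 := by
    rw [← Nat.Coprime.gcd_eq_one hc]
    exact Nat.dvd_gcd h2 h1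
  exact orderOf_eq_one_iff.1 (Nat.dvd_one.1 h3)

/-- S5094 from the Z*-theorem for involutions. -/
theorem zstar_fusion (hZ : ZStarInvHyp.{u}) (S : Sylow 2 G) :
    (Cfsg.groupFusionSystem (S : Subgroup G)).center =
      (S : Subgroup G) ⊓ (Subgroup.center (G ⧸ Cfsg.oddCore G)).comap
        (QuotientGroup.mk' (Cfsg.oddCore G)) := by
  have : Fact (Nat.Prime 2) := ⟨Nat.prime_two⟩
  have hOn : (Cfsg.oddCore G).Normal := inferInstance
  apply le_antisymm
  · apply sSup_le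
    rintro Q ⟨hQS, hQ⟩
    intro x hxQ
    have hxS : x ∈ (S : Subgroup G) := hQS hxQ
    have hiso' : ∀ g : G, g * x * g⁻¹ ∈ (S : Subgroup G) → g * x * g⁻¹ = x := by
      intro g hg
      have hφ : conjHom (Subgroup.zpowers x) g ∈
          (Cfsg.groupFusionSystem (S : Subgroup G)).Hom (Subgroup.zpowers x) := by
        refine ⟨(Subgroup.zpowers_le).2 hxS, ?_, g, fun _ => rfl⟩
        rintro ⟨y, hy⟩
        obtain ⟨i, rfl⟩ := Subgroup.mem_zpowers_iff.1 hy
        show g * x ^ i * g⁻¹ ∈ (S : Subgroup G)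
        rw [← conj_zpow]
        exact Subgroup.zpow_mem _ hg i
      obtain ⟨ψ, -, hψ1, hψ2⟩ := hQ (Subgroup.zpowers x) _ hφ
      have e1 := hψ1 ⟨x, Subgroup.mem_zpowers x⟩
      have e2 := hψ2 ⟨x, hxQ⟩
      have e3 : Subgroup.inclusion (le_sup_left : Subgroup.zpowers x ≤ Subgroup.zpowers x ⊔ Q)
          ⟨x, Subgroup.mem_zpowers x⟩ =
          Subgroup.inclusion (le_sup_right : Q ≤ Subgroup.zpowers x ⊔ Q) ⟨x, hxQ⟩ := rfl
      rw [e3, e2] at e1
      exact e1.symm
    have hI : IsIsolated x := isIsolated_of_sylow S hxS hiso'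
    have hz : InZStar 2 x :=
      inZStar_of_isolated hZ (exists_pow_eq_one_of_mem S.isPGroup' hxS) hI
    exact ⟨hxS, (mem_comap_center_oddCore x).2 hz⟩
  · apply le_sSup
    refine ⟨inf_le_left, ?_⟩
    rintro P φ ⟨hPS, hφS, g, hg⟩
    generalize hQ₀ : (S : Subgroup G) ⊓ (Subgroup.center (G ⧸ Cfsg.oddCore G)).comap
        (QuotientGroup.mk' (Cfsg.oddCore G)) = Q₀
    have hQ₀S : Q₀ ≤ (S : Subgroup G) := hQ₀ ▸ inf_le_left
    have hQ₀c : ∀ x ∈ Q₀, ∀ g : G, g * x * g⁻¹ * x⁻¹ ∈ Cfsg.oddCore G := by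
      intro x hx
      rw [← hQ₀] at hx
      exact (mem_comap_center_oddCore x).1 hx.2
    have hφS' : ∀ y ∈ P, g * y * g⁻¹ ∈ (S : Subgroup G) := by
      intro y hy
      have h1 := hφS ⟨y, hy⟩
      rw [hg] at h1
      exact h1
    have hDp : IsPGroup 2 ↥((P ⊔ Q₀).map (MulAut.conj g).toMonoidHom) :=
      (S.isPGroup'.to_le (sup_le hPS hQ₀S)).map _
    have hDH : (P ⊔ Q₀).map (MulAut.conj g).toMonoidHom ≤ (S : Subgroup G) ⊔ Cfsg.oddCore G := by
      rw [Subgroup.map_le_iff_le_comap]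
      apply sup_le
      · intro y hy
        rw [Subgroup.mem_comap]
        exact Subgroup.mem_sup_left (hφS' y hy)
      · intro x hx
        rw [Subgroup.mem_comap]
        show g * x * g⁻¹ ∈ (S : Subgroup G) ⊔ Cfsg.oddCore G
        have e : g * x * g⁻¹ = (g * x * g⁻¹ * x⁻¹) * x := by group
        rw [e]
        exact Subgroup.mul_mem _ (Subgroup.mem_sup_right (hQ₀c x hx g))
          (Subgroup.mem_sup_left (hQ₀S hx))
    obtain ⟨a, haH, ha⟩ := exists_conj_le_sylow_of_le S le_sup_left hDH hDp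
    have haH' : a ∈ ((S : Subgroup G) : Set G) * ((Cfsg.oddCore G : Subgroup G) : Set G) := by
      rw [← Subgroup.mul_normal]
      exact haH
    obtain ⟨s, hs, n, hn, rfl⟩ := Set.mem_mul.1 haH'
    have hnD : ∀ y ∈ (P ⊔ Q₀).map (MulAut.conj g).toMonoidHom,
        n * y * n⁻¹ ∈ (S : Subgroup G) := by
      intro y hy
      have h1 := ha y hy
      have e : n * y * n⁻¹ = s⁻¹ * (s * n * y * (s * n)⁻¹) * s := by group
      rw [e]
      exact Subgroup.mul_mem _ (Subgroup.mul_mem _ (Subgroup.inv_mem _ hs) h1) hs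
    have hfix : ∀ z : G, z ∈ (S : Subgroup G) → n * z * n⁻¹ ∈ (S : Subgroup G) →
        n * z * n⁻¹ = z := by
      intro z hz hnz
      have h1 : n * z * n⁻¹ * z⁻¹ ∈ Cfsg.oddCore G := by
        have e : n * z * n⁻¹ * z⁻¹ = n * (z * n⁻¹ * z⁻¹) := by group
        rw [e]
        exact Subgroup.mul_mem _ hn (hOn.conj_mem _ (Subgroup.inv_mem _ hn) z)
      have h2 : n * z * n⁻¹ * z⁻¹ ∈ (S : Subgroup G) :=
        Subgroup.mul_mem _ hnz (Subgroup.inv_mem _ hz)
      exact mul_inv_eq_one.1 (eq_one_of_mem_sylow_of_mem_oddCore S h2 h1)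
    have hP1 : ∀ y ∈ P, (n * g) * y * (n * g)⁻¹ = g * y * g⁻¹ := by
      intro y hy
      have hzD : g * y * g⁻¹ ∈ (P ⊔ Q₀).map (MulAut.conj g).toMonoidHom :=
        ⟨y, Subgroup.mem_sup_left hy, rfl⟩
      have e : (n * g) * y * (n * g)⁻¹ = n * (g * y * g⁻¹) * n⁻¹ := by group
      rw [e]
      exact hfix _ (hφS' y hy) (hnD _ hzD)
    have hQ1 : ∀ x ∈ Q₀, (n * g) * x * (n * g)⁻¹ = x := by
      intro x hx
      have hzD : g * x * g⁻¹ ∈ (P ⊔ Q₀).map (MulAut.conj g).toMonoidHom :=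
        ⟨x, Subgroup.mem_sup_right hx, rfl⟩
      have e : (n * g) * x * (n * g)⁻¹ = n * (g * x * g⁻¹) * n⁻¹ := by group
      have h1 : (n * g) * x * (n * g)⁻¹ ∈ (S : Subgroup G) := by
        rw [e]
        exact hnD _ hzD
      have h2 : (n * g) * x * (n * g)⁻¹ * x⁻¹ ∈ (S : Subgroup G) :=
        Subgroup.mul_mem _ h1 (Subgroup.inv_mem _ (hQ₀S hx))
      exact mul_inv_eq_one.1 (eq_one_of_mem_sylow_of_mem_oddCore S h2 (hQ₀c x hx (n * g)))
    have hle : P ⊔ Q₀ ≤ (S : Subgroup G).comap (MulAut.conj (n * g)).toMonoidHom := by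
      apply sup_le
      · intro y hy
        rw [Subgroup.mem_comap]
        show (n * g) * y * (n * g)⁻¹ ∈ (S : Subgroup G)
        rw [hP1 y hy]
        exact hφS' y hy
      · intro x hx
        rw [Subgroup.mem_comap]
        show (n * g) * x * (n * g)⁻¹ ∈ (S : Subgroup G)
        rw [hQ1 x hx]
        exact hQ₀S hx
    refine ⟨conjHom (P ⊔ Q₀) (n * g), ⟨sup_le hPS hQ₀S, ?_, n * g, fun _ => rfl⟩, ?_, ?_⟩
    · rintro ⟨z, hz⟩
      exact hle hz
    · rintro ⟨y, hy⟩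
      show (n * g) * y * (n * g)⁻¹ = φ ⟨y, hy⟩
      rw [hP1 y hy, hg]
    · rintro ⟨x, hx⟩
      show (n * g) * x * (n * g)⁻¹ = x
      exact hQ1 x hx

end Fusion

end Cfsg.Agent.Lib.Helper87
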